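import Cfsg.Agent.Lib.TO.Cen
import Cfsg.Agent.Lib.TO.Zd
import Cfsg.Agent.Lib.Loc.StronglyEmbedded
import Cfsg.Agent.Lib.Frobenius.Theorem

/-!
# Non-cyclic `p`-groups acting on groups, and Glauberman's theorem in quotients
-/

set_option autoImplicit false

namespace Cfsg.Lib.TQ

open Subgroup Cfsg.Lib.ZD Cfsg.Lib.GW Cfsg.Lib.TO Cfsg.Lib.Transfer

variable {G : Type*} [Group G] [Finite G] {p : ℕ} [Fact p.Prime] {A H X N : Subgroup G} {z x : G}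

theorem mem_core_of_conj {K : Subgroup G}
    (h : ∀ S ≤ K, ¬ S ≤ K.normalCore → normalizer (S : Set G) ≤ K) {g k : G} (hg : g ∉ K)
    (hk : k ∈ K) (e : g * k * g⁻¹ ∈ K) : k ∈ K.normalCore := by
  by_contra h1
  let f := QuotientGroup.mk' K.normalCore
  have k1 : (K.map f).comap f = K := comap_map_eq_self (by simpa [f] using K.normalCore_le)
  obtain ⟨r, hr, h2⟩ := Nat.exists_prime_and_dvd (n := orderOf (f k))
    fun e => h1 ((QuotientGroup.eq_one_iff k).1 (orderOf_eq_one_iff.1 e))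
  have := Fact.mk hr
  refine hg (inv_mem_iff.1 (k1.le (Loc.mem_of_normalizers_le (p := r) (H := K.map f) (g := f g⁻¹)
    (fun S hS _ h0 a ha => ?_) (h2.trans (Subgroup.orderOf_dvd_natCard _ (mem_inf.2
      ⟨⟨k, hk, rfl⟩, _, ⟨_, e, rfl⟩, by simp [mul_assoc]⟩))))))
  obtain ⟨a, rfl⟩ := QuotientGroup.mk'_surjective _ a
  refine ⟨a, h (S.comap f) ((comap_mono hS).trans k1.le) (fun e => h0 (eq_bot_iff.2 fun s hs => ?_))
    (le_normalizer_comap f ha), rfl⟩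
  obtain ⟨s, rfl⟩ := QuotientGroup.mk'_surjective _ s
  exact (QuotientGroup.eq_one_iff s).2 (e hs)

/-- A non-cyclic abelian `p`-group centralising a strongly `p`-embedded subgroup. -/
theorem le_of_act (hA : IsPGroup p A) (hab : IsMulCommutative A) (hnc : ¬ IsCyclic A)
    (hn : A ≤ normalizer (X : Set G)) (hc : ∀ a ∈ A, a ≠ 1 → ∀ g ∈ X, g * a = a * g → g ∈ H)
    (hk : ∀ a ∈ A, ∀ k ∈ X, k ∈ H → k * a = a * k)
    (hp : ∀ x ∈ X, x ∈ H → x ≠ 1 → x ^ p = 1 → ∀ g ∈ X, g * x * g⁻¹ ∈ H → g ∈ H) : X ≤ H := by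
  induction X using WellFoundedLT.induction with | ind X ih => ?_
  have ih' : ∀ Y : Subgroup X, Y ≠ ⊤ → (∀ a (ha : a ∈ A), ∀ y ∈ Y,
      (⟨a * y * a⁻¹, (hn ha y).1 y.2⟩ : X) ∈ Y) → Y ≤ H.subgroupOf X := fun Y h1 h2 y hy =>
    ih (Y.map X.subtype) ((map_subtype_le Y).lt_of_ne fun e => h1 (eq_top_iff.2 fun x _ =>
      let ⟨_, h, e'⟩ := e.ge x.2; Subtype.ext e' ▸ h))
      (fun a ha => mem_normalizer_fintype (by rintro _ ⟨y, hy, rfl⟩; exact ⟨_, h2 a ha y hy, rfl⟩))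
      (fun a ha h g hg => hc a ha h g (map_subtype_le Y hg))
      (fun a ha g hg => hk a ha g (map_subtype_le Y hg))
      (fun x hx h1 h2 h3 g hg => hp x (map_subtype_le Y hx) h1 h2 h3 g (map_subtype_le Y hg))
      ⟨y, hy, rfl⟩
  obtain ⟨N, -, h1, h2, h3⟩ := Frobenius.wielandt (H.subgroupOf X).normalCore_le
    le_normalizer_of_normal fun g hg k => mem_core_of_conj (fun S hS h => ih' _ (fun e => h <|
      have := normalizer_eq_top_iff.1 e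
      normal_le_normalCore.2 hS) fun a ha y hy => mem_normalizer_fintype fun s hs => by
        have e1 := hk a⁻¹ (inv_mem ha) s s.2 (hS hs)
        have e2 := hk a ha _ (y * s * y⁻¹).2 (hS ((hy s).1 hs))
        convert (hy s).1 hs using 1
        ext
        simp only [coe_mul, InvMemClass.coe_inv, mul_inv_rev, inv_inv] at e2 ⊢
        calc _ = a * (y * (a⁻¹ * s * a) * y.1⁻¹) * a⁻¹ := by group
          _ = _ := by rw [← e1, inv_mul_cancel_right, ← e2, mul_inv_cancel_right]) hg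
  by_cases h4 : N = ⊤
  swap
  · rw [sup_eq_right.2 (ih' N h4 fun a ha y hy => (h1 _).2 fun g hg => ?_)] at h3
    · exact fun x hx => h3.ge (mem_top (⟨x, hx⟩ : X))
    let g' : X := ⟨a⁻¹ * g * a⁻¹⁻¹, (hn (inv_mem ha) g).1 g.2⟩
    have e := hk a ha _ (mul_mem (mul_mem g.2 ((hn ha y).1 y.2)) (inv_mem g.2)) hg
    have : g * ⟨a * y * a⁻¹, (hn ha y).1 y.2⟩ * g⁻¹ = g' * y * g'⁻¹ := Subtype.ext (by
      simp only [coe_mul, InvMemClass.coe_inv, mul_inv_rev, inv_inv, g']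
      calc _ = a⁻¹ * (g * (a * y * a⁻¹) * g.1⁻¹ * a) := by rw [e, inv_mul_cancel_left]
        _ = _ := by group)
    rw [this] at hg ⊢
    exact (h1 y).1 hy _ hg
  by_cases h5 : p ∣ Nat.card X
  · obtain ⟨x, hx, h6, h7⟩ := exists_order.1 (dvd_card_cent hA hn h5)
    obtain ⟨a, ha, h8⟩ := A.bot_or_exists_ne_one.resolve_left fun e => hnc (e ▸ Bot.isCyclic)
    have h9 := hc a ha h8 x hx.1 (hx.2 a ha).symm
    rw [h4, top_inf_eq] at h2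
    exact fun g hg => hp x hx.1 h9 h6 h7 g hg (h2.ge ((normalCore_normal _).conj_mem ⟨x, hx.1⟩
      (h2.le h9) ⟨g, hg⟩))
  obtain ⟨n, e⟩ := IsPGroup.iff_card.1 hA
  exact BG.coprime_abelian_gen_cent1 hab hnc hn
    (e ▸ ((Nat.Prime.coprime_iff_not_dvd Fact.out).2 h5).pow_left n) fun a ha h x hx =>
      hc a ha h x hx.1 (hx.2 _ rfl).symm

/-- Glauberman's theorem modulo a normal subgroup. -/
theorem le_of_zstar [(N.subgroupOf X).Normal] (hN : N ≤ H) (hz : z * z ∈ N) (h1 : z ∈ X) (h2 : z ∈ H)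
    (h3 : z ∉ N) (fus : ∀ g ∈ X, g * z * g⁻¹ ∈ H → g ∈ H)
    (iso : ∀ g ∈ X, g ∈ H → z⁻¹ * (g * z * g⁻¹) ∈ N)
    (odd : ∀ a : X, QuotientGroup.mk' (N.subgroupOf X) a ∈ Od ⊤ → a.1 ∈ H) : X ≤ H := by
  intro g hg
  let f := QuotientGroup.mk' (N.subgroupOf X)
  have k1 : ∀ a b : X, f a = f b ↔ a.1⁻¹ * b ∈ N := fun a b => QuotientGroup.eq
  have := odd (⟨z, h1⟩ * ⟨g, hg⟩ * ⟨z, h1⟩⁻¹ * ⟨g, hg⟩⁻¹) (zstar_sub (M := ⊤) (z := f ⟨z, h1⟩)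
    (Inv.orderOf_eq_two_iff.2 ⟨fun e => h3 ((QuotientGroup.eq_one_iff (⟨z, h1⟩ : X)).1 e),
      by
        rw [← map_mul]; exact (QuotientGroup.eq_one_iff _).2 (mem_subgroupOf.2 hz)⟩) trivial (fun a _ e => ?_)
      (g := f ⟨g, hg⟩) trivial)
  · exact fus g hg (by simpa [mul_assoc] using inv_mem (mul_mem (inv_mem h2) this))
  obtain ⟨a, rfl⟩ := QuotientGroup.mk'_surjective _ a
  rw [eq_comm, ← mul_inv_eq_iff_eq_mul, eq_comm] at e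
  simp only [← map_inv, ← map_mul] at e ⊢
  refine ((k1 _ _).2 (iso a a.2 (fus a a.2 (fus _ (a * ⟨z, h1⟩ * a⁻¹).2 ?_)))).symm
  simpa using mul_mem h2 (hN ((k1 _ _).1 e))

theorem normal_of_conj (h : ∀ g ∈ X, ∀ n ∈ N, g * n * g⁻¹ ∈ N) : (N.subgroupOf X).Normal :=
  ⟨fun n hn g => h g g.2 n hn⟩

theorem le_of_four (hn : ∀ g ∈ X, ∀ n ∈ N, g * n * g⁻¹ ∈ N) (hN : N ≤ H) (hz : z * z = 1)
    (hx : x * x = 1) (hc : z * x = x * z) (h2 : z ∈ H) (h : ∀ y ∈ ({z, x, z * x} : Set G),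
      y ∈ X ∧ y ∉ N ∧ ∀ g ∈ X, y⁻¹ * (g * y * g⁻¹) ∈ N → g ∈ H)
    (fus : ∀ g ∈ X, g * z * g⁻¹ ∈ H → g ∈ H) (iso : ∀ g ∈ X, g ∈ H → z⁻¹ * (g * z * g⁻¹) ∈ N) :
    X ≤ H := by
  obtain ⟨z1, z3, z4⟩ := h z (by simp)
  obtain ⟨x1, x3, x4⟩ := h x (by simp)
  obtain ⟨y1, y3, y4⟩ := h (z * x) (by simp)
  have := normal_of_conj hn
  refine le_of_zstar hN (hz ▸ one_mem N) z1 h2 z3 fus iso fun a ha => ?_
  let f := QuotientGroup.mk' (N.subgroupOf X)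
  have k1 : ∀ a b : X, f a = f b ↔ a.1⁻¹ * b ∈ N := fun a b => QuotientGroup.eq
  have k4 : ∀ y : X, y.1 ∉ N → f y ≠ 1 := fun y h e => h ((QuotientGroup.eq_one_iff y).1 e)
  have hV : Small.FourGen (f ⟨z, z1⟩) (f ⟨x, x1⟩) := ⟨k4 _ z3, k4 _ x3,
    fun e => y3 (by simpa [inv_eq_of_mul_eq_one_right hz] using (k1 _ _).1 e),
    by rw [← map_mul]; exact congrArg f (Subtype.ext hz),
    by rw [← map_mul]; exact congrArg f (Subtype.ext hx),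
    by rw [← map_mul, ← map_mul]; exact congrArg f (Subtype.ext hc)⟩
  have k5 : ∀ y : X, (∀ g ∈ X, y.1⁻¹ * (g * y * g⁻¹) ∈ N → g ∈ H) →
      Od ⊤ ⊓ centralizer {f y} ≤ (H.subgroupOf X).map f := fun y h1 a ha => by
    obtain ⟨a, rfl⟩ := QuotientGroup.mk'_surjective _ a
    refine ⟨a, h1 a a.2 ((k1 y (a * y * a⁻¹)).1 ?_), rfl⟩
    rw [map_mul, map_mul, map_inv, eq_mul_inv_iff_mul_eq]
    exact ha.2 _ rfl
  obtain ⟨b, hb, e⟩ := gen_four hV ((Od_nml ⊤).norm trivial) ((Od_nml ⊤).norm trivial) (odd_Od ⊤)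
    (k5 _ z4) (k5 _ x4) (map_mul f _ _ ▸ k5 ⟨z * x, y1⟩ y4) ha
  simpa using H.mul_mem hb (hN ((k1 _ _).1 e))

theorem le_of_zstar' (hn : ∀ g ∈ X, ∀ n ∈ N, g * n * g⁻¹ ∈ N) (hN : N ≤ H) (hz : z * z ∈ N)
    (h1 : z ∈ X) (h2 : z ∈ H) (h3 : z ∉ N) (fus : ∀ g ∈ X, g * z * g⁻¹ ∈ H → g ∈ H)
    (iso : ∀ g ∈ X, g ∈ H → z⁻¹ * (g * z * g⁻¹) ∈ N) (odd : ∀ Y ≤ X, X ≤ normalizer (Y : Set G) →
      (∀ y ∈ Y, y * y ∈ N → y ∈ N) → Y ≤ H) : X ≤ H := by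
  have := normal_of_conj hn
  refine le_of_zstar hN hz h1 h2 h3 fus iso fun a ha => odd
    (((Od ⊤).comap (QuotientGroup.mk' (N.subgroupOf X))).map X.subtype) (map_subtype_le _)
    (fun g hg => mem_normalizer_fintype ?_) ?_ ⟨a, ha, rfl⟩
  · rintro _ ⟨y, hy, rfl⟩
    exact ⟨⟨g, hg⟩ * y * ⟨g, hg⟩⁻¹, ((Od_nml ⊤).norm
      (x := QuotientGroup.mk' _ (⟨g, hg⟩ : X)) trivial _).1 hy, rfl⟩
  rintro _ ⟨y, hy, rfl⟩ e
  exact (QuotientGroup.eq_one_iff y).1 (Inv.eq_one_of_odd_of_mul_self (odd_of_mem_Od hy)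
    ((QuotientGroup.eq_one_iff (y * y)).2 e))

end Cfsg.Lib.TQ
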