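import Cfsg.Agent.Lib.TO.Five
import Cfsg.Agent.Lib.TO.Mix

/-!
# Four-dimensional orthogonal tensor factors of minus type: geometry of one factor
-/

set_option autoImplicit false
set_option linter.unusedSectionVars false

namespace Cfsg.Lib.TQ

open Module QuadraticMap Cfsg.Lib.TW Cfsg.Lib.TMax Function Cfsg.Lib.TO
open Cfsg.Lib.Orth
open Cfsg.Lib.Unitary (UG)
open scoped commutatorElement

variable {F U : Type*} [Field F] [AddCommGroup U] [Module F U] {q : QuadraticForm F U}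

/-- Hypotheses on an orthogonal tensor factor. -/
structure OU (q : QuadraticForm F U) : Prop where
  nd : ND q
  two : (2 : F) ≠ 0
  four : finrank F U = 4
  w1 : W1 q

variable [Finite F] [FiniteDimensional F U]

namespace OU

variable (γ : OU q)
include γ

theorem three : 3 ≤ finrank F U := γ.four ▸ by decide

theorem ef : EF (RingHom.id F) 1 (polarBilin q) := ef_polar γ.nd

theorem t3 : T3 (polarBilin q) := γ.ef.t3 γ.two γ.three

theorem nontrivial : Nontrivial U := nontrivial_of_finrank_pos (R := F) (by have := γ.three; omega)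

theorem exists_hyp : ∃ w f, IsHyp q w f := exists_isHyp_of_three_le γ.nd γ.three

theorem hyp {w : U} (h0 : w ≠ 0) (hw : q w = 0) : ∃ f, IsHyp q w f := exists_isHyp γ.nd hw h0

theorem exists_aniso {w : U} (h0 : w ≠ 0) (hw : q w = 0) : ∃ s, polar q w s = 0 ∧ q s ≠ 0 :=
  let ⟨_, h⟩ := γ.hyp h0 hw
  let ⟨s, h1, h2⟩ := h.exists_nonsingular γ.nd γ.three
  ⟨s, (mem_hperp.1 h1).1, h2⟩

theorem move {x y : U} (hx0 : x ≠ 0) (hx : q x = 0) (hy0 : y ≠ 0) (hy : q y = 0) :
    ∃ g ∈ eichGroup q, ∃ c : F, c ≠ 0 ∧ g.1 x = c • y :=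
  exists_eichGroup_map_singular γ.nd γ.three hx hy hx0 hy0

theorem qe_le (e : U) (he : polarBilin q e e = 0) : Unitary.QE (polarBilin q) e ≤ Nq q := by
  rcases eq_or_ne e 0 with rfl | h0
  · exact QE_le_zero
  intro g hg
  obtain ⟨z, -, hz⟩ := OMax.exists_eq_eich γ.nd (g := ⟨g, mem_O_of_UG γ.two hg.1⟩) h0
    (by simpa [polar_self', γ.two] using he) hg.2.1 hg.2.2
  exact ⟨_, eich_mem_eichGroup e z, (congrArg Subtype.val hz).symm⟩

theorem nonperp {w : U} (h0 : w ≠ 0) (hw : q w = 0) (S : AddSubgroup U)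
    (hS : ∀ y, q y = 0 → polar q w y ≠ 0 → y ∈ S) (y : U) : y ∈ S :=
  let ⟨_, h⟩ := γ.hyp h0 hw
  let ⟨_, h1, h2⟩ := h.exists_nonsingular γ.nd γ.three
  span_nonperp γ.two h h1 h2 S hS y

theorem span_sing (S : AddSubgroup U) (hS : ∀ y, q y = 0 → y ∈ S) (y : U) : y ∈ S :=
  let ⟨_, _, h⟩ := γ.exists_hyp
  γ.nonperp h.ne_zero h.left S (fun y hy _ => hS y hy) y

theorem ind₂ {X : Type*} [AddCommGroup X] [Module F X] (φ : U →ₗ[F] U →ₗ[F] X) (S : AddSubgroup X)
    (h : ∀ x y, q x = 0 → q y = 0 → polar q x y ≠ 0 → φ x y ∈ S) (x y : U) : φ x y ∈ S := by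
  refine γ.span_sing (S.comap (φ.flip y).toAddMonoidHom) (fun w hw => ?_) x
  rcases eq_or_ne w 0 with rfl | h0
  · exact zero_mem _
  exact γ.nonperp h0 hw (S.comap (φ w).toAddMonoidHom) (fun y => h w y hw) y

theorem mem_of_perp {w y : U} (h : ∀ s, polar q w s = 0 → polar q s y = 0) : y ∈ F ∙ w :=
  γ.ef.mem_of_perp fun s hs => h s (Unitary.mem_perp_singleton.1 hs)

theorem scalar_of_fix {β : End F U} (h : ∀ u, q u = 0 → β u ∈ F ∙ u) : ∃ c : F, ∀ x, β x = c • x :=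
  let ⟨_, _, h1⟩ := γ.exists_hyp
  γ.ef.scalar_of_fix γ.t3 h1.ne_zero h1.polar_left fun u hu =>
    h u (by simpa [polar_self', γ.two] using hu)

theorem aniso {w f y : U} (h : IsHyp q w f) (hy : y ∈ hperp q w f) (h0 : y ≠ 0) : q y ≠ 0 := fun e => by
  obtain ⟨c, rfl⟩ := Submodule.mem_span_singleton.1 (γ.w1 w y h.ne_zero h.left e (mem_hperp.1 hy).1)
  exact h0 (by simpa [h.polar_eq', h.ne_zero] using (mem_hperp.1 hy).2)

theorem mem_eich {b : O q} : b ∈ eichGroup q ↔ dickson γ.nd b = 1 ∧ spinor γ.nd b = 1 :=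
  have hE := not_exc_of_two_ne_zero (Q := q) γ.two
  commutator_eq_eichGroup' γ.nd hE γ.three ▸ mem_commutator_iff γ.nd hE b

theorem hrot_mem {w f x y : U} (h : IsHyp q w f) (hx : q x ≠ 0) (hy : q y ≠ 0) :
    hrot q w f (q x * q y) * (refl q x * refl q y) ∈ eichGroup q := by
  have h1 : q (w - (q x * q y)⁻¹ • f) ≠ 0 := by simp [h.Q_sub_smul, hx, hy]
  have h2 : q (w - (1 : F) • f) ≠ 0 := by rw [h.Q_sub_smul]; simp
  simp only [γ.mem_eich, hrot, map_mul, dickson_refl _ h1, dickson_refl _ h2, dickson_refl _ hx,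
    dickson_refl _ hy, spinor_refl _ h1, spinor_refl _ h2, spinor_refl _ hx, spinor_refl _ hy,
    ← sqsign_mul h1 h2, ← sqsign_mul hx hy]
  rw [h.Q_sub_smul, h.Q_sub_smul, show -(q x * q y)⁻¹ * -1 = (q x * q y)⁻¹ by ring, sqsign_inv]
  simp

/-- An orthogonal basis of the anisotropic plane. -/
theorem plane {w f x : U} (h : IsHyp q w f) (hx : x ∈ hperp q w f) (h0 : x ≠ 0) :
    ∃ y ∈ hperp q w f, q y ≠ 0 ∧ polar q x y = 0 ∧
      ∀ s ∈ hperp q w f, ∃ a b : F, s = a • x + b • y := by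
  have h1 := h.finrank_hperp γ.nd
  have h2 := γ.four
  have h3 := γ.aniso h hx h0
  have := γ.two
  obtain ⟨y, hy, hy'⟩ := SetLike.not_le_iff_exists.1 (show ¬ hperp q w f ≤ F ∙ x from fun e => by
    have := Submodule.finrank_mono e
    have := finrank_span_le (F := F) x
    omega)
  obtain ⟨y, hy, hy', e⟩ : ∃ y ∈ hperp q w f, y ∉ F ∙ x ∧ polar q x y = 0 :=
    ⟨y - (polar q x y / (2 * q x)) • x, sub_mem hy (Submodule.smul_mem _ _ hx), fun e => hy' (by
      simpa using add_mem e (Submodule.smul_mem _ (polar q x y / (2 * q x))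
        (Submodule.mem_span_singleton_self x))), by
      rw [polar_sub_right, polar_smul_right', polar_self']; field_simp; ring⟩
  refine ⟨y, hy, γ.aniso h hy fun e => hy' (e ▸ zero_mem _), e, fun s hs => ?_⟩
  obtain ⟨a, b, e⟩ := Submodule.mem_span_pair.1 ((Submodule.eq_of_le_of_finrank_le
    (show Submodule.span F {x, y} ≤ hperp q w f from Submodule.span_le.2 (by
      rintro _ (rfl | rfl) <;> assumption)) (by
    rw [Unitary.finrank_span_pair_of_linearIndependent ((LinearIndependent.pair_iff' h0).2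
      fun a ha => hy' (Submodule.mem_span_singleton.2 ⟨a, ha⟩))]; omega)).ge hs)
  exact ⟨a, b, e.symm⟩

theorem plane' {w f : U} (h : IsHyp q w f) : ∃ x ∈ hperp q w f, ∃ y ∈ hperp q w f, q x ≠ 0 ∧
    q y ≠ 0 ∧ polar q x y = 0 ∧ ∀ s ∈ hperp q w f, ∃ a b : F, s = a • x + b • y :=
  let ⟨x, h1, h2⟩ := h.exists_nonsingular γ.nd γ.three
  let ⟨y, h3, h4⟩ := γ.plane h h1 (by rintro rfl; simp at h2)
  ⟨x, h1, y, h3, h2, h4⟩

omit γ [Finite F] [FiniteDimensional F U] in
theorem refl_hyp {w f v : U} (hv : v ∈ hperp q w f) : (refl q v).1 w = w ∧ (refl q v).1 f = f :=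
  ⟨refl_apply_of_perp ((polar_comm _ _ _).trans (mem_hperp.1 hv).1),
    refl_apply_of_perp ((polar_comm _ _ _).trans (mem_hperp.1 hv).2)⟩

theorem tor {w f : U} (h : IsHyp q w f) : ∃ b l, Ts q w f b l := by
  obtain ⟨x, hx, y, hy, e1, e2, e3, e4⟩ := γ.plane' h
  have h0 := mul_ne_zero e1 e2
  refine ⟨_, _, h, γ.hrot_mem h e1 e2, h0, by
    simp [(refl_hyp hx).1, (refl_hyp hy).1, h.hrot_left h0], by
    simp [(refl_hyp hx).2, (refl_hyp hy).2, h.hrot_right h0], fun s hs e => by_contra fun h1 => ?_⟩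
  have k : (refl q x * refl q y).1 s = -s := by
    obtain ⟨a, b, rfl⟩ := e4 s hs
    simp [refl_apply_self, e1, e2, refl_apply_of_perp e3,
      refl_apply_of_perp ((polar_comm _ _ _).trans e3), add_comm]
  rw [O.mul_apply, k, hrot_of_hperp (neg_mem hs)] at e
  have k1 : q x * q y = -1 := eq_neg_of_add_eq_zero_left ((smul_eq_zero_iff_left h1).1 (by
    linear_combination (norm := module) -e))
  refine γ.aniso h (add_mem (Submodule.smul_mem _ (q y) hx) hy) (fun e => e1 ?_) ?_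
  · simpa [polar_self', e3, e2, γ.two] using congrArg (polar q x) e
  · simp only [Q_add, Q_smul, polar_smul_left', e3]
    linear_combination q y * k1

theorem perf {L : Subgroup (O q)} (h : ∀ a ∈ eichGroup q, ∀ b ∈ eichGroup q, ⁅a, b⁆ ∈ L) :
    eichGroup q ≤ L := by
  refine eichGroup_le fun w s hw hs => ?_
  rcases eq_or_ne w 0 with rfl | h0
  · simp
  obtain ⟨f, hf⟩ := γ.hyp h0 hw
  obtain ⟨b, l, τ⟩ := γ.tor hf
  obtain ⟨s', -, h2⟩ := τ.exists_comm hs
  exact h2 ▸ h _ τ.mem _ (eich_mem_eichGroup _ _)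

omit γ [Finite F] [FiniteDimensional F U] in
/-- The commutant of a Borel-like subgroup. -/
theorem ts_eq (γ : OU q) {w f : U} {b : O q} {l : F} (τ : Ts q w f b l)
    [Finite F] [FiniteDimensional F U] {β : End F U}
    (h1 : ∀ s, polar q w s = 0 → β * sk q w s = sk q w s * β) (h2 : β * r q w w = r q w w * β)
    (h3 : β * b.1.toLinearMap = b.1.toLinearMap * β) :
    β = polar q f (β w) • 1 + polar q f (β f) • r q w w := by
  have h := τ.hyp
  have e1 : β w = polar q w (β f) • w := by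
    simpa [r_apply, h.polar_eq] using LinearMap.congr_fun h2 f
  obtain ⟨c₁, c₀, s₁, hs, e2⟩ := h.exists_decomp (β f)
  have e3 := LinearMap.congr_fun h3 f
  simp only [End.mul_apply, LinearEquiv.coe_coe, τ.right, map_smul, e2, map_add, τ.left] at e3
  obtain ⟨-, -, e4⟩ := h.comb_inj (Submodule.smul_mem _ l⁻¹ hs) (τ.map_mem hs)
    (a := l⁻¹ * c₁) (b := l⁻¹ * c₀) (a' := c₁ * l) (b' := c₀ * l⁻¹) (by
      linear_combination (norm := module) e3)
  obtain rfl : s₁ = 0 := τ.fpf _ hs (by rw [← e4, smul_inv_smul₀ τ.ne])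
  have e5 : polar q w (β f) = c₀ := by rw [e2, h.polar_left_comb hs]
  have e6 : polar q f (β f) = c₁ := by rw [e2, h.polar_right_comb hs]
  refine LinearMap.ext fun y => ?_
  obtain ⟨a, d, s, hs, rfl⟩ := h.exists_decomp y
  obtain ⟨e7, e8⟩ := mem_hperp.1 hs
  have e9 := LinearMap.congr_fun (h1 s e7) f
  simp only [End.mul_apply, sk_apply, polar_comm q s f, e8, h.polar_eq, map_sub, map_smul, e5, e2,
    polar_add_right, polar_smul_right', polar_comm q s w, e7, h.polar_left, add_zero] at e9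
  rw [LinearMap.add_apply, LinearMap.smul_apply, LinearMap.smul_apply, r_apply,
    h.polar_left_comb hs]
  simp only [map_add, map_smul, e1, e5, e6, End.one_apply, polar_smul_right', h.polar_eq']
  rw [e2]
  linear_combination (norm := module) -e9

theorem irr {w : U} (h0 : w ≠ 0) (hw : q w = 0) (S : AddSubgroup U) (h1 : ∀ c : F, c • w ∈ S)
    (h2 : ∀ b ∈ eichGroup q, ∀ l : F, b.1 w = l • w → ∀ s ∈ S, l • b.1 s ∈ S) {s₀ : U}
    (h3 : s₀ ∈ S) (h4 : polar q w s₀ = 0) (h5 : s₀ ∉ F ∙ w) {s : U} (hs : polar q w s = 0) :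
    s ∈ S := by
  obtain ⟨f, h⟩ := γ.hyp h0 hw
  have k1 : ∀ x ∈ S ⊓ (hperp q w f).toAddSubgroup, ∀ c : F,
      c • x ∈ S ⊓ (hperp q w f).toAddSubgroup := fun x hx c =>
    OMax.addSubgroup_smul_of_sq _ (fun t ht => AddSubgroup.mem_inf.2 ⟨by
      simpa [hrot_of_hperp hx.2] using h2 _ (h.hrot_sq_mem_eichGroup γ.nd γ.three ht) _
        (h.hrot_left (pow_ne_zero 2 ht)) x hx.1, Submodule.smul_mem _ _ hx.2⟩) c
  let X : Submodule F U := ⟨(S ⊓ (hperp q w f).toAddSubgroup).toAddSubmonoid, fun c x hx => k1 x hx c⟩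
  have k2 : ∀ y, polar q w y = 0 → hproj q w f y = y - polar q f y • w := fun y hy => by
    simp [hproj, hy]
  have k3 : hproj q w f s₀ ∈ X := ⟨k2 _ h4 ▸ S.sub_mem h3 (h1 _), h.hproj_mem _⟩
  have k4 : hproj q w f s₀ ≠ 0 := fun e =>
    h5 (Submodule.mem_span_singleton.2 ⟨_, (sub_eq_zero.1 (k2 _ h4 ▸ e)).symm⟩)
  suffices k : hperp q w f ≤ X by
    simpa [k2 s hs] using add_mem (k (h.hproj_mem s)).1 (h1 (polar q f s))
  generalize hproj q w f s₀ = x at k3 k4
  obtain ⟨y, hy, e1, e2, e3⟩ := γ.plane h k3.2 k4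
  have e4 := γ.aniso h k3.2 k4
  have e5 := add_mem k3.2 hy
  have e6 := γ.aniso h e5 fun e => e4 (by simpa [polar_self', e2, γ.two] using congrArg (polar q x) e)
  have e7 : (refl q (x + y) * refl q x).1 x = (2 * q x / q (x + y)) • (x + y) - x := by
    rw [O.mul_apply, refl_apply_self e4, map_neg, refl_apply, polar_add_left, polar_comm q y, e2,
      polar_self']
    match_scalars <;> field_simp <;> ring
  have e8 : (2 * q x / q (x + y)) • (x + y) - x ∈ hperp q w f :=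
    sub_mem (Submodule.smul_mem _ _ e5) k3.2
  have k5 := h2 _ (γ.hrot_mem h e6 e4) (q (x + y) * q x) (by
    simp [(refl_hyp e5).1, (refl_hyp k3.2).1, h.hrot_left (mul_ne_zero e6 e4)]) x k3.1
  rw [O.mul_apply, e7, hrot_of_hperp e8] at k5
  have k6 : y ∈ X := by
    have := γ.two
    refine (X.smul_mem_iff (show 2 * q x * q x ≠ 0 by positivity)).1 ?_
    convert sub_mem (show _ ∈ X from ⟨k5, Submodule.smul_mem _ _ e8⟩)
      (X.smul_mem (2 * q x * q x - q (x + y) * q x) k3) using 1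
    match_scalars <;> field_simp <;> ring
  intro s hs
  obtain ⟨a, b, rfl⟩ := e3 s hs
  exact add_mem (X.smul_mem a k3) (X.smul_mem b k6)

theorem tn_sq : Submodule.span F (TN q) ^ 2 = ⊤ := by
  refine eq_top_iff.2 fun a _ => end_ind (p := (· ∈ _)) (zero_mem _) (fun w ψ => ?_)
    (fun _ _ => add_mem) a
  obtain ⟨y, rfl⟩ := γ.ef.exists_eq ψ
  refine γ.ind₂ (rL q) (Submodule.span F (TN q) ^ 2).toAddSubgroup (fun w y hw hy hy' => ?_) w y
  have := Submodule.mul_mem_mul (Submodule.subset_span (R := F) (s := TN q) ⟨w, hw, rfl⟩)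
    (Submodule.subset_span (R := F) (s := TN q) ⟨y, hy, rfl⟩)
  rwa [r_mul, Submodule.smul_mem_iff _ hy', ← pow_two] at this

theorem tn_pow : Submodule.span F (TN q) ^ 4 = ⊤ := by
  rw [show 4 = 2 * 2 from rfl, pow_mul, γ.tn_sq, pow_two]
  exact eq_top_iff.2 fun a _ => mul_one a ▸ Submodule.mul_mem_mul trivial trivial

theorem tp_pow : Submodule.span F (TP q) ^ 4 = ⊤ := by
  rw [show 4 = 2 * 2 from rfl, pow_mul, eq_top_iff, ← γ.tn_sq]
  refine pow_le_pow_left' (Submodule.span_le.2 ?_) 2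
  rintro _ ⟨x, hx, rfl⟩
  rcases eq_or_ne x 0 with rfl | h0
  · simp [rk]
  obtain ⟨y, h1, h2⟩ := γ.exists_aniso h0 hx
  have := Submodule.mul_mem_mul (Submodule.subset_span (R := F) (s := TP q) ⟨x, y, hx, h1, rfl⟩)
    (Submodule.subset_span (R := F) (s := TP q) ⟨x, y, hx, h1, rfl⟩)
  rwa [sk_mul hx h1 h1, polar_self', Submodule.smul_mem_iff _ (by simp [γ.two, h2]), ← pow_two] at this

theorem gen (R : Subalgebra F (End F U))
    (h : ∀ w s, q w = 0 → polar q w s = 0 → (eich q w s).1.toLinearMap ∈ R) (a : End F U) : a ∈ R := by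
  have h1 : Submodule.span F (TP q) ≤ Subalgebra.toSubmodule R := Submodule.span_le.2 (by
    rintro _ ⟨w, s, hw, hs, rfl⟩
    have := sub_mem (h w s hw hs) (h w (-s) hw (by simp [hs]))
    rw [eich_coe hw hs, eich_coe hw (by simp [hs]), ← neg_one_smul F s, sk_smul_right, Q_smul] at this
    exact smul_mem_cancel γ.two (by convert this using 1; module))
  have h2 : ∀ n, Subalgebra.toSubmodule R ^ n ≤ Subalgebra.toSubmodule R := fun n _ hx =>
    Submodule.pow_induction_on_left' _ (C := fun _ x _ => x ∈ R) (algebraMap_mem R)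
      (fun _ _ _ _ _ => add_mem) (fun _ hm _ _ _ => mul_mem hm) hx
  exact h2 4 (pow_le_pow_left' h1 4 (γ.tp_pow.ge trivial))

theorem ns (R : Subalgebra F (End F U)) (h1 : ∀ a ∈ R, ∀ a', Ad (polarBilin q) a a' → a' ∈ R)
    (h2 : ∀ b ∈ Nq q, ∀ a ∈ R, b.toLinearMap * a * (b⁻¹).toLinearMap ∈ R) :
    (∀ a ∈ R, ∃ c : F, ∀ v, a v = c • v) ∨ ∀ a, a ∈ R := by
  refine or_iff_not_imp_left.2 fun h => ?_
  obtain ⟨w, f, hw⟩ := γ.exists_hyp
  refine γ.ef.top_of_orth γ.two ⟨h1, γ.qe_le, Nq_le, h2⟩ γ.three hw.ne_zero hw.polar_left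
    (.inr fun u v h0 hu hv => γ.w1 u v h0 ?_ ?_) (.inl γ.four.ge) h
  · simpa [polar_self', γ.two] using hu
  · simpa [polar_self', γ.two] using hv

theorem mem_of_odd {b : O q} {n : ℕ} (hn : Odd n) (h : b ^ n = 1) : b ∈ eichGroup q := by
  have hE := not_exc_of_two_ne_zero (Q := q) γ.two
  have k : ∀ φ : O q →* ℤˣ, φ b = 1 := fun φ => by
    have := congrArg φ h
    rwa [map_pow, map_one, Int.units_pow_eq_pow_mod_two, Nat.odd_iff.1 hn, pow_one] at this
  exact commutator_eq_eichGroup' γ.nd hE γ.three ▸ (mem_commutator_iff γ.nd hE b).2 ⟨k _, k _⟩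

theorem r_ne {x y : U} (hx : x ≠ 0) (hy : y ≠ 0) : r q x y ≠ 0 := fun h => by
  obtain ⟨z, hz⟩ := γ.ef.exists_eq_one hy
  exact hx (by simpa [r_apply, show polar q y z = 1 from hz] using LinearMap.congr_fun h z)

theorem sk_ne {w s : U} (h0 : w ≠ 0) (h1 : s ∉ F ∙ w) : sk q w s ≠ 0 := fun h => by
  obtain ⟨z, h2, h3⟩ := γ.ef.exists_perp_one h1 1
  have := LinearMap.congr_fun h z
  simp [sk_apply, show polar q w z = 0 from h2, polar_comm q s z, show polar q z s = 1 from h3,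
    h0] at this

theorem NT.ne {a} (h : NT q a) : a ≠ 0 := let ⟨_, h0, _, e⟩ := h; e ▸ γ.r_ne h0 h0

theorem PT.ne {a} (h : PT q a) : a ≠ 0 := let ⟨_, _, h0, _, _, h1, e⟩ := h; e ▸ γ.sk_ne h0 h1

end OU

end Cfsg.Lib.TQ
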