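import Cfsg.Agent.Lib.TQ.Sq

/-!
# The tensor square of a four-dimensional orthogonal space: centralisers of involutions
-/

set_option autoImplicit false
set_option linter.unusedSectionVars false

namespace Cfsg.Lib.TQ

open Module QuadraticMap Cfsg.Lib.TW Cfsg.Lib.TMax Function Cfsg.Lib.TO
open Cfsg.Lib.Orth
open Cfsg.Lib.Unitary (UG)
open scoped commutatorElement

universe u

variable {F W V : Type u} {U : Type*} [Field F] [AddCommGroup U] [Module F U] [AddCommGroup W]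
  [Module F W] [AddCommGroup V] [Module F V] {q : QuadraticForm F U} {Q : QuadraticForm F V}
  {M : Subgroup (V ≃ₗ[F] V)} {ι : Type} [DecidableEq ι] [Fintype ι] {Φ : Fam ι F U W V}
  [Finite F] [FiniteDimensional F U] [FiniteDimensional F W] [FiniteDimensional F V] [Nontrivial W]
  {g k : V ≃ₗ[F] V} {i j : ι} {u v x y w f s : U} {b c : O q} {R : TF F U U V} {ξ : V}

/-- The centraliser of an element of the first factor. -/
abbrev Cz (M : Subgroup (V ≃ₗ[F] V)) (R : TF F U U V) (c : O q) : Subgroup (V ≃ₗ[F] V) :=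
  M ⊓ Subgroup.centralizer {R.kr c.1 1}

theorem mem_Cz {a β} (h : R.kr a β ∈ M) (e : a * c.1 = c.1 * a) : R.kr a β ∈ Cz M R c :=
  ⟨h, fun _ e' => e' ▸ kr_comm e β⟩

theorem cz_apply (hg : g ∈ Cz M R c) (ξ : V) : R.kr c.1 1 (g ξ) = g (R.kr c.1 1 ξ) :=
  LinearEquiv.congr_fun (hg.2 _ rfl) ξ

/-- The radical of a point stabiliser in the centraliser. -/
noncomputable abbrev Xz (Q : QuadraticForm F V) (M : Subgroup (V ≃ₗ[F] V)) (R : TF F U U V) (c : O q) (w f u : U) :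
    Subgroup (V ≃ₗ[F] V) := Cz M R c ⊓ Ux ((hperp q w f).map (R.t.flip u)) fun ξ =>
  R.kr c.1 1 ξ = -ξ ∧ ∀ ζ ∈ (hperp q w f).map (R.t.flip u), polar Q ζ ξ = 0

theorem Cf.mem_map (κ : Cf c w f) (h0 : u ≠ 0) (h : R.kr c.1 1 ξ = -ξ) (h' : ξ ∈ (sw R).P (F ∙ u)) :
    ξ ∈ (hperp q w f).map (R.t.flip u) := by
  obtain ⟨s, rfl⟩ := (sw R).mem_P1.1 h'
  exact ⟨s, κ.mem_of_neg (R.t_inj' h0 (by simpa using h)), rfl⟩

namespace Sq

variable (ν : Sq q Q M Φ R i j) (κ : Cf c w f)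
include ν κ

theorem aw_le_Xz (h0 : u ≠ 0) (hu : q u = 0) : Aw (Φ.T i) hu ≤ Xz Q M R c w f u := by
  rintro _ ⟨s, hs, rfl⟩
  have := ν.γ.nontrivial
  have h1 : ae (Φ.T i) q u s ∈ Cz M R c :=
    ⟨(ν.sl i).ae_mem u s, fun _ e => e ▸ ν.kr₁ _ ▸ (cm_kr ν.ne _).comm_kr _⟩
  rw [ae, kr_congr ν.e₂, ← ae] at h1 ⊢
  refine ⟨h1, by rintro _ ⟨y, -, rfl⟩; simp [ae, sw_kr, eich_apply_self hu hs], fun ξ h =>
    κ.mem_map h0 (by rw [map_sub, cz_apply h1, h.1, map_neg]; abel) ((ae_mem_Rd hu hs).2 ξ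
      (ν.σ'.cp.c_eq_zero ν.σ.hB fun y => ?_))⟩
  have k : ∀ y, c.1 y = y → polar Q (R.t y u) ξ = 0 := fun y hy =>
    (smul_eq_zero_iff_right κ.two).1 (by
      have := O.map_polar ⟨_, ν.le (ν.kr₁ _ ▸ ν.so j (ν.γ.dickson_zt κ.zt))⟩ (R.t y u) ξ
      simp only [h.1, TF.kr_t, hy, polar_neg_right, LinearEquiv.coe_one, id] at this
      linear_combination -this)
  obtain ⟨α, β, y, hy, rfl⟩ := κ.hyp.exists_decomp y
  simpa [k w κ.left, k f κ.right] using h.2 _ ⟨y, hy, rfl⟩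

theorem xz_le (h0 : u ≠ 0) (hu : q u = 0) : Xz Q M R c w f u ≤ WG Φ := by
  obtain ⟨p, hp⟩ := CharP.exists F
  have := Fact.mk (CharP.char_is_prime F p)
  have := finite_equiv (F := F) (V := V)
  have := ν.γ.nontrivial
  refine le_of_act (aw_pgroup p hu) ⟨⟨fun a b => Subtype.ext (aw_comm hu a.2 b.2)⟩⟩
    (ν.γ.not_cyclic p h0 hu) ((ν.aw_le_Xz κ h0 hu).trans Subgroup.le_normalizer)
    (fun a ha h1 g hg => ν.cen_one h0 hu ha h1 hg.1.1) (fun _ ⟨s, hs, e⟩ k hk hk' => ?_)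
    fun y hy hy' h1 h2 g hg => ν.pf' p κ.zt hy.1 hy' h1 h2 hg.1
  obtain ⟨a, β, rfl, -⟩ := ν.exists_kr κ.zt hk' (hk.1.2 _ rfl).symm
  obtain ⟨x, hx, h1⟩ := κ.hyp.exists_nonsingular ν.γ.nd ν.γ.three
  have x0 := ne_zero_of_Q_ne_zero h1
  have e1 : R.t (a x) (β u) = R.t x u := by simpa using hk.2.1 _ ⟨x, hx, rfl⟩
  obtain ⟨t, e2⟩ := Submodule.mem_span_singleton.1 (R.mem_of_t_mem (by simpa) (e1 ▸ R.t_mem_P1 x u))
  have e3 : t • β u = u := R.t_inj x0 (by simpa [← e2] using e1)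
  obtain ⟨l, l0, pol⟩ := ν.pol
  have k : ∀ r, polar q u r = 0 → ∃ m : F, t • β r = r + m • u := fun r hr => by
    obtain ⟨y, -, e⟩ := hk.2.2 (R.t x r) ⟨by simp [κ.neg x hx], by rintro _ ⟨y, -, rfl⟩; simp [pol, hr]⟩
    obtain ⟨m, hm⟩ := Submodule.mem_span_singleton.1 ((sw R).mem_of_t_mem (v := t • β r - r)
      (N := F ∙ u) x0 (by
        have := (sw R).t_mem_P1 u y
        simpa [← e2, (show R.t y u = _ from e)] using this))
    exact ⟨m, by simp [hm]⟩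
  obtain ⟨l', -, h2, -⟩ := ν.σ'.sim (ν.le (sw_kr (T := R) a β ▸ hk.1.1))
  obtain ⟨r, h3, h4⟩ := ν.γ.exists_aniso h0 hu
  have t0 : t ≠ 0 := fun e => h0 (by rw [← e3, e, zero_smul])
  obtain ⟨d, hd⟩ := Sim.exists_O κ.two h2 (μ := t⁻¹) (by
    obtain ⟨m, hm⟩ := k r h3
    have h5 := congrArg q hm
    have h6 := h2 r r
    simp only [Q_smul, Q_add, polar_smul_right', polar_comm q r u, h3, hu, polar_self'] at h5 h6
    field_simp
    exact mul_left_cancel₀ (mul_ne_zero κ.two h4) (by linear_combination -2 * l' * h5 - t ^ 2 * h6))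
  obtain ⟨m, hm⟩ := k s hs
  simp only [hd, smul_inv_smul₀ t0] at e3 hm
  have := conj_eich d u s
  rw [e3, hm, eich_add_smul_self hu hs, mul_inv_eq_iff_eq_mul] at this
  rw [e, ae, ν.kr₂, TF.kr_mul, TF.kr_mul, mul_one, one_mul]
  exact congrArg _ (LinearEquiv.ext fun z => by simpa [hd, t0] using congrArg (·.1 z) this)

variable (h3 : ∀ t : F, t ≠ 0 → t ^ 2 = 1)
include h3

/-- The stabiliser of a point of the unitary space lies in the wreath product. -/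
theorem pt (hg : g ∈ Cz M R c) (hx : x ∈ hperp q w f) (x0 : x ≠ 0) (h0 : u ≠ 0) (hu : q u = 0)
    (v0 : v ≠ 0) (hv : q v = 0) (h : g (R.t x u) ∈ (sw R).P (F ∙ v)) : g ∈ WG Φ := by
  obtain ⟨p, hp⟩ := CharP.exists F
  have := Fact.mk (CharP.char_is_prime F p)
  obtain ⟨m, hm, t, -, e⟩ := ν.γ.move v0 hv h0 hu
  rw [← mul_mem_cancel_left (ν.kr_mem 1 m.1)]
  replace hg := mul_mem (mem_Cz (c := c) (ν.kr₂ _ ▸ (ν.sl i).su' hm) (by simp)) hg
  replace h : (R.kr 1 m.1 * g) (R.t x u) ∈ (sw R).P (F ∙ u) := by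
    obtain ⟨y, e'⟩ := (sw R).mem_P1.1 h
    simpa [← e', e] using Submodule.smul_mem _ t ((sw R).t_mem_P1 u y)
  generalize R.kr 1 m.1 * g = g at *
  obtain ⟨y, hy, h1, h2, h4⟩ := ν.γ.plane κ.hyp hx x0
  have h5 := ν.γ.aniso κ.hyp hx x0
  have h6 : q x = q y := by
    rcases sq_eq_sq_iff_eq_or_eq_neg.1 ((h3 _ h5).trans (h3 _ h1).symm) with e | e
    · exact e
    · exact (ν.γ.nonsq κ.hyp hx hy h5 h1 h2 ⟨q y, by rw [e]; ring⟩).elim
  obtain ⟨d, hd⟩ := ν.of_fix κ.hyp.ne_zero (mul_mem (mul_mem hg.1 (ν.rr₁ (Q_sub_ne κ.two h5 h6 h2) h5))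
    (inv_mem hg.1)) fun u' => by
      obtain ⟨ξ, e⟩ := g.surjective (R.t w u')
      have k : ∀ z, polar q z x = 0 → polar q z y = 0 → ∀ u, (R.kr (rot q x y).1 1).toLinearMap (R.t z u) =
          (1 : End F V) (R.t z u) := fun z h h' u => by
        simp [rot_apply κ.two h5 h6 h2, polar_comm q x, polar_comm q y, h, h']
      simpa [← e, rot] using κ.ext_p (k w (mem_hperp.1 hx).1 (mem_hperp.1 hy).1) (k f (mem_hperp.1 hx).2
        (mem_hperp.1 hy).2) (g.injective (by rw [← cz_apply hg, e]; simp [κ.left]))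
  have h7 : g (R.t y u) ∈ (sw R).P (F ∙ u) := by
    have := LinearEquiv.congr_fun hd (g (R.t x u))
    simp only [LinearEquiv.mul_apply, LinearEquiv.coe_inv, LinearEquiv.symm_apply_apply, TF.kr_t,
      O.mul_apply, refl_apply_self h5, map_neg, refl_sub_apply h6 (Q_sub_ne κ.two h5 h6 h2)] at this
    simpa [← this] using neg_mem (Cm.map_P (kr_mem_CG'' (T := R) d.1) h)
  have h8 : g ∈ TW.stab ((hperp q w f).map (R.t.flip u)) := mem_stab_of_le (by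
    rintro _ ⟨s, hs, rfl⟩
    refine κ.mem_map h0 (by simp [cz_apply hg, κ.neg s hs]) ?_
    obtain ⟨α, β, rfl⟩ := h4 s hs
    simpa using add_mem (Submodule.smul_mem _ α h) (Submodule.smul_mem _ β h7))
  obtain ⟨s, h9, h10⟩ := ν.γ.exists_aniso h0 hu
  have h11 := ν.aw_le_Xz κ h0 hu ⟨s, h9, rfl⟩
  refine ν.pf' p κ.zt h11.1 (kr_mem_WG i _) (ν.γ.ae_ne h0 hu h9 fun e => h10 ?_) (ae_pow p hu h9) hg
    (ν.xz_le κ h0 hu ⟨(Cz M R c).mul_mem (mul_mem hg h11.1) (inv_mem hg), conj_mem_Ux h11.2 h8 fun ξ h =>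
      ⟨by rw [cz_apply (inv_mem hg), h.1, map_neg], fun ζ hζ => ?_⟩⟩)
  · obtain ⟨a, rfl⟩ := Submodule.mem_span_singleton.1 e
    simp [Q_smul, hu]
  simpa using (O.map_polar ⟨g, ν.le hg.1⟩ ζ (g⁻¹ ξ)).symm.trans (by
    simpa using h.2 _ (TW.apply_mem_of_stab h8 hζ))

variable (hx : x ∈ hperp q w f) (x0 : x ≠ 0)
include hx x0

omit h3 in
theorem v_mem : R.kr (refl q (w + f) * refl q x).1 1 ∈ Cz M R c :=
  mem_Cz (ν.rr₁ κ.q_add (ν.γ.aniso κ.hyp hx x0))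
    (Commute.mul_left (κ.comm_refl (.inl κ.fix_add)) (κ.comm_refl (.inr (κ.neg x hx))))

omit ν h3 x0 in
theorem v_apply : (refl q (w + f) * refl q x).1 w = -f ∧ (refl q (w + f) * refl q x).1 f = -w := by
  simpa [(OU.refl_hyp hx).1, (OU.refl_hyp hx).2] using And.intro
    (κ.hyp.refl_comb_left one_ne_zero one_ne_zero) (κ.hyp.refl_comb_right one_ne_zero one_ne_zero)

theorem iso (hg : g ∈ Cz M R c) (h : g ∈ WG Φ) : (R.kr (refl q (w + f) * refl q x).1 1)⁻¹ *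
    (g * R.kr (refl q (w + f) * refl q x).1 1 * g⁻¹) ∈ Cz M R c ⊓ Sx F fun ξ => R.kr c.1 1 ξ = ξ := by
  have h1 := ν.v_mem κ hx x0
  refine ⟨(Cz M R c).mul_mem (inv_mem h1) (mul_mem (mul_mem hg h1) (inv_mem hg)), ?_⟩
  have := ν.γ.nontrivial
  obtain ⟨a, β, rfl, e⟩ := ν.exists_kr κ.zt h (hg.2 _ rfl).symm
  obtain ⟨l, -, h2, -⟩ := ν.σ.sim (ν.le hg.1)
  have k1 := Sim.map_refl h2 κ.two κ.q_add
  have k2 := Sim.map_refl h2 κ.two (ν.γ.aniso κ.hyp hx x0)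
  have e' := LinearEquiv.congr_fun e
  simp only [LinearEquiv.mul_apply] at e'
  obtain ⟨α, γ, e1⟩ := κ.of_fix (x := a (w + f)) (by rw [← e', κ.fix_add])
  have h4 := OU.refl_hyp (κ.mem_of_neg (s := a x) (by simp [← e', κ.neg x hx]))
  obtain ⟨h5, h6⟩ := mul_ne_zero_iff.1 (κ.hyp.Q_comb α γ ▸ e1 ▸ (k1 0).1)
  have e2 : R.kr a β * R.kr (refl q (w + f) * refl q x).1 1 * (R.kr a β)⁻¹ =
      R.kr (refl q (α • w + γ • f) * refl q (a x)).1 1 := by
    rw [mul_inv_eq_iff_eq_mul]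
    exact R.eq_of_t fun y u => by simp [(k1 _).2, (k2 _).2, ← e1, -map_add]
  have e3 := v_apply κ hx
  simp only [O.mul_apply] at e3
  refine ⟨α * γ, fun ξ hξ => (LinearEquiv.symm_apply_eq _).2 ?_⟩
  rw [e2, map_smul]
  refine κ.ext_p (φ := LinearEquiv.toLinearMap _) (ψ := (α * γ) • LinearEquiv.toLinearMap _)
    (fun u => ?_) (fun u => ?_) hξ
  · simp [h4.1, κ.hyp.refl_comb_left h5 h6, e3.1,
      show γ / α = α * γ by field_simp; rw [h3 α h5]]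
  · simp [h4.2, κ.hyp.refl_comb_right h5 h6, e3.2,
      show α / γ = α * γ by field_simp; rw [h3 γ h6]]

theorem fus (hg : g ∈ Cz M R c) (h : g * R.kr (refl q (w + f) * refl q x).1 1 * g⁻¹ ∈ WG Φ) :
    g ∈ WG Φ := by
  have := ν.γ.nontrivial
  have h1 := mul_mem (mul_mem hg (ν.v_mem κ hx x0)) (inv_mem hg)
  have hx' := ν.γ.aniso κ.hyp hx x0
  have h0 := κ.q_add
  have hp : ∀ s ∈ hperp q w f, polar q (w + f) s = 0 := fun s hs => by simp [mem_hperp.1 hs]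
  obtain ⟨y, hy, h4, h5, h6⟩ := ν.γ.plane κ.hyp hx x0
  obtain ⟨a, β, e, e'⟩ := ν.exists_kr κ.zt h (h1.2 _ rfl).symm
  rcases ν.σ'.inv_slot h1.1 (by rw [conj_mul, (ν.γ.zt_refl h0 hx' (hp x hx)).kr_sq]; simp)
    (by rw [e, ← sw_kr]; exact sub_kr (sw R) β a) with ⟨b, a, h7, h8, e⟩ | ⟨β, a, t, h7, h8, h9, e⟩ <;> rw [sw_kr] at e
  · obtain ⟨l, l0, pol⟩ := ν.pol
    obtain ⟨v, t, v0, hv, e1⟩ := ν.γ.exists_sing_eigen h7
    obtain ⟨s, δ, hs, s0, e2⟩ : ∃ s, ∃ δ : F, s ∈ hperp q w f ∧ s ≠ 0 ∧ a s = δ • s := by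
      rcases eq_or_ne (x + a x) 0 with e2 | e2
      · exact ⟨x, -1, hx, x0, by simp [eq_neg_of_add_eq_zero_right e2]⟩
      · exact ⟨_, 1, add_mem hx (κ.mem_of_neg ((LinearEquiv.congr_fun (comm_of_kr
          (e ▸ (h1.2 _ rfl).symm)) x).symm.trans (by simp [κ.neg x hx]))), e2, by
            simp [show a (a x) = x from LinearEquiv.congr_fun h8 x, add_comm]⟩
    obtain ⟨η, e3⟩ := g.surjective (R.t s v)
    have h10 := (R.P_inf ..).ge ⟨κ.vm.1 (g.injective (by rw [← cz_apply hg, map_neg, e3]; simp [κ.neg s hs])),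
      mem_eig (a := (refl q (w + f) * refl q x).1) (t := δ * t) (ξ := η) (g.injective (by
        rw [← LinearEquiv.mul_apply, mul_inv_eq_iff_eq_mul.1 e]
        simp [e3, e1, e2, smul_smul, mul_comm t]))⟩
    obtain ⟨z, hz, z0, h11⟩ : ∃ z ∈ hperp q w f, z ≠ 0 ∧ η ∈ R.P (F ∙ z) := by
      have k : ∀ α γ : F, (refl q (w + f) * refl q x).1 (α • x + γ • y) = γ • y - α • x := fun α γ => by
        simp [refl_apply_self hx', refl_apply_of_perp h5, refl_apply_of_perp (hp x hx),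
          refl_apply_of_perp (hp y hy), neg_add_eq_sub]
      by_cases h12 : δ * t = -1
      · refine ⟨x, hx, x0, R.P_mono (fun s hs => ?_) h10⟩
        obtain ⟨α, γ, rfl⟩ := h6 s hs.1
        have : (γ • y - α • x) - (-1 : F) • (α • x + γ • y) = 0 := by rw [← k, ← h12]; exact hs.2
        exact Submodule.mem_span_singleton.2 ⟨α, smul_right_injective U κ.two (by
          linear_combination (norm := module) -this)⟩
      refine ⟨y, hy, ne_zero_of_Q_ne_zero h4, R.P_mono (fun s hs => ?_) h10⟩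
      obtain ⟨α, γ, rfl⟩ := h6 s hs.1
      have := congrArg (polar q x) hs.2
      simp only [LinearMap.sub_apply, LinearEquiv.coe_coe, k, LinearMap.smul_apply, End.one_apply,
        polar_sub_right, polar_smul_right', polar_add_right, h5, polar_self', polar_zero_right] at this
      simp [show α = 0 from mul_left_cancel₀ (mul_ne_zero (mul_ne_zero κ.two hx')
        (mt eq_neg_of_add_eq_zero_left h12)) (by linear_combination -this),
          Submodule.smul_mem _ _ (Submodule.mem_span_singleton_self y)]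
    obtain ⟨u, rfl⟩ := R.mem_P1.1 h11
    have h13 := O.map_polar ⟨g, ν.le hg.1⟩ (R.t z u) (R.t z u)
    simp only [e3, pol, polar_self', hv] at h13
    exact ν.pt κ h3 hg hz z0 (fun e => R.t_ne_zero s0 v0 (by simp [← e3, e])) (by
      simpa [l0, κ.two, ν.γ.aniso κ.hyp hz z0] using h13) v0 hv (e3 ▸ (sw R).t_mem_P1 v s)
  obtain ⟨u₁, u₂, e1⟩ : ∃ u₁ u₂, g (R.t x w) = R.t x u₁ + R.t y u₂ := by
    obtain ⟨_, h10, _, h11, e1⟩ := Submodule.mem_sup.1 ((R.P_sup (F ∙ x) (F ∙ y)).le (R.P_mono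
      (fun s hs => let ⟨α, γ, e⟩ := h6 s hs; e ▸ Submodule.add_mem_sup (Submodule.smul_mem _ _
        (Submodule.mem_span_singleton_self x)) (Submodule.smul_mem _ _
          (Submodule.mem_span_singleton_self y))) ((κ.vm (ξ := g (R.t x w))).1
            (by simp [cz_apply hg, κ.neg x hx]))))
    obtain ⟨u₁, rfl⟩ := R.mem_P1.1 h10
    obtain ⟨u₂, rfl⟩ := R.mem_P1.1 h11
    exact ⟨_, _, e1.symm⟩
  obtain ⟨r, h10, h11, h12⟩ := ν.γ.exists_ns_perp u₁ u₂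
  have h13 := mul_mem (mul_mem (inv_mem hg) (mem_Cz (ν.rr₂ h0 h10)
    (κ.comm_refl (.inl κ.fix_add)))) hg
  obtain ⟨ε, h14⟩ := (ν.iso κ h3 hx x0 h13 (ν.pt κ h3 h13 hx x0 κ.hyp.ne_zero κ.hyp.left κ.hyp.ne_zero
    κ.hyp.left (by
      have : R.kr (refl q (w + f)).1 (refl q r).1 (g (R.t x w)) = g (R.t x w) := by
        simp [e1, refl_apply_of_perp h11, refl_apply_of_perp h12, refl_apply_of_perp (hp x hx),
          refl_apply_of_perp (hp y hy)]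
      simpa [this] using (sw R).t_mem_P1 w x))).2
  rw [show ∀ k v : V ≃ₗ[F] V, v⁻¹ * (g⁻¹ * k * g * v * (g⁻¹ * k * g)⁻¹) =
    g⁻¹ * ((g * v * g⁻¹)⁻¹ * k * (g * v * g⁻¹) * k⁻¹) * g from fun _ _ => by group, e] at h14
  obtain ⟨m, hm⟩ := exists_smul_of_mem (a := (β⁻¹ * (refl q r).1 * β * (refl q r).1).toLinearMap) fun u =>
    (sw R).mem_of_t_mem (u := (a⁻¹ * (refl q (w + f)).1 * a * (refl q (w + f)).1) w)
      (by simp [κ.hyp.ne_zero]) (by
        have := congrArg g (h14 (g⁻¹ (R.t w u)) ((cz_apply (inv_mem hg) _).trans (by simp [κ.left])))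
        simp only [TF.kr_inv, TF.kr_mul, ← Subgroup.coe_inv, refl_inv] at this
        simpa using (by simpa using this : _ = ε • R.t w u) ▸ Submodule.smul_mem _ ε ((sw R).t_mem_P1 u w))
  obtain ⟨l, -, h15, -⟩ := ν.σ'.sim (ν.le (sw_kr (T := R) a β ▸ e ▸ h1.1))
  have k := Sim.map_refl h15 κ.two h10
  obtain ⟨n, hn⟩ := Submodule.mem_span_singleton.1 (mem_of_nr κ.two (v := r) (x := β r) (by
    rw [ν.γ.nr_eq (v := r) (x := β r) (c := m) fun z => ?_, nr_self (k 0).1]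
    obtain ⟨z, rfl⟩ := β.surjective z
    simpa [nr, ← (k _).2, LinearEquiv.symm_apply_eq] using hm ((refl q r).1 z)))
  exact (h7 ⟨n, smul_left_injective F (ne_zero_of_Q_ne_zero h10) (by
    simp [← h8, ← hn, mul_smul])⟩).elim

omit hx x0 h3 in
theorem odd {Y : Subgroup (V ≃ₗ[F] V)} (hY : Y ≤ Cz M R c) (hn : Cz M R c ≤ Subgroup.normalizer Y)
    (h : ∀ y ∈ Y, y * y ∈ Cz M R c ⊓ Sx F (fun ξ => R.kr c.1 1 ξ = ξ) →
      y ∈ Cz M R c ⊓ Sx F fun ξ => R.kr c.1 1 ξ = ξ) : Y ≤ WG Φ := by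
  obtain ⟨p, hp⟩ := CharP.exists F
  have := Fact.mk (CharP.char_is_prime F p)
  have := finite_equiv (F := F) (V := V)
  have := ν.γ.nontrivial
  have h0 := κ.hyp.ne_zero
  have hw := κ.hyp.left
  have h1 := (ν.aw_le_Xz κ h0 hw).trans (inf_le_left.trans hn)
  by_cases h2 : p ∣ Nat.card Y
  swap
  · obtain ⟨n, e⟩ := IsPGroup.iff_card.1 (aw_pgroup (T := Φ.T i) p hw)
    exact BG.coprime_abelian_gen_cent1 ⟨⟨fun a b => Subtype.ext (aw_comm hw a.2 b.2)⟩⟩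
      (ν.γ.not_cyclic p h0 hw) h1 (e ▸ ((Nat.Prime.coprime_iff_not_dvd Fact.out).2 h2).pow_left n)
        fun a ha h x hx => ν.cen_one h0 hw ha h (hY hx.1).1 (hx.2 _ rfl).symm
  obtain ⟨y, ⟨hy, h4⟩, h5, h6⟩ := exists_order.1 (dvd_card_cent (aw_pgroup p hw) h1 h2)
  replace h4 : ∀ a ∈ Aw (Φ.T i) hw, y * a = a * y := fun a ha => (h4 a ha).symm
  obtain ⟨s, hs, rfl⟩ := ν.gd i w h0 hw y (hY hy).1 ((ν.sl i).rd_of_comm h0 hw (hY hy).1 h4 fun z hz => by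
    obtain ⟨d, rfl⟩ := ν.pf p κ.zt (hY hy).1 (ν.cen_le h0 hw (hY hy).1 h4) h6 ((hY hy).2 _ rfl).symm
    obtain ⟨u, rfl⟩ := (Φ.T i).mem_P1.1 hz
    obtain ⟨u', hu⟩ := exists_ne (0 : W)
    obtain ⟨t, e⟩ := Submodule.mem_span_singleton.1 ((Φ.T i).mem_of_t_mem hu (by
      simpa using (ν.sl i).map_P h0 hw h4 u'))
    have k : ∀ n : ℕ, (d ^ n) w = t ^ n • w := fun n => by
      induction n with
      | zero => simp
      | succ n ih => rw [pow_succ', LinearEquiv.mul_apply, ih, map_smul, ← e, smul_smul, pow_succ]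
    have h7 : t ^ p = 1 := smul_left_injective F h0 (by
      simp [← k, kr_inj (T := Φ.T i) (a := d ^ p) (b := 1) (by simpa [kr_pow] using h6)])
    simp [← e, show t = 1 from frobenius_inj F p (by simpa [frobenius_def] using h7)])
  have h7 : q s ≠ 0 := fun e => h5 (by
    obtain ⟨a, rfl⟩ := Submodule.mem_span_singleton.1 (ν.γ.w1 w s h0 hw e hs)
    simp [ae, eich_self_smul hw])
  have h8 : q ((q s / 2) • w + (1 : F) • f) ≠ 0 := by simp [κ.hyp.Q_comb, h7, κ.two, -one_smul]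
  have h9 := ν.γ.zt_refl (x := (eich q w s).1 _) (by rwa [(eich q w s).2]) h8 (by
    have := κ.two
    simp [eich_apply hw hs, hs, κ.hyp.polar_eq, κ.hyp.polar_eq', κ.hyp.polar_left, κ.hyp.polar_right,
      polar_comm q s w, polar_comm q s f]
    field_simp; ring)
  have h10 := mul_mem hy ((hn (mem_Cz (ν.rr₂ κ.q_add h8) (κ.comm_refl (.inl κ.fix_add))) _).1
    (inv_mem hy))
  simp only [ae, ν.kr₂, TF.kr_inv, TF.kr_mul, ← mul_assoc, inv_one, mul_one, one_mul, mul_inv_cancel,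
    ← Subgroup.coe_inv, ← Subgroup.coe_mul, conj_refl, refl_inv, refl_mul_self, Subgroup.coe_one] at h10
  obtain ⟨ε, h11⟩ := (h _ h10 (by
    rw [TF.kr_mul, ← Subgroup.coe_mul, h9.sq]; simp)).2
  exact (ν.γ.zt_ne h9 ε fun u => R.t_inj h0 (by simpa using h11 (R.t w u) (by simp [κ.left]))).elim

omit hx x0 in
theorem cz_le : Cz M R c ≤ WG Φ := by
  have := finite_equiv (F := F) (V := V)
  obtain ⟨x, hx, h1⟩ := κ.hyp.exists_nonsingular ν.γ.nd ν.γ.three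
  have x0 := ne_zero_of_Q_ne_zero h1
  refine le_of_zstar' (N := Cz M R c ⊓ Sx F fun ξ => R.kr c.1 1 ξ = ξ) (fun g hg n ⟨hn, t, e⟩ =>
    ⟨(Cz M R c).mul_mem (mul_mem hg hn) (inv_mem hg), t, fun ξ h => by
      simp [e (g.symm ξ) ((cz_apply (inv_mem hg) ξ).trans (congrArg _ h))]⟩)
    (fun n ⟨hn, t, e⟩ => ν.loc₁ κ.hyp.ne_zero κ.hyp.left κ.hyp.ne_zero κ.hyp.left hn.1 fun u =>
      e (R.t w u) (by simp [κ.left]) ▸ Submodule.smul_mem _ t (R.t_mem_P1 w u)) ?_ (ν.v_mem κ hx x0)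
    (ν.kr_mem _ _) (fun ⟨_, t, e⟩ => ?_) (fun g => ν.fus κ h3 hx x0) (fun g => ν.iso κ h3 hx x0)
    fun Y => ν.odd κ
  · rw [(ν.γ.zt_refl κ.q_add h1 (by simp [mem_hperp.1 hx])).kr_sq]
    exact one_mem _
  have := R.t_inj' (v := -f) (v' := t • w) κ.hyp.ne_zero (by
    simpa only [TF.kr_t, (v_apply κ hx).1, map_smul, LinearMap.smul_apply, LinearEquiv.coe_one,
      id] using
      e (R.t w w) (by simp [κ.left]))
  simpa [κ.hyp.polar_eq, κ.hyp.polar_left] using congrArg (polar q w) this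

end Sq

theorem St.le_WG_two (μ : St q Q M Φ) (h2 : Fintype.card ι = 2) : M ≤ WG Φ := by
  refine μ.le_WG_of_cen h2 fun j b h k hk e => ?_
  obtain ⟨w, f, c, h1, h3, h4, h5, h6⟩ := μ.γ.zt_hyp h
  have κ : Cf c w f := ⟨μ.γ.two, h3.elim (· ▸ h) (· ▸ μ.γ.zt_neg h), h1, h4, h5, h6⟩
  replace e : k * (Φ.T j).kr c.1 1 = (Φ.T j).kr c.1 1 * k := by
    rcases h3 with rfl | rfl
    · exact e
    rw [Subgroup.coe_mul, kr_mul', kr_neg, ← mul_assoc, neg_central, mul_assoc, e, mul_assoc]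
  by_cases h7 : ∀ t : F, t ≠ 0 → t ^ 2 = 1
  · obtain ⟨i, hi⟩ := St.other h2 j
    obtain ⟨R, ν⟩ := μ.exists_sq h2 hi
    exact ν.cz_le κ h7 ⟨hk, fun _ e' => e' ▸ ν.kr₁ _ ▸ e.symm⟩
  push Not at h7
  obtain ⟨t, h0, ht⟩ := h7
  exact μ.cd_of_ne κ h0 ht hk e

end Cfsg.Lib.TQ
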