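import Cfsg.Agent.Lib.TQ.Base

/-!
# Four-dimensional orthogonal tensor factors: extraction of pure coefficients
-/

set_option autoImplicit false
set_option linter.unusedSectionVars false

namespace Cfsg.Lib.TQ

open Module QuadraticMap Cfsg.Lib.TW Cfsg.Lib.TMax Function Cfsg.Lib.TO
open Cfsg.Lib.Orth
open Cfsg.Lib.Unitary (UG)
open scoped commutatorElement

variable {F U W V : Type*} [Field F] [AddCommGroup U] [Module F U] [AddCommGroup W] [Module F W]
  [AddCommGroup V] [Module F V] {q : QuadraticForm F U} {T : TF F U W V}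

theorem cl_nq {S : AddSubgroup (End F V)} (h : Cl T (O q) S) : Cl T (Nq q) S :=
  fun b hb => h b (Subgroup.map_subtype_le _ hb)

theorem refl_coe (x : U) : (refl q x).1.toLinearMap = 1 - (q x)⁻¹ • r q x x :=
  LinearMap.ext fun z => by simp [refl_apply, r_apply, mul_smul]

theorem refl_mem {S : AddSubgroup (End F V)} (h : Cl T (O q) S) {β} (hβ : β ∈ S) (x : U) :
    (q x)⁻¹ • (T.e (r q x x) * β + β * T.e (r q x x)) -
      ((q x)⁻¹ * (q x)⁻¹) • (T.e (r q x x) * β * T.e (r q x x)) ∈ S := by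
  convert sub_mem hβ (h _ (refl q x).2 β hβ) using 1
  rw [← Subgroup.coe_inv, refl_inv, refl_coe]
  simp only [map_sub, map_smul, map_one, mul_sub, sub_mul, smul_mul_assoc, mul_smul_comm, one_mul,
    mul_one]
  module

theorem refl_mem₂ {S : AddSubgroup (End F V)} (h : Cl T (O q) S) {β} (hβ : β ∈ S) {x y : U}
    (e : polar q x y = 0) : ((q x)⁻¹ * (q y)⁻¹) •
      (T.e (r q y x) * cf T q β y x + T.e (r q x y) * cf T q β x y) ∈ S := by
  have e1 : T.e (r q y y) * T.e (r q x x) = 0 := by rw [← map_mul, r_mul, polar_comm, e]; simp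
  have e2 : T.e (r q x x) * T.e (r q y y) = 0 := by rw [← map_mul, r_mul, e]; simp
  convert refl_mem h (refl_mem h hβ x) y using 1
  rw [← rr, ← rr]
  generalize T.e (r q x x) = a, T.e (r q y y) = b at e1 e2
  simp only [mul_sub, sub_mul, mul_add, add_mul, mul_smul_comm, smul_mul_assoc, ← mul_assoc, e1,
    zero_mul]
  simp only [mul_assoc, e2, mul_zero]
  module

variable [Finite F] [FiniteDimensional F U]

namespace OU

variable (γ : OU q)
include γ

theorem cm_of_cf {β : End F V}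
    (h : ∀ w, w ≠ 0 → q w = 0 → ∀ s, polar q w s = 0 → cf T q β s w = 0) : Cm T β := by
  refine cm_of_scalar fun χ u => γ.scalar_of_fix (β := T.d χ ∘ₗ β ∘ₗ T.t.flip u) fun w hw => ?_
  rcases eq_or_ne w 0 with rfl | h0
  · simp
  refine γ.mem_of_perp fun s hs => ?_
  have := LinearMap.congr_fun (h w h0 hw s hs) (T.t w u)
  rw [cf_t] at this
  have h4 : T.c (polarBilin q s) (β (T.t w u)) = 0 := T.t_inj h0 (by simpa using this)
  exact (T.apply_d (polarBilin q s) χ _).trans (by simp [h4])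

theorem exN {S : AddSubgroup (End F V)} (hS : Cl T (Nq q) S) {β} (hβ : β ∈ S) {w : U} (h0 : w ≠ 0)
    (hw : q w = 0) : ∃ c : F, c ≠ 0 ∧ T.e (r q w w) * c • cf T q β w w ∈ S := by
  obtain ⟨f, hf⟩ := γ.hyp h0 hw
  obtain ⟨x, hx, y, hy, e1, e2, e3, -⟩ := γ.plane' hf
  replace hx := (mem_hperp.1 hx).1
  replace hy := (mem_hperp.1 hy).1
  have h2 := γ.two
  refine ⟨2 * 2 * 2 * q x * q y, by positivity, ?_⟩
  have k := fun s hs => sym_mem hS hβ hw (s := s) hs 1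
  convert sub_mem (sub_mem (add_mem (k (x + y) (by simp [hx, hy])) (k (x + -y) (by simp [hx, hy])))
    (add_mem (k x hx) (k x hx))) (add_mem (k y hy) (k y hy)) using 1
  rw [mul_smul_comm, ← rr]
  simp only [sk_add_right, sk_neg, Q_add, q.map_neg, polar_neg_right, e3, map_add, map_neg, add_mul,
    mul_add, neg_mul, mul_neg]
  module

theorem cm_of_sym {β : End F V} (h : ∀ x y, cf T q β x y = cf T q β y x)
    (h1 : ∀ w, q w = 0 → cf T q β w w = 0) : Cm T β := γ.cm_of_cf fun w h0 hw s hs => by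
  obtain ⟨f, hf⟩ := γ.hyp h0 hw
  obtain ⟨x, hx, y, hy, e1, e2, e3, e4⟩ := γ.plane' hf
  have k : ∀ s ∈ hperp q w f, q s • cf T q β s w = cf T q β s f := fun s hs => by
    have k1 := h1 _ (show q ((-q s) • w + (1 : F) • f + s) = 0 by rw [hf.Q_comb' hs]; simp)
    have k2 := h1 _ (show q ((-q s) • w + (1 : F) • f + -s) = 0 by
      rw [hf.Q_comb' (neg_mem hs)]; simp)
    simp only [map_add, map_smul, map_neg, LinearMap.add_apply, LinearMap.smul_apply,
      LinearMap.neg_apply, h w s, h f s] at k1 k2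
    exact smul_right_injective _ (mul_ne_zero γ.two γ.two) (by
      linear_combination (norm := module) k2 - k1)
  have k1 := k _ (add_mem hx hy)
  have k2 := k _ (sub_mem hx hy)
  simp only [map_add, map_sub, LinearMap.add_apply, LinearMap.sub_apply, Q_add, Q_sub, e3,
    ← k x hx, ← k y hy] at k1 k2
  have k3 : cf T q β x w = 0 := (smul_eq_zero_iff_right (mul_ne_zero γ.two e2)).1 (by
    linear_combination (norm := module) k1 + k2)
  have k4 : cf T q β y w = 0 := (smul_eq_zero_iff_right (mul_ne_zero γ.two e1)).1 (by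
    linear_combination (norm := module) k1 - k2)
  obtain ⟨a, b, z, hz, rfl⟩ := hf.exists_decomp s
  obtain ⟨c, d, rfl⟩ := e4 z hz
  rw [hf.polar_left_comb hz] at hs
  simp [hs, k3, k4, h1 w hw]

theorem exS {S : AddSubgroup (End F V)} (hS : Cl T (Nq q) S) {β} (hβ : β ∈ S) (h : ¬ Cm T β)
    (h1 : ∀ x y, cf T q β x y = cf T q β y x) : ∃ w c, w ≠ 0 ∧ q w = 0 ∧ c ≠ 0 ∧
      cf T q β w w ≠ 0 ∧ T.e (r q w w) * (c : F) • cf T q β w w ∈ S := by
  have := mt (γ.cm_of_sym h1) h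
  push Not at this
  obtain ⟨w, hw, h2⟩ := this
  have h0 : w ≠ 0 := fun e => h2 (by simp [e])
  obtain ⟨c, h3, h4⟩ := γ.exN hS hβ h0 hw
  exact ⟨w, c, h0, hw, h3, h2, h4⟩

omit γ [Finite F] [FiniteDimensional F U] in
theorem exP (h3 : (2 : F) ≠ 0) {S : AddSubgroup (End F V)} (hS : Cl T (O q) S) {β} (hβ : β ∈ S) {w f s : U}
    (h : IsHyp q w f) (hs : s ∈ hperp q w f) (h1 : cf T q β w w = 0) (h2 : cf T q β f f = 0) :
    T.e (sk q w s) * (2 : F) • (cf T q β f w - cf T q β w f) ∈ S := by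
  obtain ⟨e1, e2⟩ := mem_hperp.1 hs
  have hc := ((cm_cf (T := T) (q := q) β f w).sub (cm_cf (q := q) β w f)).smul 2
  have k : T.e (sk q w f) * (2 : F) • (cf T q β f w - cf T q β w f) ∈ S := by
    have e3 : q (w + f) = 1 := by simpa using h.Q_comb 1 1
    have e4 : q (w + -f) = -1 := by simpa using h.Q_comb 1 (-1)
    have e5 : polar q (w + f) (w + -f) = 0 := by
      simp [h.polar_left, h.polar_right, h.polar_eq, h.polar_eq']
    have e6 : sk q w f = (-2 : F)⁻¹ • (r q (w + f) (w + -f) - r q (w + -f) (w + f)) := by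
      rw [← sk_eq, sk_add_left, sk_add_right, sk_add_right, sk_neg, sk_neg, sk_self, sk_self,
        sk_swap w f, eq_inv_smul_iff₀ (neg_ne_zero.2 h3)]
      module
    convert refl_mem₂ hS hβ e5 using 1
    rw [e3, e4, e6]
    simp only [map_add, map_neg, map_sub, LinearMap.add_apply, LinearMap.neg_apply, map_smul,
      h1, h2, mul_sub, sub_mul, mul_add, mul_neg, mul_zero, smul_mul_assoc, mul_smul_comm]
    match_scalars <;> field_simp
  convert sub_mem k (conj_e hS (eich q w s).2 hc k) using 1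
  rw [conj_sk, eich_apply_self h.left e1, eich_apply h.left e1, ← sub_mul, ← map_sub T.e,
    polar_comm q s, e2, h.polar_eq]
  congr 2
  simp only [sub_eq_add_neg, sk_add_right, sk_smul_right, sk_self, sk_neg]
  module

theorem ex0 {S : AddSubgroup (End F V)} (hS : Cl T (O q) S) {β}
    (hβ : β ∈ S) (h : ¬ Cm T β) : ∃ a δ, (NT q a ∨ PT q a) ∧ δ ≠ 0 ∧ Cm T δ ∧
      (∀ Y, Cm T Y → β * Y = Y * β → δ * Y = Y * δ) ∧ T.e a * δ ∈ S := by
  have := γ.nontrivial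
  by_cases h1 : ∀ w, q w = 0 → cf T q β w w = 0
  swap
  · push Not at h1
    obtain ⟨w, hw, h2⟩ := h1
    have h0 : w ≠ 0 := fun e => h2 (by simp [e])
    obtain ⟨c, h3, h4⟩ := γ.exN (cl_nq hS) hβ h0 hw
    exact ⟨_, _, .inl ⟨w, h0, hw, rfl⟩, smul_ne_zero h3 h2, (cm_cf _ _ _).smul c, fun Y hY e => by
      rw [smul_mul_assoc, cf_comm hY e, mul_smul_comm], h4⟩
  obtain ⟨w, f, hf, h2⟩ : ∃ w f, IsHyp q w f ∧ cf T q β f w - cf T q β w f ≠ 0 := by
    by_contra! h2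
    refine h (γ.cm_of_sym (fun x y => sub_eq_zero.1 (γ.ind₂ (cf T q β - (cf T q β).flip) ⊥
      (fun x y hx hy e => ?_) x y)) h1)
    have := h2 ((polar q x y)⁻¹ • y) x ⟨by simp [Q_smul, hy], hx, by simp [polar_comm q y, e]⟩
    simpa [← smul_sub, e] using this
  obtain ⟨s, hs, h3⟩ := hf.exists_nonsingular γ.nd γ.three
  refine ⟨_, _, .inr ⟨w, s, hf.ne_zero, hf.left, (mem_hperp.1 hs).1, fun e => ?_, rfl⟩,
    smul_ne_zero γ.two h2, ((cm_cf _ _ _).sub (cm_cf _ _ _)).smul 2, fun Y hY e => by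
      rw [smul_mul_assoc, sub_mul, cf_comm hY e, cf_comm hY e, mul_smul_comm, mul_sub],
    exP γ.two hS hβ hf hs (h1 _ hf.left) (h1 _ hf.right)⟩
  obtain ⟨c, rfl⟩ := Submodule.mem_span_singleton.1 e
  simp [Q_smul, hf.left] at h3

theorem ex_skew {S : AddSubgroup (End F V)} (hS : Cl T (Nq q) S) {κ : End F U} (hβ : T.e κ ∈ S)
    (h : Ad (polarBilin q) κ (-κ)) (h0 : κ ≠ 0) : ∃ a, PT q a ∧ T.e a ∈ S := by
  have k : ∀ x y, polar q (κ x) y = -polar q x (κ y) := fun x y => by simpa using h x y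
  have k1 : ∀ x, polar q x (κ x) = 0 := fun x => (mul_eq_zero.1 (show 2 * polar q x (κ x) = 0 by
    linear_combination k x x + polar_comm q x (κ x))).resolve_left γ.two
  obtain ⟨w, hw, h1⟩ : ∃ w, q w = 0 ∧ κ w ∉ F ∙ w := by
    by_contra! h1
    obtain ⟨c, hc⟩ := γ.scalar_of_fix h1
    have := γ.nontrivial
    obtain ⟨u, hu⟩ := γ.nd.exists_Q_ne
    obtain rfl : c = 0 := by simpa [hc, polar_self', γ.two, hu] using k1 u
    exact h0 (LinearMap.ext (by simpa using hc))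
  have h2 : w ≠ 0 := fun e => h1 (by simp [e])
  obtain ⟨s, hs, h3⟩ := γ.exists_aniso h2 hw
  refine ⟨_, ⟨w, (2 * q s) • (refl q s).1 (κ w), h2, hw, ?_, fun e => h1 ?_, rfl⟩, ?_⟩
  · simp [refl_apply, k1, hs]
  · obtain ⟨c, hc⟩ := Submodule.mem_span_singleton.1
      ((Submodule.smul_mem_iff _ (mul_ne_zero γ.two h3)).1 e)
    exact Submodule.mem_span_singleton.2 ⟨c, (refl q s).1.injective (by
      rw [← hc, map_smul, refl_apply_of_perp ((polar_comm _ _ _).trans hs)])⟩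
  convert sym_mem hS hβ hw hs 1 using 1
  simp only [← map_mul, ← map_add, ← map_smul, ← map_sub]
  congr 1
  refine LinearMap.ext fun z => ?_
  simp only [refl_apply, sk_apply, r_apply, LinearMap.add_apply, LinearMap.smul_apply,
    LinearMap.sub_apply, End.mul_apply, map_sub, map_smul, polar_sub_left, polar_sub_right,
    polar_smul_left', polar_smul_right', k1, show polar q w (κ s) = -polar q s (κ w) by
      rw [polar_comm, k], show polar q w (κ z) = -polar q (κ w) z by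
        rw [k, neg_neg]]
  match_scalars <;> field_simp <;> ring

theorem spreadP {S : AddSubgroup (End F V)} (hS : Cl T (Nq q) S) {a δ} (ha : PT q a) (hδ : Cm T δ)
    (h : T.e a * δ ∈ S) {w s : U} (hw : q w = 0) (hs : polar q w s = 0) : T.e (sk q w s) * δ ∈ S := by
  obtain ⟨x, y, h0, hx, hy, h1, rfl⟩ := ha
  rcases eq_or_ne w 0 with rfl | h2
  · simp [sk_eq, rk]
  obtain ⟨g, hg, c, hc, e⟩ := γ.move h0 hx h2 hw
  have k := conj_e hS (mem_Nq hg) hδ h
  rw [conj_sk, e, sk_smul_left, ← sk_smul_right] at k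
  refine γ.irr h2 hw (S.comap (LinearMap.mulRight F δ ∘ₗ T.e.toLinearMap ∘ₗ
    ((rL q w) - (rL q).flip w)).toAddMonoidHom) (fun c => ?_) (fun b hb l e s hs => ?_) k ?_ ?_ hs
  · change T.e (sk q w (c • w)) * δ ∈ S
    simp [sk_smul_right, sk_self]
  · have := conj_e hS (mem_Nq hb) hδ hs
    change T.e (_ * sk q w s * _) * δ ∈ S at this
    rwa [conj_sk, e, sk_smul_left, ← sk_smul_right] at this
  · rw [polar_smul_right', ← polar_smul_left', ← e, O.map_polar, hy]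
  · rw [Submodule.smul_mem_iff _ hc]
    refine fun e' => h1 ?_
    obtain ⟨d, e'⟩ := Submodule.mem_span_singleton.1 e'
    exact Submodule.mem_span_singleton.2 ⟨d / c, g.1.injective (by
      rw [map_smul, e, smul_smul, div_mul_cancel₀ _ hc, e'])⟩

theorem spreadN {S : Submodule F (End F V)} (hS : Cl T (Nq q) S.toAddSubgroup) {a δ} (ha : NT q a)
    (hδ : Cm T δ) (h : T.e a * δ ∈ S) {w : U} (hw : q w = 0) : T.e (r q w w) * δ ∈ S := by
  obtain ⟨x, h0, hx, rfl⟩ := ha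
  rcases eq_or_ne w 0 with rfl | h2
  · simp [rk]
  obtain ⟨g, hg, c, hc, e⟩ := γ.move h0 hx h2 hw
  have k := conj_e hS (mem_Nq hg) hδ h
  rw [conj_r, e, TO.r_smul, map_smul, smul_mul_assoc] at k
  exact (S.smul_mem_iff (mul_ne_zero hc hc)).1 k

variable {ι : Type*} [DecidableEq ι] [Fintype ι] {Φ : Fam ι F U W V}

theorem exm (K : Finset ι) : ∀ S : AddSubgroup (End F V), (∀ l ∈ K, Cl (Φ.T l) (O q) S) →
    ∀ β ∈ S, β ≠ 0 → ∃ (a : ι → End F U) (δ : End F V), δ ≠ 0 ∧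
      (∀ l, a l = 1 ∨ l ∈ K ∧ (NT q (a l) ∨ PT q (a l))) ∧ (∀ l ∈ K, Cm (Φ.T l) δ) ∧
      (∀ Y, (∀ l ∈ K, Cm (Φ.T l) Y) → β * Y = Y * β → δ * Y = Y * δ) ∧ Φ.π a * δ ∈ S ∧
      ((∀ l, a l = 1) → δ = β) := by
  induction K using Finset.induction_on with
  | empty => exact fun S _ β hβ h0 => ⟨1, β, h0, by simp, by simp, fun _ _ => id, by simpa, by simp⟩
  | insert i K hi ih =>
    intro S hS β hβ h0
    have e : ∀ l ∈ K, l ≠ i := fun l hl e => hi (e ▸ hl)
    by_cases h : Cm (Φ.T i) β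
    · obtain ⟨a, δ, h1, h2, h3, h5, h6, h7⟩ := ih S (fun l hl => hS l (by simp [hl])) β hβ h0
      exact ⟨a, δ, h1, fun l => (h2 l).imp_right fun h => ⟨by simp [h.1], h.2⟩, by
        simpa using ⟨fun x => h5 _ (fun l hl => Φ.cm_e (e l hl) x) (h x), h3⟩,
        fun Y hY => h5 Y fun l hl => hY l (by simp [hl]), h6, h7⟩
    obtain ⟨b, ζ, k1, k2, k3, k4, k5⟩ := γ.ex0 (hS i (by simp)) hβ h
    obtain ⟨a, δ, h1, h2, h3, h5, h6, -⟩ := ih
      (S.comap (LinearMap.mulLeft F ((Φ.T i).e b)).toAddMonoidHom) (fun l hl c hc η hη => by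
        have := hS l (by simp [hl]) c hc _ hη
        change (Φ.T l).e _ * ((Φ.T i).e b * η) * _ ∈ S at this
        change (Φ.T i).e b * _ ∈ S
        rwa [← mul_assoc, ← Φ.cm_e (e l hl), mul_assoc, mul_assoc, ← mul_assoc _ η] at this) ζ k5 k2
    refine ⟨update a i b, δ, h1, fun l => ?_, by
      simpa using ⟨fun x => h5 _ (fun l hl => Φ.cm_e (e l hl) x) (k3 x), h3⟩, fun Y hY e =>
        h5 Y (fun l hl => hY l (by simp [hl])) (k4 Y (hY i (by simp)) e), ?_, fun h => ?_⟩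
    · rcases eq_or_ne l i with rfl | e
      · simp [k1]
      · simpa [e] using h2 l
    · rw [Φ.update_of_one ((h2 i).resolve_right fun h => hi h.1), mul_assoc]; exact h6
    obtain rfl : b = 1 := by simpa using h i
    rcases k1 with ⟨w, h0, hw, e⟩ | ⟨w, s, h0, hw, hs, -, e⟩ <;>
      exact (h0 ((LinearMap.congr_fun e w).trans (by
        simp [r_apply, sk_apply, polar_sing hw, polar_comm q _ w, *]))).elim

theorem extract {K : Finset ι} {S} (hS : Φ.Inv (O q) K S) {i : ι} {β} (hβ : β ∈ S)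
    (h : ¬ Cm (Φ.T i) β) : ∃ τ, (τ = TN q ∨ τ = TP q) ∧ ∃ Γ, Γ ≠ ⊥ ∧ Φ.Inv (O q) (K.erase i) Γ ∧
      ∀ a ∈ τ, ∀ δ ∈ Γ, (Φ.T i).e a * δ ∈ S := by
  have hi : i ∈ K := by_contra fun hi => h (hS.2 i hi β hβ)
  obtain ⟨a, δ, ha, h0, h1, h2, h3⟩ := γ.ex0 (hS.1 i hi) hβ h
  obtain ⟨τ, hτ, h3⟩ : ∃ τ, (τ = TN q ∨ τ = TP q) ∧ ∀ a ∈ τ, (Φ.T i).e a * δ ∈ S := by
    rcases ha with ha | ha
    · exact ⟨_, .inl rfl, fun _ ⟨_, hw, e⟩ => e ▸ γ.spreadN (cl_nq (hS.1 i hi)) ha h1 h3 hw⟩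
    · exact ⟨_, .inr rfl, fun _ ⟨_, _, hw, hs, e⟩ => e ▸ γ.spreadP (cl_nq (hS.1 i hi)) ha h1 h3 hw hs⟩
  refine ⟨τ, hτ,
    { carrier := {δ | (∀ k ∉ K.erase i, Cm (Φ.T k) δ) ∧ ∀ a ∈ τ, (Φ.T i).e a * δ ∈ S}
      zero_mem' := ⟨fun _ _ _ => by simp, by simp⟩
      add_mem' := fun h h' => ⟨fun k hk => (h.1 k hk).add (h'.1 k hk), fun a ha =>
        mul_add ((Φ.T i).e a) _ _ ▸ add_mem (h.2 a ha) (h'.2 a ha)⟩
      smul_mem' := fun c _ h => ⟨fun k hk => (h.1 k hk).smul c, fun a ha =>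
        mul_smul_comm c ((Φ.T i).e a) _ ▸ S.smul_mem c (h.2 a ha)⟩ },
    fun h => h0 (h.le (show δ ∈ _ from ⟨fun k hk => ?_, h3⟩)), ⟨fun k hk b hb ζ hζ => ⟨fun l hl => ?_,
      fun a ha => ?_⟩, fun k hk ζ hζ => hζ.1 k hk⟩, fun a ha ζ hζ => hζ.2 a ha⟩
  · rcases eq_or_ne k i with rfl | e
    · exact h1
    · exact fun a => h2 _ (Φ.cm_e e.symm a) (hS.2 k (by simpa [e] using hk) β hβ a)
  · have e : l ≠ k := fun e => hl (e ▸ hk)
    exact ((Φ.cm_e e _).mul (hζ.1 l hl)).mul (Φ.cm_e e _)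
  · have := hS.1 k (Finset.mem_of_mem_erase hk) b hb _ (hζ.2 a ha)
    rwa [← mul_assoc, Φ.cm_e (Finset.ne_of_mem_erase hk).symm, mul_assoc, mul_assoc, ← mul_assoc _ ζ]
      at this

theorem ty_pow {τ} (h : τ = TN q ∨ τ = TP q) : Submodule.span F τ ^ 4 = ⊤ := by
  rcases h with rfl | rfl
  exacts [γ.tn_pow, γ.tp_pow]

theorem one_mem_pow (K : Finset ι) : ∀ S, Φ.Inv (O q) K S → S ≠ ⊥ → 1 ∈ S ^ 4 := by
  induction K using Finset.strongInduction with | _ K ih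
  intro S hS h0
  obtain ⟨β, hβ, h1⟩ := Submodule.exists_mem_ne_zero_of_ne_bot h0
  by_cases h : ∀ i, Cm (Φ.T i) β
  · obtain ⟨c, rfl⟩ := Φ.cen β h
    simpa using Submodule.pow_mem_pow S ((S.smul_mem_iff fun h => h1 (by simp [h])).1 hβ) 4
  obtain ⟨i, hi⟩ := not_forall.1 h
  obtain ⟨τ, hτ, Γ, h2, h3, h5⟩ := γ.extract hS hβ hi
  simpa using e_mem_pow (γ.ty_pow hτ) (h3.2 i (by simp)) h5 (ih _ (Finset.erase_ssubset
    (by_contra fun h => hi (hS.2 i h β hβ))) Γ h3 h2) 1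

theorem e_mem_pow {K : Finset ι} {S} (hS : Φ.Inv (O q) K S) {i : ι} {β} (hβ : β ∈ S)
    (h : ¬ Cm (Φ.T i) β) (a : End F U) : (Φ.T i).e a ∈ S ^ 4 :=
  let ⟨_, hτ, Γ, h2, h3, h5⟩ := γ.extract hS hβ h
  TW.e_mem_pow (γ.ty_pow hτ) (h3.2 i (by simp)) h5 (γ.one_mem_pow _ Γ h3 h2) a

end OU

end Cfsg.Lib.TQ
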