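import Cfsg.Agent.Lib.TQ.Cen
import Cfsg.Agent.Lib.TQ.Act

/-!
# Involutions of four-dimensional orthogonal groups of minus type
-/

set_option autoImplicit false
set_option linter.unusedSectionVars false

namespace Cfsg.Lib.TQ

open Module QuadraticMap Cfsg.Lib.TW Cfsg.Lib.TMax Function Cfsg.Lib.TO
open Cfsg.Lib.Orth
open Cfsg.Lib.Unitary (UG)
open scoped commutatorElement

variable {F U : Type*} [Field F] [AddCommGroup U] [Module F U] {q : QuadraticForm F U}
  {v x y w f : U} {a : U ≃ₗ[F] U} {b : O q}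

theorem sq_apply (h : b * b = 1) (x : U) : b.1 (b.1 x) = x := by rw [← O.mul_apply, h]; rfl

theorem mem_comm_iff (h2 : (2 : F) ≠ 0) (h : b * b = 1) : x ∈ O.comm b ↔ b.1 x = -x :=
  ⟨fun ⟨y, e⟩ => by simp [← e, sq_apply h], fun e => O.mem_comm.2 ⟨(-2 : F)⁻¹ • x, by
    rw [map_smul, e]; match_scalars; field_simp; ring⟩⟩

theorem neg_sq (h : b * b = 1) : O.neg q * b * (O.neg q * b) = 1 :=
  O.ext fun x => by simp [sq_apply h]

theorem comm_neg (h2 : (2 : F) ≠ 0) (h : b * b = 1) : O.comm (O.neg q * b) = O.fix b :=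
  Submodule.ext fun x => by simp [mem_comm_iff h2 (neg_sq h), O.mem_fix]

theorem nr_eq_neg (v : U) : O.neg q * nr q v = refl q v := by
  rw [nr, ← mul_assoc, Orth.neg_mul_neg, one_mul]

theorem nd_pair (h2 : (2 : F) ≠ 0) (hx : q x ≠ 0) (hy : q y ≠ 0) (h : polar q x y = 0) :
    ND (q.restrict (Submodule.span F {x, y})) := nd_restrict_iff.2 fun z hz e => by
  obtain ⟨c, d, rfl⟩ := Submodule.mem_span_pair.1 hz
  have e1 := e x (Submodule.subset_span (by simp))
  have e2 := e y (Submodule.subset_span (by simp))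
  simp [polar_add_left, polar_comm q y x, h, polar_self', h2, hx, hy] at e1 e2
  simp [e1, e2]

theorem exists_sing (hx : q x ≠ 0) (h : polar q x y = 0) (e : IsSquare (-(q x * q y))) :
    ∃ c : F, q (c • x + y) = 0 :=
  let ⟨t, ht⟩ := e
  ⟨t / q x, by
    rw [Q_add, Q_smul, polar_smul_left', h]; field_simp; linear_combination -ht⟩

/-- Involutions with two-dimensional eigenspaces. -/
structure Zt (b : O q) : Prop where
  sq : b * b = 1
  two : finrank F (O.comm b) = 2

/-- A rotation of order four in a plane. -/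
noncomputable def rot (q : QuadraticForm F U) (x y : U) : O q := refl q (x - y) * refl q x

theorem Q_sub_ne (h2 : (2 : F) ≠ 0) (hx : q x ≠ 0) (e : q x = q y) (h : polar q x y = 0) :
    q (x - y) ≠ 0 := by
  rw [Q_sub, h, ← e, sub_zero, ← two_mul]; exact mul_ne_zero h2 hx

theorem rot_apply (h2 : (2 : F) ≠ 0) (hx : q x ≠ 0) (e : q x = q y) (h : polar q x y = 0) (z : U) :
    (rot q x y).1 z = z - ((2 * q x)⁻¹ * (polar q x z - polar q y z)) • x -
      ((2 * q x)⁻¹ * (polar q x z + polar q y z)) • y := by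
  simp only [rot, O.mul_apply, refl_apply, Q_sub, h, ← e, polar_sub_left, polar_sub_right,
    polar_smul_right', polar_self', polar_comm q y x, ← two_mul]
  match_scalars <;> field_simp <;> ring

theorem rot_sq (h2 : (2 : F) ≠ 0) (hx : q x ≠ 0) (e : q x = q y) (h : polar q x y = 0) :
    rot q x y * rot q x y = refl q x * refl q y := O.ext fun z => by
  simp only [O.mul_apply, rot_apply h2 hx e h, refl_apply, h, ← e, polar_sub_right,
    polar_smul_right', polar_self', polar_comm q y x]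
  match_scalars <;> field_simp <;> ring

variable [FiniteDimensional F U]

theorem trace_refl (hv : q v ≠ 0) :
    LinearMap.trace F U (refl q v).1.toLinearMap = finrank F U - 2 := by
  simp [refl_coe, r, rk, LinearMap.trace_smulRight, polar_self', hv]
  field_simp

theorem trace_of_nonsq [Finite F] {c : F} (h2 : (2 : F) ≠ 0) (hc : ¬ IsSquare c)
    (h : ∀ x, a (a x) = c • x) : LinearMap.trace F U a.toLinearMap = 0 := by
  classical
  have := Fintype.ofFinite F
  have hF : ringChar F ≠ 2 := fun e => h2 (by simpa [e] using ringChar.Nat.cast_ringChar (R := F))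
  have h0 : c ≠ 0 := fun e => hc (e ▸ IsSquare.zero)
  have h1 := (FiniteField.pow_dichotomy hF h0).resolve_left (mt (FiniteField.isSquare_iff hF h0).2 hc)
  let B := Module.finBasis F U
  have h3 := FiniteField.trace_pow_card (LinearMap.toMatrix B B a.toLinearMap)
  rw [FiniteField.pow_card, ← Nat.div_add_mod (Fintype.card F) 2,
    FiniteField.odd_card_of_char_ne_two hF, pow_succ, pow_mul, LinearMap.toMatrix_pow,
    show a.toLinearMap ^ 2 = c • 1 from LinearMap.ext fun x => by simp [pow_two, h]] at h3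
  rw [LinearMap.trace_eq_matrix_trace F B]
  simp [smul_pow, h1] at h3
  exact (smul_eq_zero_iff_right h2).1 (by linear_combination -h3)

variable [Finite F]

namespace OU

variable (γ : OU q)
include γ

theorem exists_perp (hv : q v ≠ 0) (c : F) : ∃ x, polar q v x = 0 ∧ q x = c := by
  have h1 := finrank_perp_singleton γ.nd (ne_zero_of_Q_ne_zero hv)
  have := γ.four
  obtain ⟨x, hx, e⟩ := OMax.exists_Q_eq_mem (nd_perp_singleton γ.nd γ.two hv) (by omega) c
  exact ⟨x, mem_perp_singleton.1 hx, e⟩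

theorem exists_perp₂ (hx : q x ≠ 0) (hy : q y ≠ 0) (h : polar q x y = 0) (c : F) :
    ∃ z, polar q x z = 0 ∧ polar q y z = 0 ∧ q z = c := by
  have h1 := finrank_add_finrank_perp γ.nd (Submodule.span F {x, y})
  have := finrank_span_pair_le (F := F) x y
  have := γ.four
  obtain ⟨z, hz, e⟩ := OMax.exists_Q_eq_mem (nd_restrict_perp γ.nd (nd_pair γ.two hx hy h))
    (by omega) c
  exact ⟨z, (Orth.mem_perp_pair.1 hz).1, (Orth.mem_perp_pair.1 hz).2, e⟩

theorem refl_mul_mem (hv : q v ≠ 0) (h : q v = q x) : refl q v * refl q x ∈ eichGroup q :=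
  let ⟨_, _, hf⟩ := γ.exists_hyp
  hf.refl_mul_refl_mem_eichGroup γ.nd γ.three hv h

theorem dickson_pair (hx : q x ≠ 0) (hy : q y ≠ 0) : dickson γ.nd (refl q x * refl q y) = 1 := by
  simp [dickson_refl _ hx, dickson_refl _ hy]

theorem dickson_neg' : dickson γ.nd (O.neg q) = 1 := by rw [dickson_neg, γ.four]; rfl

theorem nr_ne (hv : q v ≠ 0) (c : F) : ¬ ∀ x, (nr q v).1 x = c • x := fun h => by
  obtain ⟨x, h1, h2⟩ := γ.exists_perp hv 1
  have h4 := congrArg (polar q v) (h v)
  have h5 := congrArg (polar q x) (h x)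
  simp only [nr_self hv, nr_perp h1, polar_neg_right, polar_smul_right', polar_self', h2] at h4 h5
  exact mul_ne_zero γ.two (mul_ne_zero γ.two hv) (by linear_combination h4 - q v * h5)

theorem nr_eq {c : F} (h : ∀ z, (nr q v).1 z = c • (nr q x).1 z) : nr q v = nr q x := by
  obtain ⟨z, hz, h0⟩ := Submodule.exists_mem_ne_zero_of_ne_bot
    (p := perp q (Submodule.span F {v, x})) fun e => by
      have := finrank_add_finrank_perp γ.nd (Submodule.span F {v, x})
      have := finrank_span_pair_le (F := F) v x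
      have := γ.four
      rw [e, finrank_bot] at *
      omega
  have h1 := h z
  rw [nr_perp (Orth.mem_perp_pair.1 hz).1, nr_perp (Orth.mem_perp_pair.1 hz).2] at h1
  obtain rfl : c = 1 := by
    by_contra e
    exact h0 ((smul_eq_zero_iff_right (sub_ne_zero.2 e)).1 (by linear_combination (norm := module) h1))
  exact Subtype.ext (LinearEquiv.ext fun z => by simpa using h z)

theorem nonsq (h : IsHyp q w f) (hx : x ∈ hperp q w f) (hy : y ∈ hperp q w f) (h1 : q x ≠ 0)
    (h2 : q y ≠ 0) (e : polar q x y = 0) : ¬ IsSquare (-(q x * q y)) := fun h3 => by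
  obtain ⟨c, hc⟩ := exists_sing h1 e h3
  refine γ.aniso h (add_mem (Submodule.smul_mem _ c hx) hy) (fun e' => h2 ?_) hc
  simpa [polar_add_right, polar_comm q y x, e, polar_self', γ.two] using congrArg (polar q y) e'

theorem neg_notMem : O.neg q ∉ eichGroup q := fun h => by
  obtain ⟨w, f, hf⟩ := γ.exists_hyp
  obtain ⟨x, hx, y, hy, h1, h2, h3, -⟩ := γ.plane' hf
  obtain ⟨a1, a2⟩ := mem_hperp.1 hx
  obtain ⟨a3, a4⟩ := mem_hperp.1 hy
  have := (γ.mem_eich.1 h).2
  rw [spinor_neg γ.nd γ.two (v := ![w + f, w - f, x, y]) (by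
    simp [Fin.forall_fin_succ, Q_add, Q_sub, hf.left, hf.right, hf.polar_eq, h1, h2]) (by
      simp [Fin.forall_fin_succ, polar_add_left, polar_sub_left, polar_add_right, polar_sub_right,
        hf.polar_left, hf.polar_right, hf.polar_eq, hf.polar_eq', polar_comm q x w, polar_comm q x f,
        polar_comm q y x, polar_comm q y w, polar_comm q y f, a1, a2, a3, a4, h3]) (by simp [γ.four]), sqsign_eq_one_iff] at this
  exact γ.nonsq hf hx hy h1 h2 h3 (by
    simpa [Fin.prod_univ_succ, Q_add, Q_sub, hf.left, hf.right, hf.polar_eq] using this)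

theorem exists_ns (h : b * b = 1) (h1 : b ≠ 1) : ∃ x, q x ≠ 0 ∧ b.1 x = -x := by
  by_contra! h2
  refine h1 (O.comm_eq_bot_iff.1 (eq_bot_iff.2 fun x hx => ?_))
  have h3 := O.mem_fix.1 (O.perp_comm γ.nd b ▸ TS.le_perp (fun y hy => by_contra fun e =>
    h2 y e ((mem_comm_iff γ.two h).1 hy)) hx)
  rw [(mem_comm_iff γ.two h).1 hx] at h3
  exact (smul_eq_zero_iff_right γ.two).1 (by linear_combination (norm := module) -h3)

theorem exists_eigen (h : b * b = 1) : ∃ x, q x ≠ 0 ∧ refl q x * b = b * refl q x := by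
  obtain ⟨x, h1, h2⟩ : ∃ x, q x ≠ 0 ∧ (b.1 x = x ∨ b.1 x = -x) := by
    rcases eq_or_ne b 1 with rfl | e
    · have := γ.nontrivial
      exact let ⟨x, h⟩ := γ.nd.exists_Q_ne; ⟨x, h, .inl rfl⟩
    · exact let ⟨x, h⟩ := γ.exists_ns h e; ⟨x, h.1, .inr h.2⟩
  refine ⟨x, h1, eq_comm.1 (mul_inv_eq_iff_eq_mul.1 ?_)⟩
  rcases h2 with e | e <;> simp [conj_refl, e, refl_neg]

theorem zt_refl (hx : q x ≠ 0) (hy : q y ≠ 0) (h : polar q x y = 0) : Zt (refl q x * refl q y) := by
  have k : x ∉ O.comm (refl q y) := comm_refl γ.nd hy ▸ fun e => by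
    obtain ⟨c, rfl⟩ := Submodule.mem_span_singleton.1 e
    simp [polar_self', γ.two, hy] at h
    simp [h] at hx
  refine ⟨by rw [mul_assoc, ← mul_assoc (refl q y), ← refl_comm_of_perp h, mul_assoc, refl_mul_self,
    mul_one, refl_mul_self], ?_⟩
  rw [comm_refl_mul_of_not_mem γ.nd hx k, finrank_sup_span_singleton' k, finrank_comm_refl γ.nd hy]

omit γ [Finite F] in
theorem _root_.Cfsg.Lib.TQ.Zt.ne (h : Zt b) : b ≠ 1 := fun e => by
  have := h.two
  rw [e, O.comm_one, finrank_bot] at this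
  cases this

theorem zt_fix (h : Zt b) : finrank F (O.fix b) = 2 := by
  have := O.finrank_comm_add_finrank_fix b
  have := h.two
  have := γ.four
  omega

theorem zt_neg (h : Zt b) : Zt (O.neg q * b) := ⟨neg_sq h.sq, comm_neg γ.two h.sq ▸ γ.zt_fix h⟩

theorem zt_ne (h : Zt b) (c : F) : ¬ ∀ x, b.1 x = c • x := fun e => by
  obtain ⟨x, h1, h2⟩ := γ.exists_ns h.sq h.ne
  obtain ⟨y, h3, h4⟩ := γ.exists_ns (γ.zt_neg h).sq (γ.zt_neg h).ne
  have h5 := congrArg (polar q x) ((e x).symm.trans h2)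
  have h6 := congrArg (polar q y) ((e y).symm.trans (neg_injective h4))
  simp only [polar_neg_right, polar_smul_right', polar_self'] at h5 h6
  exact mul_ne_zero γ.two (mul_ne_zero (mul_ne_zero γ.two h1) h3) (by
    linear_combination q y * h5 - q x * h6)

theorem exists_refl (h : Zt b) : ∃ x y, q x ≠ 0 ∧ q y ≠ 0 ∧ polar q x y = 0 ∧
    b = refl q x * refl q y := by
  obtain ⟨x, h1, h2⟩ := γ.exists_ns h.sq h.ne
  have h3 := not_mem_comm_refl_mul γ.nd h1 ((mem_comm_iff γ.two h.sq).2 h2)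
  have h4 := comm_refl_mul_of_not_mem γ.nd h1 h3
  rw [← mul_assoc, refl_mul_self, one_mul] at h4
  obtain ⟨y, h5, e⟩ := exists_eq_refl_of_finrank_comm γ.nd (g := refl q x * b) (by
    have := h.two
    rw [h4, finrank_sup_span_singleton' h3] at this
    omega)
  refine ⟨x, y, h1, h5, ?_, by rw [← e, ← mul_assoc, refl_mul_self, one_mul]⟩
  have := congrArg (fun g : O q => polar q y (g.1 x)) e
  simp only [O.mul_apply, h2, map_neg, refl_apply_self h1, neg_neg, refl_apply, polar_sub_right,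
    polar_smul_right', polar_self'] at this
  rw [polar_comm]
  refine mul_left_cancel₀ γ.two ?_
  field_simp at this
  linear_combination this

theorem zt_trace (h : Zt b) : LinearMap.trace F U b.1.toLinearMap = 0 := by
  obtain ⟨x, y, hx, hy, e, rfl⟩ := γ.exists_refl h
  rw [Subgroup.coe_mul, LinearEquiv.coe_toLinearMap_mul, refl_coe, refl_coe]
  simp [mul_sub, sub_mul, r_mul, e]
  simp [r, rk, LinearMap.trace_smulRight, polar_self', hx, hy, γ.four]
  field_simp
  ring

theorem trace_nr (hv : q v ≠ 0) : LinearMap.trace F U (nr q v).1.toLinearMap = -2 := by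
  rw [show (nr q v).1.toLinearMap = -(refl q v).1.toLinearMap from rfl, map_neg, trace_refl hv, γ.four]
  norm_num

theorem inv_cases (h : b * b = 1) : (∃ c : F, ∀ x, b.1 x = c • x) ∨
    (∃ v, q v ≠ 0 ∧ (b = nr q v ∨ b = O.neg q * nr q v)) ∨ Zt b := by
  have h1 := O.finrank_comm_add_finrank_fix b
  rw [← comm_neg γ.two h, γ.four] at h1
  have e : O.neg q * (O.neg q * b) = b := by rw [← mul_assoc, Orth.neg_mul_neg, one_mul]
  rcases (show finrank F (O.comm b) = 0 ∨ finrank F (O.comm (O.neg q * b)) = 0 ∨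
      finrank F (O.comm b) = 1 ∨ finrank F (O.comm (O.neg q * b)) = 1 ∨
        finrank F (O.comm b) = 2 by omega) with h2 | h2 | h2 | h2 | h2
  · exact .inl ⟨1, by simp [O.comm_eq_bot_iff.1 (Submodule.finrank_eq_zero.1 h2)]⟩
  · exact .inl ⟨-1, fun x => by
      rw [← e, O.comm_eq_bot_iff.1 (Submodule.finrank_eq_zero.1 h2)]; simp⟩
  · exact let ⟨v, hv, e⟩ := exists_eq_refl_of_finrank_comm γ.nd h2
      .inr (.inl ⟨v, hv, .inr (e.trans (nr_eq_neg v).symm)⟩)
  · exact let ⟨v, hv, e'⟩ := exists_eq_refl_of_finrank_comm γ.nd h2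
      .inr (.inl ⟨v, hv, .inl (by rw [← e, e', nr])⟩)
  · exact .inr (.inr ⟨h, h2⟩)

theorem exists_root (hv : q v ≠ 0) : ∃ w s, w ≠ 0 ∧ q w = 0 ∧ polar q w s = 0 ∧ s ∉ F ∙ w ∧
    polar q v w = 0 ∧ polar q v s = 0 := by
  have h1 := finrank_perp_singleton γ.nd (ne_zero_of_Q_ne_zero hv)
  have := γ.four
  obtain ⟨w, h2, h3, h4⟩ := exists_singular_mem q (perp q (F ∙ v)) (by omega)
  obtain ⟨s, h5, h6⟩ := SetLike.not_le_iff_exists.1 (show ¬ perp q (Submodule.span F {w, v}) ≤ F ∙ w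
    from fun e => by
      have := Submodule.finrank_mono e
      have := finrank_add_finrank_perp γ.nd (Submodule.span F {w, v})
      have := finrank_span_pair_le (F := F) w v
      have := finrank_span_le (F := F) w
      omega)
  exact ⟨w, s, h3, h4, (Orth.mem_perp_pair.1 h5).1, h6, mem_perp_singleton.1 h2,
    (Orth.mem_perp_pair.1 h5).2⟩

theorem zt_sing (h : Zt b) : ∃ w, w ≠ 0 ∧ q w = 0 ∧ (b.1 w = w ∨ b.1 w = -w) := by
  obtain ⟨x, y, hx, hy, e, rfl⟩ := γ.exists_refl h
  obtain ⟨z, h1, h2, h3⟩ := γ.exists_perp₂ hx hy e (-q x)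
  have h4 : IsHyp q (x + z) ((4 * q x)⁻¹ • (x - z)) := ⟨by simp [Q_add, h1, h3],
    by simp [Q_smul, Q_sub, h1, h3], by
      have : (4 : F) ≠ 0 := by convert mul_ne_zero γ.two γ.two using 1; norm_num
      simp [polar_add_left, polar_sub_right, polar_comm q z x, h1, polar_self', h3]
      field_simp; ring⟩
  have h5 : y ∈ hperp q (x + z) ((4 * q x)⁻¹ • (x - z)) := mem_hperp.2 (by
    simp [polar_add_left, polar_sub_left, polar_comm q z y, e, h2])
  obtain ⟨u, h6, h7, h8, -⟩ := γ.plane h4 h5 (ne_zero_of_Q_ne_zero hy)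
  have h9 := sqsign_of_not_isSquare (γ.nonsq h4 h5 h6 hy h7 h8)
  obtain ⟨a1, a2⟩ := mem_hperp.1 h6
  have a3 : polar q x u = 0 ∧ polar q z u = 0 := by
    have : (4 : F) ≠ 0 := by convert mul_ne_zero γ.two γ.two using 1; norm_num
    simp [polar_add_left, polar_sub_left, this, hx] at a1 a2
    exact ⟨mul_left_cancel₀ γ.two (by linear_combination a1 + a2),
      mul_left_cancel₀ γ.two (by linear_combination a1 - a2)⟩
  have hz : q z ≠ 0 := by simp [h3, hx]
  by_cases h10 : IsSquare (-(q x * q y))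
  · obtain ⟨c, hc⟩ := exists_sing hx e h10
    refine ⟨_, fun e' => hy ?_, hc, .inr (by
      simp [refl_apply_self, hx, hy, refl_apply_of_perp, e, polar_comm q y x, add_comm])⟩
    simpa [polar_add_right, polar_comm q y x, e, polar_self', γ.two] using congrArg (polar q y) e'
  obtain ⟨c, hc⟩ := exists_sing hz a3.2 (sqsign_eq_one_iff.1 (by
    rw [← sqsign_sq_mul hx, show q x ^ 2 * -(q y * q u) = -(q x * q y) * -(q z * q u) by
      rw [h3]; ring, sqsign_mul (by simp [hx, hy]) (by simp [hz, h7]),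
      sqsign_of_not_isSquare h10] at h9
    simpa using h9))
  refine ⟨_, fun e' => h7 ?_, hc, .inl (by simp [refl_apply_of_perp, h1, h2, a3.1, h8])⟩
  simpa [polar_add_right, polar_comm q u z, a3.2, polar_self', γ.two] using congrArg (polar q u) e'

theorem exists_sing_eigen (h : b * b = 1) : ∃ w, ∃ c : F, w ≠ 0 ∧ q w = 0 ∧ b.1 w = c • w := by
  rcases γ.inv_cases h with ⟨c, hc⟩ | ⟨v, hv, e⟩ | e
  · exact let ⟨w, _, h⟩ := γ.exists_hyp; ⟨w, c, h.ne_zero, h.left, hc w⟩
  · obtain ⟨w, -, h0, hw, -, -, h1, -⟩ := γ.exists_root hv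
    rcases e with rfl | rfl
    exacts [⟨w, -1, h0, hw, by simp [nr_perp h1]⟩, ⟨w, 1, h0, hw, by simp [nr_perp h1]⟩]
  · obtain ⟨w, h0, hw, e | e⟩ := γ.zt_sing e
    exacts [⟨w, 1, h0, hw, by simpa⟩, ⟨w, -1, h0, hw, by simpa⟩]

/-- The normal form of an involution with two-dimensional eigenspaces. -/
theorem zt_hyp (h : Zt b) : ∃ w f c, IsHyp q w f ∧ (c = b ∨ c = O.neg q * b) ∧ c.1 w = w ∧ c.1 f = f ∧
    ∀ s ∈ hperp q w f, c.1 s = -s := by
  have k : ∀ {c : O q} {w}, Zt c → w ≠ 0 → q w = 0 → c.1 w = w → ∃ f, IsHyp q w f ∧ c.1 w = w ∧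
      c.1 f = f ∧ ∀ s ∈ hperp q w f, c.1 s = -s := fun {c w} h h0 hw e => by
    obtain ⟨f, h1, h2⟩ := exists_isHyp_perp γ.nd (W := O.comm c) hw (fun e' => h0
      ((smul_eq_zero_iff_right γ.two).1 (by
        linear_combination (norm := module) (mem_comm_iff γ.two h.sq).1 e' - e)))
      (O.perp_comm γ.nd c ▸ O.mem_fix.2 e)
    rw [O.perp_comm γ.nd] at h1
    refine ⟨f, h2, e, O.mem_fix.1 h1, fun s hs => (mem_comm_iff γ.two h.sq).1 ?_⟩
    rwa [← O.perp_fix γ.nd, ← Submodule.eq_of_le_of_finrank_eq (S₁ := Submodule.span F {w, f})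
      (S₂ := O.fix c) (Submodule.span_le.2 (by rintro _ (rfl | rfl); exacts [O.mem_fix.2 e, h1])) (by
        rw [γ.zt_fix h, Unitary.finrank_span_pair_of_linearIndependent h2.linearIndependent])]
  obtain ⟨w, h0, hw, e | e⟩ := γ.zt_sing h
  · exact let ⟨f, h1, h2⟩ := k h h0 hw e; ⟨w, f, _, h1, .inl rfl, h2⟩
  · exact let ⟨f, h1, h2⟩ := k (γ.zt_neg h) h0 hw (by simp [e]); ⟨w, f, _, h1, .inr rfl, h2⟩

theorem zt_of_mem (hb : b ∈ eichGroup q) (h : b * b = 1) (h1 : b ≠ 1) : Zt b := by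
  have h2 := (dickson_eq_one_iff γ.nd).1 (γ.mem_eich.1 hb).1
  have h3 := O.finrank_comm_add_finrank_fix b
  rw [← comm_neg γ.two h, γ.four] at h3
  have h4 : finrank F (O.comm b) ≠ 0 := fun e =>
    h1 (O.comm_eq_bot_iff.1 (Submodule.finrank_eq_zero.1 e))
  have h5 : finrank F (O.comm (O.neg q * b)) ≠ 0 := fun e => γ.neg_notMem (by
    rw [eq_inv_of_mul_eq_one_left (O.comm_eq_bot_iff.1 (Submodule.finrank_eq_zero.1 e))]
    exact inv_mem hb)
  exact ⟨h, by obtain ⟨n, h2⟩ := h2; omega⟩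

theorem exists_refl' (hb : b ∈ eichGroup q) (h : Zt b) : ∃ x y, q x ≠ 0 ∧ q x = q y ∧
    polar q x y = 0 ∧ b = refl q x * refl q y := by
  obtain ⟨x, y, hx, hy, e, rfl⟩ := γ.exists_refl h
  have h1 := (γ.mem_eich.1 hb).2
  rw [map_mul, spinor_refl _ hx, spinor_refl _ hy, mul_eq_one_iff_eq_inv, Int.units_inv_eq_self] at h1
  obtain ⟨c, h2, h3⟩ := exists_sq_mul_of_sqsign_eq hy hx h1.symm
  exact ⟨x, c • y, hx, by rw [Q_smul, h3], by simp [e], by rw [refl_smul h2]⟩

/-- Involutions of the projective similarity group. -/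
theorem inv4 {l c : F} (hs : Sim q a l) (h : ∀ x, a (a x) = c • x) :
    (∃ b : O q, ∃ μ : F, b * b = 1 ∧ ∀ x, a x = μ • b.1 x) ∨
      ¬ IsSquare c ∧ ∀ x y, polar q (a x) y = polar q x (a y) := by
  obtain ⟨u, z, hu⟩ := γ.exists_hyp
  have h1 : (l * c - 1) * (l * c + 1) = 0 := by
    have e1 := hs (a u) (a z)
    have e2 := hs u z
    simp only [h, polar_smul_left', polar_smul_right', hu.polar_eq] at e1 e2
    linear_combination -e2 - l * e1
  have h2 : ∀ x y, polar q (a x) y = l * c * polar q x (a y) := fun x y => by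
    rw [hs (a x) y, h, polar_smul_left', mul_assoc]
  rcases mul_eq_zero.1 h1 with h1 | h1
  · refine or_iff_not_imp_right.2 fun h3 => ?_
    obtain ⟨μ, rfl⟩ : IsSquare c := by_contra fun e =>
      h3 ⟨e, fun x y => by rw [h2, sub_eq_zero.1 h1, one_mul]⟩
    obtain ⟨b, hb⟩ := hs.exists_O γ.two (μ := μ) (by linear_combination h1)
    have h0 : μ ≠ 0 := by rintro rfl; simp at h1
    exact ⟨b, μ, O.ext fun x => smul_right_injective U (mul_ne_zero h0 h0) (by
      simpa [hb, mul_smul] using h x), hb⟩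
  have h3 : ∀ x, polar q x (a x) = 0 := fun x => mul_left_cancel₀ γ.two (by
    linear_combination h2 x x + polar_comm q x (a x) + polar q x (a x) * h1)
  obtain ⟨μ, h4⟩ := γ.scalar_of_fix (β := a.toLinearMap) fun w hw => by
    rcases eq_or_ne w 0 with rfl | h0
    · simp
    refine γ.w1 w _ h0 hw (mul_left_cancel₀ γ.two ?_) (h3 w)
    simpa [h, polar_self', hw] using h2 w (a w)
  have h5 := h3 (u + z)
  rw [show a (u + z) = μ • (u + z) from h4 _] at h5
  rw [polar_smul_right', polar_self'] at h5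
  simp [Q_add, hu.left, hu.right, hu.polar_eq, γ.two] at h5
  exact (hu.ne_zero (a.injective (by simp [show a u = μ • u from h4 _, h5]))).elim

end OU

end Cfsg.Lib.TQ
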