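import Cfsg.Agent.Lib.TQ.Tor

/-!
# Four-dimensional orthogonal tensor powers: local criteria
-/

set_option autoImplicit false
set_option linter.unusedSectionVars false

namespace Cfsg.Lib.TQ

open Module QuadraticMap Cfsg.Lib.TW Cfsg.Lib.TMax Function Cfsg.Lib.TO
open Cfsg.Lib.Orth
open Cfsg.Lib.Unitary (UG)
open scoped commutatorElement

universe u

section

variable {F U W V : Type*} [Field F] [AddCommGroup U] [Module F U] [AddCommGroup W] [Module F W]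
  [AddCommGroup V] [Module F V] {q : QuadraticForm F U} {Q : QuadraticForm F V}
  {T T' : TF F U W V} {M : Subgroup (V ≃ₗ[F] V)} {g k : V ≃ₗ[F] V} {v x y w s : U} {b : O q}
  {ι : Type*} [DecidableEq ι] [Fintype ι] {Φ : Fam ι F U W V} {i j l m : ι} {n : ℕ}

theorem kr_neg (T : TF F U W V) : T.kr (O.neg q).1 1 = LinearEquiv.neg F :=
  T.eq_of_t fun _ _ => by simp

theorem neg_central (g : V ≃ₗ[F] V) : g * LinearEquiv.neg F = LinearEquiv.neg F * g :=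
  LinearEquiv.ext fun _ => by simp

theorem kr_comm {a c : U ≃ₗ[F] U} (h : a * c = c * a) (β) :
    T.kr c 1 * T.kr a β = T.kr a β * T.kr c 1 := by simp [T.kr_mul, h]

theorem comm_of_kr [Nontrivial W] {a c : U ≃ₗ[F] U} {β} (h : T.kr a β * T.kr c 1 = T.kr c 1 * T.kr a β) :
    a * c = c * a := mul_inv_eq_iff_eq_mul.1 (kr_inj (T := T) (by
  rw [← mul_inv_eq_iff_eq_mul, T.kr_inv, T.kr_mul, T.kr_mul] at h
  simpa using h))

theorem conj_comm {G : Type*} [Group G] {g a z : G} (h : a * (g * z * g⁻¹) = g * z * g⁻¹ * a) :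
    g⁻¹ * a * g * z = z * (g⁻¹ * a * g) :=
  calc _ = g⁻¹ * (a * (g * z * g⁻¹)) * g := by group
    _ = _ := by rw [h]; group

theorem conj_pow_one {G : Type*} [Group G] {g a : G} {n : ℕ} (h : a ^ n = 1) :
    (g⁻¹ * a * g) ^ n = 1 := by simpa [h] using conj_pow (a := g⁻¹) (b := a) (i := n)

variable [FiniteDimensional F U]

theorem trace_kr [FiniteDimensional F W] (a : U ≃ₗ[F] U) (β : W ≃ₗ[F] W) :
    LinearMap.trace F V (T.kr a β).toLinearMap =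
      LinearMap.trace F U a.toLinearMap * LinearMap.trace F W β.toLinearMap := by
  rw [← LinearMap.trace_tensorProduct', ← LinearMap.trace_conj' _ T.φ]
  congr 1

theorem trace_conj [FiniteDimensional F V] (g k : V ≃ₗ[F] V) :
    LinearMap.trace F V (g * k * g⁻¹).toLinearMap = LinearMap.trace F V k.toLinearMap :=
  LinearMap.trace_conj' k.toLinearMap g

theorem sub_of_conj [Nontrivial W] (hg : g ∈ WG Φ) {c} (h : g * (Φ.T j).kr c 1 * g⁻¹ ∉ CG (Φ.T l)) :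
    Sub (g • Φ.T j) (Φ.T l) := by
  obtain ⟨s, hs⟩ := hg
  obtain ⟨c', e'⟩ := (hs j).conj_kr c
  exact by_contra fun h1 => h (e' ▸ cm_kr (fun e : l = s j => h1 (e ▸ hs j)) _)

theorem sub_of_comm [Nontrivial W] (hg : g ∈ WG Φ) {c} (h : (Φ.T j).kr c 1 ∉ CG (Φ.T j))
    (e : g * (Φ.T j).kr c 1 = (Φ.T j).kr c 1 * g) : Sub (g • Φ.T j) (Φ.T j) :=
  sub_of_conj hg (by rwa [e, mul_inv_cancel_right])

/-- The commutant of a product of tori is commutative. -/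
theorem comm_of_tor [Nontrivial U] {y : ι → End F U} {x : U}
    (hy : ∀ i z, ∃ f ∈ Algebra.adjoin F {y i}, f x = z) (K : Finset ι) : ∀ X : End F V,
      (∀ l ∉ K, Cm (Φ.T l) X) → (∀ l, X * (Φ.T l).e (y l) = (Φ.T l).e (y l) * X) →
      X ∈ Subalgebra.centralizer F (Subalgebra.centralizer F (Set.range fun l => (Φ.T l).e (y l)) :
        Set (End F V)) := by
  induction K using Finset.induction_on with
  | empty =>
    intro X h _
    obtain ⟨c, rfl⟩ := Φ.cen X fun i => h i (by simp)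
    exact Subalgebra.smul_mem _ (one_mem _) c
  | insert i K hi ih =>
    intro X h h'
    set R := Subalgebra.centralizer F (Subalgebra.centralizer F
      (Set.range fun l => (Φ.T l).e (y l)) : Set (End F V))
    have k1 : ∀ Z, Z * (Φ.T i).e (y i) = (Φ.T i).e (y i) * Z → ∀ f ∈ Algebra.adjoin F {y i},
        Z * (Φ.T i).e f = (Φ.T i).e f * Z := fun Z hZ f hf =>
      Algebra.adjoin_le (S := (Subalgebra.centralizer F {Z}).comap (Φ.T i).e)
        (by rintro _ rfl _ rfl; exact hZ) hf Z rfl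
    have k2 : ∀ f ∈ Algebra.adjoin F {y i}, (Φ.T i).e f ∈ R := fun f hf Z hZ =>
      k1 Z (hZ _ ⟨i, rfl⟩).symm f hf
    obtain ⟨Z, h1, h2⟩ := end_ind (p := fun a => ∃ Z ∈ R, ∀ u,
        (Φ.T i).e a (X ((Φ.T i).t x u)) = Z ((Φ.T i).t x u)) ⟨0, zero_mem _, by simp⟩
      (fun z ψ => by
        obtain ⟨f, hf, rfl⟩ := hy i z
        refine ⟨_, mul_mem (k2 f hf) (ih ((Φ.T i).coef ψ x X) (fun l hl => ?_) fun l => ?_),
          fun u => by simp [TF.e_r, TF.coef]⟩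
        · rcases eq_or_ne l i with rfl | e
          · exact TF.cm_coef _ _ _ _
          · exact fun a => (Φ.cm_e e.symm a).coef_comm (h l (by simp [e, hl]) a) _ _
        · rcases eq_or_ne l i with rfl | e
          · exact TF.cm_coef _ _ _ _ _
          · exact (Φ.cm_e e.symm _).coef_comm (h' l) _ _)
      (fun a b ⟨Z, h1, h2⟩ ⟨Z', h3, h4⟩ => ⟨Z + Z', add_mem h1 h3, by simp [h2, h4]⟩) 1
    rwa [(Φ.T i).ext' (f := X) (g := Z) fun z u => ?_]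
    obtain ⟨f, hf, rfl⟩ := hy i z
    have e1 := LinearMap.congr_fun (k1 X (h' i) f hf) ((Φ.T i).t x u)
    have e2 := LinearMap.congr_fun (k1 Z (h1 _ (by
      rintro _ ⟨l, rfl⟩
      rcases eq_or_ne l i with rfl | e
      exacts [rfl, (Φ.cm_e e _ _).symm])).symm f hf) ((Φ.T i).t x u)
    simp only [End.mul_apply, TF.e_t, ← h2, map_one, End.one_apply] at e1 e2
    exact e1.trans e2.symm

variable [Finite F] [Nontrivial W]

namespace OU

variable (γ : OU q)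
include γ

theorem exists_cw {z : V} (hz : z ≠ 0) : ∃ s, cw T q s z ≠ 0 := by
  by_contra! h
  obtain ⟨u, e⟩ := T.mem_P1.1 (γ.mem_P (w := 0) fun s _ => h s)
  exact hz (by simp [← e])

theorem sub_of_le (hg : g ∈ WG Φ) (hv : v ≠ 0) {N : Submodule F U} {y : U} (hy : y ∉ N)
    (h : ∀ u, g ((Φ.T l).t v u) ∈ (Φ.T j).P N) : Sub (g • Φ.T l) (Φ.T j) := by
  obtain ⟨s, hs⟩ := hg
  by_contra h1
  obtain ⟨u, hu⟩ := exists_ne (0 : W)
  obtain ⟨x, hx⟩ := γ.exists_cw (T := Φ.T j) ((g • Φ.T l).t_ne_zero hv hu)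
  obtain ⟨u', e⟩ := (g • Φ.T l).mem_P1.1 (((hs l).cm (Φ.cm_e (j := j) (fun e => h1 (e ▸ hs l))
    (r q y x))).map_P ((g • Φ.T l).t_mem_P1 v u))
  exact hy ((Φ.T j).mem_of_t_mem hx (by rw [← e_r, ← e]; exact h u'))

theorem sub_of_line (hg : g ∈ WG Φ) (hv : v ≠ 0)
    (h : ∀ u, g ((Φ.T l).t v u) ∈ (Φ.T j).P (F ∙ x)) : Sub (g • Φ.T l) (Φ.T j) :=
  let ⟨_, hy⟩ := exists_notMem (N := F ∙ x) (by
    have := finrank_span_le (F := F) x; have := γ.three; omega)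
  γ.sub_of_le hg hv hy h

theorem kr_of_fix [FiniteDimensional F W] (hg : g ∈ WG Φ) (hv : v ≠ 0)
    (h : ∀ u, g ((Φ.T l).t v u) = (Φ.T l).t v u) : ∃ d, g = (Φ.T l).kr d 1 := by
  have := γ.nontrivial
  obtain ⟨a, β, rfl⟩ := (γ.sub_of_line hg hv fun u => h u ▸ TF.t_mem_P1 _ _ _).exists_kr
  obtain ⟨ψ, hψ⟩ := exists_dual_one (F := F) hv
  have k : ∀ u, ψ (a v) • β u = u := fun u => by simpa [hψ] using congrArg ((Φ.T l).c ψ) (h u)
  obtain ⟨u, hu⟩ := exists_ne (0 : W)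
  exact exists_kr_one (c := (ψ (a v))⁻¹) fun x =>
    (eq_inv_smul_iff₀ (left_ne_zero_of_smul ((k u).symm ▸ hu))).2 (k x)

theorem map_P_of_ae (h0 : w ≠ 0) (hw : q w = 0) {a} (ha : a ∈ Aw T hw) (h1 : a ≠ 1)
    (e : g * a = a * g) (u : W) : g (T.t w u) ∈ T.P (F ∙ w) := by
  obtain ⟨s, hs, rfl⟩ := ha
  obtain ⟨f, hf⟩ := γ.hyp h0 hw
  have h2 : -polar q s s ≠ 0 := by
    rw [polar_self', neg_ne_zero]
    refine mul_ne_zero γ.two fun e => h1 ?_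
    obtain ⟨c, rfl⟩ := Submodule.mem_span_singleton.1 (γ.w1 w s h0 hw e hs)
    rw [ae, eich_self_smul hw]; simp
  have := LinearMap.congr_fun (((show Commute g.toLinearMap (ae T q w s).toLinearMap from
    congrArg LinearEquiv.toLinearMap e).sub_right (Commute.one_right _)).pow_right 2).eq (T.t f u)
  simp only [ae_sq hw hs, End.mul_apply, LinearMap.smul_apply, map_smul, e_r, cw_t, hf.polar_eq,
    one_smul, LinearEquiv.coe_coe] at this
  exact smul_right_injective V h2 this ▸ T.t_mem_P1 _ _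

theorem ae_ne (h0 : w ≠ 0) (hw : q w = 0) (hs : polar q w s = 0) (h : s ∉ F ∙ w) :
    ae T q w s ≠ 1 := fun e => by
  simpa [e, ← End.one_eq_id, polar_self', γ.two, map_eq_zero_iff _ (e_inj _), γ.r_ne h0 h0,
    mt (γ.w1 w s h0 hw · hs) h] using ae_sq (T := T) hw hs

theorem not_cyclic (p : ℕ) [Fact p.Prime] [CharP F p] (h0 : w ≠ 0) (hw : q w = 0) :
    ¬ IsCyclic (Aw T hw) := fun hc => by
  obtain ⟨f, hf⟩ := γ.hyp h0 hw
  have := finite_of_finite F (M := U)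
  have : Finite (Aw T hw) := Finite.of_surjective (fun s : {s // polar q w s = 0} =>
    (⟨_, s.1, s.2, rfl⟩ : Aw T hw)) fun ⟨_, s, hs, e⟩ => ⟨⟨s, hs⟩, Subtype.ext e.symm⟩
  have h4 := (Nat.card_le_card_of_injective (fun s : hperp q w f =>
    (⟨_, s, (mem_hperp.1 s.2).1, rfl⟩ : Aw T hw)) fun s s' e => by_contra fun h =>
      γ.ae_ne (T := T) h0 hw (mem_hperp.1 (s + -s').2).1 (fun e' => h (by
        obtain ⟨c, e'⟩ := Submodule.mem_span_singleton.1 e'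
        have := (mem_hperp.1 (s + -s').2).2
        rw [← e', polar_smul_right', hf.polar_eq', mul_one] at this
        exact add_neg_eq_zero.1 (Subtype.ext (by simp [← e', this, -Submodule.coe_add])))) (by
          rw [Submodule.coe_add, ae_add hw (mem_hperp.1 s.2).1 (mem_hperp.1 (-s').2).1,
            Submodule.coe_neg, ae_neg hw (mem_hperp.1 s'.2).1]
          exact mul_inv_eq_one.2 (congrArg Subtype.val e))).trans (Nat.le_of_dvd
    (Fact.out : p.Prime).pos (IsCyclic.exponent_eq_card (α := Aw T hw) ▸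
      Monoid.exponent_dvd_of_forall_pow_eq_one
        fun ⟨_, s, hs, e⟩ => Subtype.ext (e ▸ ae_pow p hw hs)))
  have := Fintype.ofFinite F
  obtain ⟨n, hp, hn⟩ := FiniteField.card F p
  have h5 := hf.finrank_hperp γ.nd
  rw [natCard_eq_pow_finrank (K := F), show finrank F (hperp q w f) = 2 by have := γ.four; omega,
    Nat.card_eq_fintype_card, hn] at h4
  have := Nat.le_self_pow n.ne_zero p
  have := hp.two_le
  nlinarith

theorem kr_notMem (h : Zt b) : T.kr b.1 1 ∉ CG T := fun e =>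
  let ⟨c, hc⟩ := scalar_of_kr e
  γ.zt_ne h c hc

theorem dv_notMem (hv : q v ≠ 0) : dv T q v ∉ CG T := fun h =>
  let ⟨c, hc⟩ := scalar_of_kr h
  γ.nr_ne hv c hc

theorem tor_contra (hn : Rp F n) {y : ι → O q} (h1 : ∀ l, y l ^ n = 1) (h2 : ∀ l, y l ≠ 1)
    (h : ∀ l, (Φ.T l).kr (y l).1 1 ∈ CG T) : False := by
  have := γ.nontrivial
  obtain ⟨x, hx⟩ := exists_ne (0 : U)
  have k : ∀ a l, T.e a * (Φ.T l).e (y l).1.toLinearMap = (Φ.T l).e (y l).1.toLinearMap * T.e a :=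
    fun a l => (Φ.T l).kr_coe _ ▸ (h l a).symm
  exact not_comm_self (T := T) (γ.four ▸ by decide) fun a c => LinearMap.congr_fun
    (comm_of_tor (Φ := Φ) (fun i => hn.cyc γ.four (LinearMap.ext fun x => by
      simpa [LinearEquiv.pow_apply, End.pow_apply] using congrArg (·.1 x) (h1 i)) (fun e =>
        h2 i (O.ext (LinearMap.congr_fun e))) hx) Finset.univ _ (by simp) (k c) _
          (by rintro _ ⟨l, rfl⟩; exact (k a l).symm))

end OU

namespace Sl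

variable (σ : Sl q Q M T)
include σ

theorem mem_O {a} (h : T.kr a 1 ∈ M) : a ∈ O q :=
  let ⟨_, _, h2, h3⟩ := σ.sim (σ.le h)
  mem_O_of_UG σ.γ.two fun x y => by simpa [h3 rfl] using (h2 x y).symm

theorem conj_eich (σ' : Sl q Q M T') (hg : g ∈ M) (h : Sub (g • T) T') (hb : b ∈ eichGroup q) :
    ∃ c ∈ eichGroup q, g * T.kr b.1 1 * g⁻¹ = T'.kr c.1 1 := by
  obtain ⟨p, hp⟩ := CharP.exists F
  have := Fact.mk (CharP.char_is_prime F p)
  obtain ⟨_, ⟨c, h1, rfl⟩, e⟩ := eich_ind (K := (Nq q).map T'.krHom) ((g • T).krHom.comp (O q).subtype)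
    (fun w s hw hs => by
      obtain ⟨c, e⟩ := h.conj_kr (eich q w s).1
      rw [← T.smul_kr, ← ae] at e
      obtain ⟨c, hc, rfl⟩ := σ'.exists_eich (e ▸ σ.le ((σ.smul hg).ae_mem w s)) (odd_char σ.γ p)
        (e ▸ ae_pow p hw hs)
      exact ⟨_, mem_Nq hc, e.symm⟩) hb
  exact ⟨c, h1, (T.smul_kr g _ _).symm.trans e.symm⟩

variable [FiniteDimensional F W]

theorem cm_of_ord (h : Zt b) (hn : n.Coprime (Nat.card F - 1))
    (H : ∀ d : O q, d ^ n = 1 → d * b = b * d → d = 1) (hk : k ∈ M) (hs : Sub (k • T) T)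
    (h1 : k ^ n = 1) (e : k * T.kr b.1 1 = T.kr b.1 1 * k) : k ∈ CG T := by
  have := σ.γ.nontrivial
  have := Fintype.ofFinite F
  obtain ⟨a, β, rfl⟩ := hs.exists_kr
  obtain ⟨l, h0, h2, -⟩ := σ.sim (σ.le hk)
  obtain ⟨c, hc⟩ := scalar_of_kr (kr_pow (T := T) a β n ▸ h1 ▸ one_mem (CG T))
  have h3 : ∀ (m : ℕ) x y, polar q x y = l ^ m * polar q ((a ^ m) x) ((a ^ m) y) := fun m x y => by
    induction m with
    | zero => simp
    | succ m ih => rw [ih, h2, pow_succ' a, pow_succ, mul_assoc]; rfl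
  have h4 : ∀ (m : ℕ) x, ((a ^ n) ^ m) x = c ^ m • x := fun m x => by
    induction m with
    | zero => simp
    | succ m ih => rw [pow_succ', LinearEquiv.mul_apply, ih, hc, pow_succ', mul_smul]
  have h5 : c ≠ 0 := by
    rintro rfl
    obtain ⟨x, hx⟩ := exists_ne (0 : U)
    exact hx ((a ^ n).injective (by simp [hc]))
  have h6 := congrArg Subtype.val (H ⟨a ^ (Fintype.card F - 1), mem_O_of_UG σ.γ.two fun x y => by
      simpa [FiniteField.pow_card_sub_one_eq_one l h0] using (h3 (Fintype.card F - 1) x y).symm⟩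
    (O.ext fun x => by
      simpa [← pow_mul, mul_comm n, FiniteField.pow_card_sub_one_eq_one c h5] using
        h4 (Fintype.card F - 1) x)
    (Subtype.ext ((show Commute a b.1 from comm_of_kr e).pow_left _).eq))
  refine Subgroup.zpowers_le.2 (show T.kr a β ^ (Fintype.card F - 1) ∈ CG T from ?_)
    (mem_zpowers_pow_iff.2 (Nat.Coprime.coprime_dvd_right (orderOf_dvd_of_pow_eq_one h1)
      (Nat.card_eq_fintype_card (α := F) ▸ hn).symm))
  rw [kr_pow]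
  exact kr_mem_CG (c := 1) (by simp [show a ^ _ = 1 from h6]) _

theorem inv_slot (hg : g ∈ M) (h : g * g = 1) (hs : Sub (g • T) T) :
    (∃ b : O q, ∃ β, b * b = 1 ∧ β * β = 1 ∧ g = T.kr b.1 β) ∨ ∃ a β, ∃ c : F, ¬ IsSquare c ∧
      (∀ x, a (a x) = c • x) ∧ (∀ x y, polar q (a x) y = polar q x (a y)) ∧ g = T.kr a β := by
  have := σ.γ.nontrivial
  obtain ⟨a, β, rfl⟩ := hs.exists_kr
  obtain ⟨l, -, h1, -⟩ := σ.sim (σ.le hg)
  obtain ⟨c, hc⟩ := scalar_of_kr (T.kr_mul a β a β ▸ h ▸ one_mem (CG T))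
  refine (σ.γ.inv4 h1 hc).imp (fun ⟨b, μ, hb, e⟩ => ?_) fun ⟨h2, h3⟩ => ⟨a, β, c, h2, hc, h3, rfl⟩
  obtain ⟨v, hv⟩ := exists_ne (0 : U)
  have h0 : μ ≠ 0 := by
    rintro rfl
    exact hv (a.injective (by simp [e]))
  have e' : T.kr a β = T.kr b.1 (β.trans (LinearEquiv.smulOfNeZero F W μ h0)) :=
    T.eq_of_t fun x u => by simp [e]
  refine ⟨b, _, hb, LinearEquiv.ext fun u => T.t_inj hv ?_, e'⟩
  simpa [e', sq_apply hb] using LinearEquiv.congr_fun h (T.t v u)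

end Sl

end

variable {F W V : Type u} {U : Type*} [Field F] [AddCommGroup U] [Module F U] [AddCommGroup W]
  [Module F W] [AddCommGroup V] [Module F V] {q : QuadraticForm F U} {Q : QuadraticForm F V}
  {M : Subgroup (V ≃ₗ[F] V)} {ι : Type} [DecidableEq ι] [Fintype ι] {Φ : Fam ι F U W V}
  [Finite F] [FiniteDimensional F U] [FiniteDimensional F W] [FiniteDimensional F V] [Nontrivial W]
  {g k : V ≃ₗ[F] V} {i j l m : ι} {v x w : U} {b : O q}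

namespace St

variable (μ : St q Q M Φ)
include μ

theorem so (i : ι) (h : dickson μ.γ.nd b = 1) : (Φ.T i).kr b.1 1 ∈ M :=
  (Subgroup.closure_le (M.comap ((Φ.T i).krHom.comp (O q).subtype))).2 (by
    rintro _ ⟨x, y, hx, hy, rfl⟩
    change (Φ.T i).kr ((refl q x).1 * (refl q y).1) 1 ∈ M
    rw [kr_mul']
    exact μ.rr i i x y hx hy)
      ((ker_dickson_eq_closure μ.γ.nd (not_exc_of_two_ne_zero μ.γ.two)).le h)

theorem neg_mem (i : ι) : LinearEquiv.neg F ∈ M ∧ LinearEquiv.neg F ∈ WG Φ :=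
  kr_neg (q := q) (Φ.T i) ▸ ⟨μ.so i μ.γ.dickson_neg', kr_mem_WG i _⟩

theorem cen_one (h0 : w ≠ 0) (hw : q w = 0) {a} (ha : a ∈ Aw (Φ.T j) hw) (h1 : a ≠ 1) (hg : g ∈ M)
    (e : g * a = a * g) : g ∈ WG Φ :=
  μ.loc h0 hw h0 hw hg (μ.γ.map_P_of_ae h0 hw ha h1 e)

theorem pfus (p : ℕ) [Fact p.Prime] [CharP F p] {d d'} (hd : (Φ.T j).kr d 1 ∈ M)
    (h1 : (Φ.T j).kr d 1 ≠ 1) (h2 : (Φ.T j).kr d 1 ^ p = 1) (hg : g ∈ M)
    (e : g * (Φ.T j).kr d 1 * g⁻¹ = (Φ.T m).kr d' 1) : g ∈ WG Φ := by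
  have := μ.γ.nontrivial
  obtain ⟨n, x, h3, h4⟩ := exists_top (sub_one_pow p (a := d) (kr_inj (T := Φ.T j) (by
    simpa [kr_pow] using h2))) fun e =>
      h1 (by rw [show d = 1 from LinearEquiv.toLinearMap_injective (sub_eq_zero.1 e), TF.kr_one])
  have k : ∀ n y u, g ((Φ.T j).t (((d.toLinearMap - 1) ^ n) y) u) =
      (Φ.T m).e ((d'.toLinearMap - 1) ^ n) (g ((Φ.T j).t y u)) := fun n y u => by
    induction n with
    | zero => simp
    | succ n ih =>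
      have := LinearEquiv.congr_fun e (g ((Φ.T j).t (((d.toLinearMap - 1) ^ n) y) u))
      rw [pow_succ', pow_succ', map_mul, End.mul_apply, End.mul_apply, ← ih]
      simp [← TF.kr_one_apply, ← this]
  have h5 : (d'.toLinearMap - 1) ^ (n + 2) = 0 := e_inj (Φ.T m) ((g • Φ.T j).ext' fun y u => by
    rw [TF.smul_t, ← k, h3]; simp)
  obtain ⟨x', h6⟩ : ∃ x', ((d'.toLinearMap - 1) ^ (n + 1)) x' ≠ 0 := by
    by_contra! h6
    obtain ⟨u, hu⟩ := exists_ne (0 : W)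
    exact (g • Φ.T j).t_ne_zero h4 hu (by
      rw [TF.smul_t, k, LinearMap.ext (g := 0) h6]; simp)
  have h7 := μ.γ.top (d := ⟨d', (μ.sl m).mem_O (e ▸ mul_mem (mul_mem hg hd) (inv_mem hg))⟩) h5 h6
  exact μ.loc h6 h7.1 h4 (μ.γ.top (d := ⟨d, (μ.sl j).mem_O hd⟩) h3 h4).1 hg fun u =>
    k _ _ _ ▸ TF.P_mono _ (by rintro _ ⟨y, rfl⟩; exact h7.2 y) (TF.e_mem_P _ _ _)

theorem act (hl : l ≠ j) (h0 : w ≠ 0) (hw : q w = 0) {X : Subgroup (V ≃ₗ[F] V)} (hX : X ≤ M)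
    (hn : ∀ a ∈ Aw (Φ.T l) hw, ∀ k ∈ X, a * k * a⁻¹ ∈ X)
    (h : ∀ k ∈ X, k ∈ WG Φ → ∃ d, k = (Φ.T j).kr d 1) : X ≤ WG Φ := by
  obtain ⟨p, hp⟩ := CharP.exists F
  have := Fact.mk (CharP.char_is_prime F p)
  have := finite_equiv (F := F) (V := V)
  refine le_of_act (aw_pgroup p hw) ⟨⟨fun a b => Subtype.ext (aw_comm hw a.2 b.2)⟩⟩
    (μ.γ.not_cyclic p h0 hw) (fun a ha => Subgroup.mem_normalizer_fintype (hn a ha))
    (fun a ha h1 g hg => μ.cen_one h0 hw ha h1 (hX hg)) (fun _ ⟨s, _, e⟩ k hk hk' => ?_)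
    fun y hy hy' h1 h2 g hg hg' => ?_
  · obtain ⟨d, rfl⟩ := h k hk hk'
    exact e ▸ (cm_kr hl d).comm_kr _
  obtain ⟨d, rfl⟩ := h y hy hy'
  obtain ⟨d', e⟩ := h _ (mul_mem (mul_mem hg hy) (inv_mem hg)) hg'
  exact μ.pfus p (hX hy) h1 h2 (hX hg) e

/-- The pointwise stabiliser of `v ⊗ W`. -/
theorem stab (hv : v ≠ 0) (hg : g ∈ M) (h : ∀ z ∈ (Φ.T j).P (F ∙ v), g z = z) : g ∈ WG Φ := by
  have := μ.γ.nontrivial
  by_cases h1 : Fintype.card ι ≤ 1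
  · exact le_WG_of_card h1 g
  obtain ⟨l, hl⟩ := Fintype.exists_ne_of_one_lt_card (not_le.1 h1) j
  obtain ⟨w, f, hf⟩ := μ.γ.exists_hyp
  refine μ.act hl hf.ne_zero hf.left (X := M ⊓ Fx (· ∈ (Φ.T j).P (F ∙ v))) inf_le_left
    (fun _ ⟨s, _, e⟩ k hk => e ▸ ⟨M.mul_mem (M.mul_mem ((μ.sl l).ae_mem _ _) hk.1)
      (M.inv_mem ((μ.sl l).ae_mem _ _)), conj_mem_Fx hk.2 fun _ => (cm_kr hl.symm _).inv.map_P⟩)
    (fun k hk hk' => μ.γ.kr_of_fix hk' hv fun u => hk.2 _ (TF.t_mem_P1 _ _ _)) ⟨hg, h⟩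

theorem loc_self (hv : q v ≠ 0) (hg : g ∈ M) (h : ∀ z ∈ (Φ.T j).P (F ∙ v), g z ∈ (Φ.T j).P (F ∙ v)) :
    g ∈ WG Φ := by
  obtain ⟨p, hp⟩ := CharP.exists F
  have := Fact.mk (CharP.char_is_prime F p)
  have := μ.γ.nontrivial
  obtain ⟨w, f, hf⟩ := μ.γ.exists_hyp
  have v0 := ne_zero_of_Q_ne_zero hv
  set C := M ⊓ TW.stab ((Φ.T j).P (F ∙ v))
  have c1 : ∀ g ∈ M, Cm (Φ.T j) g.toLinearMap → g ∈ C := fun g hg h =>
    ⟨hg, mem_stab_of_le fun _ => h.map_P⟩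
  rcases μ.dich p v0 c1 (fun g hg u => apply_mem_of_stab hg.2 (TF.t_mem_P1 _ _ _))
    (fun β ⟨g, hg, e⟩ => ⟨v, by simp [polar_self', μ.γ.two, hv], fun u u' => by
      rw [← e, ← e]; exact O.map_polar ⟨g, μ.le hg.1⟩ _ _⟩) with h1 | ⟨ρ, l, hl, h1⟩
  · have k : ∀ g ∈ C, ∀ m ≠ j, ∀ b ∈ eichGroup q, g * (Φ.T m).kr b.1 1 * g⁻¹ ∈ WG Φ :=
      fun g hg m hm b => eich_ind ((MulAut.conj g).toMonoidHom.comp
        ((Φ.T m).krHom.comp (O q).subtype)) fun x y hx hy => by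
          obtain ⟨l, hl, h2⟩ := h1 g hg m hm
          obtain ⟨b, hb, h4⟩ := h2 x y hx hy
          exact (mul_mem_cancel_left (inv_mem (kr_mem_WG l b.1))).1 (μ.stab v0 (M.mul_mem (M.inv_mem
            ((μ.sl l).su' hb)) (M.mul_mem (M.mul_mem hg.1 ((μ.sl m).ae_mem x y)) (M.inv_mem hg.1)))
              fun z hz => (LinearEquiv.symm_apply_eq _).2 (h4 z hz))
    have hg' : g ∈ C := ⟨hg, mem_stab_of_le h⟩
    exact μ.γ.mem_WG_of_rel (μ.sl j).hB μ.cp ((μ.sl j).ug hg) j j (k g hg')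
      (by simpa using k _ (C.inv_mem hg'))
  obtain ⟨x, hx, h2, -, y, hy, h5⟩ := h1 w hf.ne_zero hf.left
  have k : ∀ k ∈ C ⊓ Fx fun z => z ∈ (Φ.T j).P (F ∙ v) ∧ cw (Φ.T l) q w z = 0, k ∈ WG Φ →
      ∃ d : U ≃ₗ[F] U, k = (Φ.T j).kr d 1 ∧ d v = v := fun k hk hk' => by
    obtain ⟨a, β, rfl⟩ := (μ.γ.sub_of_line hk' v0 fun u =>
      apply_mem_of_stab hk.1.2 (TF.t_mem_P1 _ _ _)).exists_kr
    obtain ⟨u, hu⟩ := exists_ne (0 : W)
    obtain ⟨c, hc⟩ := Submodule.mem_span_singleton.1 ((Φ.T j).mem_of_t_mem (u := β u) (by simpa)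
      (by simpa using apply_mem_of_stab hk.1.2 (TF.t_mem_P1 _ v u)))
    obtain ⟨t, -, h3, -⟩ := (μ.sl j).sim (μ.le hk.1.1)
    obtain ⟨d, hd⟩ := Sim.exists_O μ.γ.two h3 (μ := c) (mul_right_cancel₀ (mul_ne_zero μ.γ.two hv) (by
      have := h3 v v
      simp only [← hc, Q_smul, polar_self'] at this
      linear_combination -this))
    have c0 : c ≠ 0 := fun e => v0 (a.injective (by simp [← hc, e]))
    have h4 : d.1 v = v := smul_right_injective U c0 ((hd v).symm.trans hc.symm)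
    have h6 : ((Φ.T j).kr d.1 1)⁻¹ * (Φ.T j).kr a β ∈ CG (Φ.T j) := by
      rw [TF.kr_inv, TF.kr_mul]
      exact kr_mem_CG (c := c) (by simp [hd]) _
    refine ⟨d, (inv_mul_eq_one.1 ((μ.sl l).eq_one_of_fix (μ.gd l) hf.ne_zero hf.left (M.mul_mem
      (M.inv_mem (ρ j _ d.2)) hk.1.1) fun z hz => fix_of_cm v0 h6 fun a ha => ?_)).symm, h4⟩
    obtain ⟨u, e⟩ := (Φ.T j).mem_P1.1 ha
    rw [LinearEquiv.mul_apply, hk.2 _ ⟨ha, (Φ.cm_e hl a).cw_eq hf.ne_zero hz⟩, ← e]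
    exact (LinearEquiv.symm_apply_eq _).2 (by simp [h4])
  have hx' : x ∈ C ⊓ Fx fun z => z ∈ (Φ.T j).P (F ∙ v) ∧ cw (Φ.T l) q w z = 0 :=
    ⟨hx, fun y hy => h2 y hy.1 hy.2⟩
  obtain ⟨d, rfl, e⟩ := k x hx' (μ.act hl hf.ne_zero hf.left (inf_le_left.trans inf_le_left)
    (fun a ha k hk => by
      obtain ⟨s, hs, e⟩ := inv_mem ha
      have := c1 _ ((μ.sl l).ae_mem w s) (cm_kr hl.symm _)
      refine ⟨C.mul_mem (C.mul_mem (inv_mem_iff.1 (e ▸ this)) hk.1) (e ▸ this),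
        conj_mem_Fx hk.2 fun y hy => ⟨e ▸ apply_mem_of_stab this.2 hy.1, ?_⟩⟩
      rw [e, ae, cw_kr, show ((eich q w s)⁻¹).1 w = w from
        (LinearEquiv.symm_apply_eq _).2 (eich_apply_self hf.left hs).symm, hy.2])
    (fun k' h h' => (k k' h h').imp fun _ h => h.1) hx')
  obtain ⟨u, rfl⟩ := (Φ.T j).mem_P1.1 hy
  simp [e] at h5

theorem mem_of_cen {S S' : (V ≃ₗ[F] V) → Prop} (hg : g ∈ M) (h : ∀ k ∈ M, S k → k ∈ WG Φ)
    (h' : ∀ k ∈ M, S' k → k ∈ WG Φ) (e : ∀ k ∈ CG (Φ.T j), S (g * k * g⁻¹))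
    (e' : ∀ k ∈ CG (Φ.T l), S' (g⁻¹ * k * g)) : g ∈ WG Φ :=
  μ.γ.mem_WG_of_rel (μ.sl j).hB μ.cp ((μ.sl j).ug hg) j l (fun m hm _ hb => h _
    (mul_mem (mul_mem hg ((μ.sl m).su' hb)) (inv_mem hg)) (e _ (cm_kr hm.symm _))) fun m hm _ hb =>
      h' _ (mul_mem (mul_mem (inv_mem hg) ((μ.sl m).su' hb)) hg) (e' _ (cm_kr hm.symm _))

theorem loc_ns (hv : q v ≠ 0) (hx : q x ≠ 0) (hg : g ∈ M)
    (h : ∀ u, g ((Φ.T j).t v u) ∈ (Φ.T l).P (F ∙ x)) : g ∈ WG Φ := by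
  have e := P1_eq_of_le (T := g • Φ.T j) (T' := Φ.T l) (ne_zero_of_Q_ne_zero hv)
    (ne_zero_of_Q_ne_zero hx) (TF.P_le _ fun y hy u => by
      obtain ⟨c, rfl⟩ := Submodule.mem_span_singleton.1 hy
      simpa using Submodule.smul_mem _ c (h u))
  refine μ.mem_of_cen (l := l) hg (fun k => μ.loc_self (j := l) hx) (fun k => μ.loc_self (j := j) hv)
    (fun k hk z hz => e ▸ Cm.map_P (conj_mem_CG hk g) (e ▸ hz)) fun k hk z hz => ?_
  exact (Φ.T j).mem_smul_P.1 (e ▸ Cm.map_P hk (e ▸ (Φ.T j).mem_smul_P.2 (by simpa using hz)))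

theorem cm_of_pow (p : ℕ) [Fact p.Prime] [CharP F p] (h : Zt b) (hk : k ∈ M) (hk' : k ∈ WG Φ)
    (h1 : k ^ p = 1) (e : k * (Φ.T j).kr b.1 1 = (Φ.T j).kr b.1 1 * k) : k ∈ CG (Φ.T j) := by
  refine (μ.sl j).cm_of_ord h ?_ (fun _ => μ.γ.eq_one_of_unip p h) hk
    (sub_of_comm hk' (μ.γ.kr_notMem h) e) h1 e
  have := Fintype.ofFinite F
  obtain ⟨n, hp, hn⟩ := FiniteField.card F p
  rw [Nat.card_eq_fintype_card, hn]
  exact (Nat.coprime_self_sub_right (Nat.one_le_pow _ _ hp.pos) |>.2 (by simp)).coprime_dvd_left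
    (dvd_pow_self p n.ne_zero)

/-- A conjugate of an involution of a factor is not a product of non-square similarities. -/
theorem not_pgl (h : Zt b) (H : ∀ k ∈ M, k * (Φ.T j).kr b.1 1 = (Φ.T j).kr b.1 1 * k → k ∈ WG Φ)
    (hg : g ∈ M) (h1 : ∀ l, ∃ a β, ∃ c : F, ¬ IsSquare c ∧ (∀ x, a (a x) = c • x) ∧
      (∀ x y, polar q (a x) y = polar q x (a y)) ∧ g * (Φ.T j).kr b.1 1 * g⁻¹ = (Φ.T l).kr a β) :
    False := by
  obtain ⟨n, hn⟩ := exists_rp μ.γ.two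
  choose a β c h1 h2 h3 h4 using h1
  choose y k1 k2 k3 using fun l => μ.γ.exists_torus (h1 l) (h2 l) (h3 l) hn
  refine μ.γ.tor_contra (Φ := Φ) (T := g • Φ.T j) hn k1 k2 fun l => ?_
  have k4 := mul_mem (mul_mem (inv_mem hg) ((μ.sl l).su' (μ.γ.mem_of_odd
    (hn.prime.odd_of_ne_two hn.odd) (k1 l)))) hg
  have k5 := conj_comm (h4 l ▸ kr_comm (k3 l) _ :)
  simpa [mul_assoc] using conj_mem_CG ((μ.sl j).cm_of_ord h hn.coprime (fun _ =>
    μ.γ.eq_one_of_rp hn h) k4 (sub_of_comm (H _ k4 k5) (μ.γ.kr_notMem h) k5) (conj_pow_one (by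
      rw [kr_pow, ← Subgroup.coe_pow, k1]; simp)) k5) g

end St

end Cfsg.Lib.TQ
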