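import Cfsg.Agent.Lib.TQ.Cd

/-!
# Tensor powers of a four-dimensional orthogonal space of minus type
-/

set_option autoImplicit false
set_option linter.unusedSectionVars false

namespace Cfsg.Lib.TQ

open Module QuadraticMap Cfsg.Lib.TW Cfsg.Lib.TMax Function Cfsg.Lib.TO
open Cfsg.Lib.Orth
open Cfsg.Lib.Unitary (UG)
open scoped commutatorElement

universe u

section

variable {F U W V : Type*} [Field F] [AddCommGroup U] [Module F U] [AddCommGroup W] [Module F W]
  [AddCommGroup V] [Module F V] {q : QuadraticForm F U} {q' : QuadraticForm F W}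
  {Q : QuadraticForm F V} {T : TF F U W V} {x y : U} {b : O q} [Finite F] [FiniteDimensional F U]
  [FiniteDimensional F W] [FiniteDimensional F V]

theorem exists_kr_refl (h2 : (2 : F) ≠ 0) (nd : ND Q) (nd' : ND q') (h4 : Even (finrank F W))
    (pol : ∀ v u v' u', polar Q (T.t v u) (T.t v' u') = polar q v v' * polar q' u u') (hx : q x ≠ 0) :
    ∃ g : O Q, g.1 = T.kr (refl q x).1 1 ∧ dickson nd g = 1 ∧ spinor nd g = spinor nd' (O.neg q') := by
  obtain ⟨b, b0, b1⟩ := exists_orth_basis nd' h2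
  have k0 : ∀ x u, Q (T.t x u) = 2 * q x * q' u := fun x u => mul_left_cancel₀ h2 (by
    rw [← polar_self', pol, polar_self', polar_self']; ring)
  have k1 : ∀ i, Q (T.t x (b i)) ≠ 0 := fun i => by simp [k0, h2, hx, b0]
  have k2 : ∀ y ∈ Finset.univ.toList.map fun i => T.t x (b i), Q y ≠ 0 := by simpa using k1
  refine ⟨_, T.eq_of_t fun y u => ?_, (dickson_list nd k2).trans (by simpa using h4.neg_one_pow),
    (spinor_list nd k2).trans ?_⟩
  · have e1 : ∀ z u, polar q x z = 0 → (((Finset.univ.toList.map fun i => T.t x (b i)).map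
        (refl Q)).prod).1 (T.t z u) = T.t z u := fun z u hz => Subgroup.list_prod_mem
          ((Fx (· = T.t z u)).comap (O Q).subtype) (by
            simp +contextual [Fx, Subgroup.mem_subgroupOf, refl_apply, pol, hz]) _ rfl
    have e2 := b.ext (f₁ := (((Finset.univ.toList.map fun i => T.t x (b i)).map
        (refl Q)).prod).1.toLinearMap ∘ₗ T.t x) (f₂ := -T.t x) fun i => by
      simpa using prod_refl_apply k1 (fun i j h => by simp [pol, b1 i j h])
        (Finset.nodup_toList .univ) i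
    have e3 := e1 (y - ((2 * q x)⁻¹ * polar q x y) • x) u (by
      simp [polar_sub_right, polar_self', h2, hx]; field_simp; ring)
    replace e2 := LinearMap.congr_fun e2 u
    simp only [map_sub, map_smul, LinearMap.sub_apply, LinearMap.smul_apply, LinearMap.comp_apply,
      LinearEquiv.coe_coe, LinearMap.neg_apply] at e2 e3
    rw [e2, sub_eq_iff_eq_add] at e3
    rw [e3, TF.kr_t, refl_apply]
    simp only [map_sub, map_smul, LinearMap.sub_apply, LinearMap.smul_apply, LinearEquiv.coe_one, id]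
    match_scalars <;> field_simp
    ring
  obtain ⟨n, hn⟩ := h4
  rw [spinor_neg nd' h2 b0 b1 (by simp), List.map_map, Finset.prod_map_toList,
    ← sqsign_sq_mul (r := (2 * q x) ^ n) (by simp [h2, hx]) (∏ i, q' (b i))]
  simp [k0, Finset.prod_mul_distrib, hn, ← pow_mul, mul_two, mul_pow]

namespace Sl

variable (σ : Sl q Q (O Q) T)
include σ

theorem kr_mem_omega (hb : b ∈ eichGroup q) : T.kr b.1 1 ∈ (commutator (O Q)).map (O Q).subtype :=
  σ.γ.perf (L := ((commutator (O Q)).map (O Q).subtype).comap (T.krHom.comp (O q).subtype))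
    (fun _ ha _ hb => ⟨_, Subgroup.commutator_mem_commutator (Subgroup.mem_top ⟨_, σ.su' ha⟩)
      (Subgroup.mem_top ⟨_, σ.su' hb⟩), (map_commutatorElement (T.krHom.comp (O q).subtype) _ _).symm⟩)
    hb

theorem pair_mem (h4 : Even (finrank F W)) (hx : q x ≠ 0) (hy : q y ≠ 0) :
    T.kr (refl q x).1 1 * T.kr (refl q y).1 1 ∈ (commutator (O Q)).map (O Q).subtype := by
  obtain ⟨Q', nd, pol⟩ := σ.exists_Q
  obtain ⟨g, e1, g1, g2⟩ := exists_kr_refl σ.γ.two σ.nd nd h4 pol hx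
  obtain ⟨g', e2, g3, g4⟩ := exists_kr_refl σ.γ.two σ.nd nd h4 pol hy
  exact ⟨g * g', (mem_commutator_iff σ.nd (not_exc_of_two_ne_zero σ.γ.two) _).2
    ⟨by simp [g1, g3], by simp [g2, g4]⟩, by simp [e1, e2]⟩

theorem spinor_neg (h4 : Even (finrank F W)) : spinor σ.nd (O.neg Q) = 1 := by
  obtain ⟨g, h, e⟩ := (Subgroup.closure_le (((commutator (O Q)).map (O Q).subtype).comap
    (T.krHom.comp (O q).subtype))).2 (by
      rintro _ ⟨x, y, hx, hy, rfl⟩
      change T.kr ((refl q x).1 * (refl q y).1) 1 ∈ (commutator (O Q)).map (O Q).subtype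
      rw [kr_mul']
      exact σ.pair_mem h4 hx hy) ((ker_dickson_eq_closure σ.γ.nd
        (not_exc_of_two_ne_zero σ.γ.two)).le σ.γ.dickson_neg')
  obtain rfl : g = O.neg Q := Subtype.ext (e.trans (kr_neg (q := q) T))
  exact ((mem_commutator_iff σ.nd (not_exc_of_two_ne_zero σ.γ.two) _).1 h).2

end Sl

end

variable {F W V : Type u} {U : Type*} [Field F] [AddCommGroup U] [Module F U] [AddCommGroup W]
  [Module F W] [AddCommGroup V] [Module F V] {q : QuadraticForm F U} {Q : QuadraticForm F V}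
  {M : Subgroup (V ≃ₗ[F] V)} {ι : Type} [DecidableEq ι] [Fintype ι] {Φ : Fam ι F U W V}
  [Finite F] [FiniteDimensional F U] [FiniteDimensional F W] [FiniteDimensional F V] [Nontrivial W]
  {i j : ι} {x y : U}

theorem dich_four (n : ℕ) : Dich q n := by
  induction n with
  | zero =>
    intro ι _ _ W V _ _ _ _ _ _ _ Q M Φ h μ _ _
    have := μ.γ.nontrivial
    exact .inl fun g _ => le_WG_of_card (by omega) g
  | succ n ih =>
    intro ι _ _ W V _ _ _ _ _ _ _ Q M Φ h μ ρ hr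
    have := μ.γ.nontrivial
    by_cases h1 : ∀ i, Gd q M (Φ.T i)
    · exact .inl (St.le_WG_of_rf ⟨μ, by simpa [h] using ih, h ▸ hr, h1, .inl ρ, fun i j x y _ _ =>
        mul_mem (ρ i _ (refl q x).2) (ρ j _ (refl q y).2)⟩ ρ)
    obtain ⟨j, hj⟩ := not_forall.1 h1
    have h2 := μ.γ.three
    rcases n with _ | n
    · exact .inl fun g _ => le_WG_of_card (by omega) g
    have : Nontrivial V := nontrivial_of_finrank_pos (R := F) (hr ▸ pow_pos (by omega) _)
    rw [(Φ.T j).finrank_eq, pow_succ', mul_right_inj' (by omega)] at hr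
    exact .inr (μ.omega_le ρ (hr ▸ h2.trans (Nat.le_self_pow n.succ_ne_zero _)) hj)

theorem Fm.refl_mem (μ : Fm q Q M Φ) {n : ℕ} (hr : finrank F W = finrank F U ^ (n + 2)) (hij : i ≠ j)
    (hx : q x ≠ 0) : (Φ.T j).kr (refl q x).1 1 ∈ (commutator (O Q)).map (O Q).subtype := by
  have γ := μ.γ
  have := γ.nontrivial
  obtain ⟨Φ', e⟩ := exists_der (Φ := Φ) j (W' := Fin (finrank F U ^ (n + 1)) → F) (by
    simp [hr, pow_succ' _ (n + 1)])
  obtain ⟨Q', nd, pol⟩ := (μ.sl j).exists_Q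
  obtain ⟨w, f, hw⟩ := γ.exists_hyp
  obtain ⟨g, e1, g1, g2⟩ := exists_kr_refl γ.two μ.nd nd (by simp [hr, γ.four, Nat.even_pow]; decide) pol hx
  exact ⟨g, (mem_commutator_iff μ.nd (not_exc_of_two_ne_zero γ.two) _).2 ⟨g1, g2.trans
    ((γ.sl_top (T := Φ'.T ⟨i, hij⟩) nd (γ.cp_of_adj fun a a' h x y => by
      simpa [e ⟨i, hij⟩, pol, hw.polar_eq] using (μ.sl i).ad_e h ((Φ.T j).t w x)
        ((Φ.T j).t f y))).spinor_neg (by simp [γ.four, Nat.even_pow]; decide))⟩, e1⟩

theorem Fm.pair_mem (μ : Fm q Q M Φ) (h4 : Even (finrank F W)) (hp : ∀ s, ∃ g ∈ O Q, Pm Φ s g) (i j : ι)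
    (hx : q x ≠ 0) (hy : q y ≠ 0) : (Φ.T i).kr (refl q x).1 1 * (Φ.T j).kr (refl q y).1 1 ∈
      (commutator (O Q)).map (O Q).subtype := by
  obtain ⟨g, hg, e⟩ := hp (Equiv.swap i j)
  have e' : g * (Φ.T i).kr (refl q y).1 1 * g⁻¹ = (Φ.T j).kr (refl q y).1 1 :=
    LinearEquiv.toLinearMap_injective (by simpa [TF.kr_coe] using e i (refl q y).1.toLinearMap)
  have := mul_mem ((μ.γ.sl_top μ.nd (μ.cp i)).pair_mem h4 hx hy) (Subgroup.mem_map_of_mem
    (O Q).subtype (Subgroup.commutator_mem_commutator (Subgroup.mem_top (⟨_, mem_O_of_UG μ.γ.two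
      ((μ.cp i).kr_mem (O_le_UG (refl q y).2))⟩ : O Q)⁻¹) (Subgroup.mem_top ⟨g, hg⟩)))
  rw [← e']
  simpa only [commutatorElement_def, Subgroup.subtype_apply, Subgroup.coe_mul, Subgroup.coe_inv, inv_inv,
    mul_assoc, mul_inv_cancel_left] using this

theorem Fm.dich (μ : Fm q Q M Φ) (hr : finrank F V = finrank F U ^ Fintype.card ι)
    (h2 : 2 ≤ Fintype.card ι) (hM : ∀ g ∈ WG Φ, g ∈ (commutator (O Q)).map (O Q).subtype → g ∈ M)
    (hp : ∀ s, ∃ g ∈ O Q, Pm Φ s g) : M ≤ WG Φ ∨ (commutator (O Q)).map (O Q).subtype ≤ M := by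
  have γ := μ.γ
  obtain ⟨i, j, hij⟩ := Fintype.exists_pair_of_one_lt_card h2
  obtain ⟨n, hn⟩ := Nat.exists_eq_add_of_le' h2
  have r1 : finrank F W = finrank F U ^ (n + 1) := Nat.eq_of_mul_eq_mul_left
    (show 0 < finrank F U by simp [γ.four]) (by rw [← (Φ.T j).finrank_eq, hr, hn]; ring)
  rcases n with _ | n
  · by_cases h1 : ∀ i, Gd q M (Φ.T i)
    · have ν : St q Q M Φ := ⟨μ, dich_four _, hr, h1, .inr hn.le, fun i j x y hx hy => hM _ (mul_mem
        (kr_mem_WG i _) (kr_mem_WG j _)) (μ.pair_mem (by simp [r1, γ.four]; decide) hp i j hx hy)⟩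
      exact .inl (ν.le_WG_two hn)
    have : Nontrivial V := nontrivial_of_finrank_pos (R := F) (by simp [hr, γ.four])
    obtain ⟨j, hj⟩ := not_forall.1 h1
    obtain ⟨i, hi⟩ := Fintype.exists_ne_of_one_lt_card h2 j
    exact .inr (μ.omega_le₂ hi (fun l => two_cases hn hi l) (by simp [r1, γ.four]) hj)
  refine dich_four _ ι W V Q M Φ rfl μ (fun j b hb => ?_) hr
  obtain ⟨i, hi⟩ := Fintype.exists_ne_of_one_lt_card h2 j
  refine refl_induction γ.nd (not_exc_of_two_ne_zero γ.two) (p := fun b => (Φ.T j).kr b.1 1 ∈ M)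
    (by simp) (fun x c hx h => ?_) ⟨b, hb⟩
  rw [Subgroup.coe_mul, kr_mul']
  exact mul_mem (hM _ (kr_mem_WG j _) (μ.refl_mem r1 hi hx)) h

open Matrix Cfsg.Geo Cfsg.Lib.Asch in
theorem isMaximalIn_pow_four {F : Type*} [Field F] [Fintype F] {κ : Type} [Fintype κ] [DecidableEq κ]
    {t : ℕ} {f₁ : (Fin 4 → F) → (Fin 4 → F) → F} {Q : QuadraticForm F (κ → F)} (hQ : ND Q)
    (h2 : (2 : F) ≠ 0) (ht : 2 ≤ t) (h₁ : IsSymmetricForm f₁)
    (hW : ¬ IsPlusTypeOn (fun v => f₁ v v) ⊤) {e : κ ≃ (Fin t → Fin 4)} {P : GL κ F}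
    (hT : IsTensorPowerFormStructure id (polar Q) f₁ e P) :
    IsMaximalIn (omegaGL Q) (tensorWreathSubgroup 4 t e P ⊓ omegaGL Q) := by
  obtain ⟨q, n1, hq⟩ := exists_quad h2 h₁ one_ne_zero
  have γ : OU q := ⟨n1, h2, by simp, fun u v hu0 hu hv huv => by_contra fun h => by
    refine hW ⟨Submodule.span F {u, v}, le_top, fun x hx => ?_, ?_⟩
    · obtain ⟨a, b, rfl⟩ := Submodule.mem_span_pair.1 hx
      have : polarBilin q (a • u + b • v) (a • u + b • v) = 0 := by
        simp [polar_sing hu, polar_sing hv, huv, polar_comm q v u]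
      rw [hq] at this
      simpa [-map_add, -map_smul] using this
    · rw [Unitary.finrank_span_pair_of_linearIndependent ((LinearIndependent.pair_iff' hu0).2
        fun a ha => h (Submodule.mem_span_singleton.2 ⟨a, ha⟩))]
      simp⟩
  have hn : 6 ≤ Fintype.card κ := by
    rw [Fintype.card_congr e, Fintype.card_pi_const, Fintype.card_fin]
    exact le_trans (by decide) (Nat.pow_le_pow_right (by decide) ht)
  refine Linear.isMaximalIn_inf ((amb_omega hQ hn).not_pow (by omega) ht (by omega) e P)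
    fun M hM hM' g hg hg' => ?_
  obtain ⟨Φ, p, -, h3, h4⟩ := exists_pv (sform_of_symmetric h₁) (B := polarBilin Q)
    (fun u v => polar_comm Q u v) (by omega) (by omega) hT
  have : Nontrivial (Fin (4 ^ (t - 1)) → F) := Module.nontrivial_of_finrank_pos (R := F) (by simp)
  have h5 : ∀ g, Φ.Wr g → g ∈ (commutator (O Q)).map (O Q).subtype →
      g ∈ M.map (Unitary.glEquiv _ F).toMonoidHom := fun g h h' => by
    obtain ⟨g, rfl⟩ := (Unitary.glEquiv _ F).surjective g
    exact ⟨g, hM ⟨h3 g h, (glEquiv_mem_omega g).1 h'⟩, rfl⟩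
  have cp : ∀ i, Cp (polarBilin q) (polarBilin Q) (Φ.T i) := fun i => γ.cp_of_adj fun a a' h x y => by
    rw [← Φ.single, ← Φ.single]
    exact p.π_adj (fun j => by
      by_cases e : j = i
      · simpa [e, ← hq, Ad] using h
      · simp [e]) x y
  refine (Fm.dich (q := q) (Q := Q) (M := M.map (Unitary.glEquiv _ F).toMonoidHom) (Φ := Φ) ⟨γ, hQ, cp, by
      rintro _ ⟨g, hg, rfl⟩
      exact Subgroup.map_subtype_le _ ((glEquiv_mem_omega g).2 (hM' hg)), ?_, fun s s' => ?_⟩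
    (by simp [Fintype.card_congr e]) (by simpa) (fun g h => h5 g (mem_WG.1 h)) fun s =>
      let ⟨_, e1, e2⟩ := h4 s; ⟨_, mem_O_of_UG γ.two (p.perm_mem e2), e1.conj_e⟩).elim
        (fun h => (hg' (h3 g (mem_WG.1 (h ⟨g, hg, rfl⟩)))).elim) fun h g hg => ?_
  · rintro i _ ⟨b, hb, rfl⟩
    exact h5 _ (Φ.wr_kr i _) ((γ.sl_top hQ (cp i)).kr_mem_omega hb)
  · obtain ⟨a, e1, e2⟩ := h4 s
    obtain ⟨b, e3, e4⟩ := h4 s'
    exact ⟨_, h5 _ (e1.comm e3).wr ⟨_, Subgroup.commutator_mem_commutator (Subgroup.mem_top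
      ⟨_, mem_O_of_UG γ.two (p.perm_mem e2)⟩) (Subgroup.mem_top
      ⟨_, mem_O_of_UG γ.two (p.perm_mem e4)⟩), rfl⟩, (e1.comm e3).conj_e⟩
  · obtain ⟨g', h6, h7⟩ := h ((glEquiv_mem_omega g).2 hg)
    rwa [← (Unitary.glEquiv _ F).injective h7]

end Cfsg.Lib.TQ
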