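import Cfsg.Agent.Lib.TQ.Loc

/-!
# Four-dimensional orthogonal tensor powers: overgroups containing the reflections
-/

set_option autoImplicit false
set_option linter.unusedSectionVars false

namespace Cfsg.Lib.TQ

open Module QuadraticMap Cfsg.Lib.TW Cfsg.Lib.TMax Function Cfsg.Lib.TO
open Cfsg.Lib.Orth
open Cfsg.Lib.Unitary (UG)
open scoped commutatorElement

universe u

section

variable {F U W V : Type*} [Field F] [AddCommGroup U] [Module F U] [AddCommGroup W] [Module F W]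
  [AddCommGroup V] [Module F V] {q : QuadraticForm F U} {Q : QuadraticForm F V}
  {T T' : TF F U W V} {M : Subgroup (V ≃ₗ[F] V)} {g k : V ≃ₗ[F] V} {v x y w s : U} {b : O q}
  {ι : Type*} [DecidableEq ι] [Fintype ι] {Φ : Fam ι F U W V} {i j l m : ι}

theorem swap_comm {G : Type*} [Group G] {u d d' : G} (hu : u * u = 1) (e : u * d * u⁻¹ = d')
    (h : d * d' = d' * d) : d * d' * u = u * (d * d') := by
  nth_rewrite 2 [h]
  rw [← e, inv_eq_of_mul_eq_one_right hu]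
  simp only [← mul_assoc, hu, one_mul]
  simp only [mul_assoc, hu, mul_one]

theorem dv_eq (T : TF F U W V) (v : U) : dv T q v = LinearEquiv.neg F * T.kr (refl q v).1 1 := by
  rw [dv, nr, Subgroup.coe_mul, kr_mul', kr_neg]

theorem perp_of_comm (h2 : (2 : F) ≠ 0) (hv : q v ≠ 0) (hx : q x ≠ 0)
    (h : nr q v * nr q x = nr q x * nr q v) (h1 : nr q v ≠ nr q x) : polar q v x = 0 := by
  obtain ⟨c, hc⟩ := Submodule.mem_span_singleton.1 (mem_of_nr h2 (v := x) (x := (nr q v).1 x) (by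
    rw [← O.mul_apply, ← h, O.mul_apply, nr_self hx]))
  by_contra h3
  rw [nr_apply, eq_sub_iff_add_eq, eq_comm, ← eq_inv_smul_iff₀ (by simp [hv, h3]),
    show c • x + x = (c + 1) • x by module, smul_smul] at hc
  refine h1 ?_
  generalize _ * (c + 1) = d at hc
  rw [hc, nr, nr, refl_smul (by rintro rfl; simp [hc] at hv)]

variable [Finite F] [FiniteDimensional F U] [Nontrivial W]

namespace OU

variable (γ : OU q)
include γ

theorem dv_ne (hv : q v ≠ 0) : dv T q v ≠ 1 := fun e => γ.dv_notMem hv (e ▸ one_mem (CG T))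

theorem mul_notMem (hv : q v ≠ 0) (hk : k ∈ CG T) : dv T q v * k ∉ CG T :=
  fun e => γ.dv_notMem hv ((mul_mem_cancel_right hk).1 e)

theorem pair_unique (hv : q v ≠ 0) (hij : i ≠ j) (hlm : l ≠ m)
    (e : dv (Φ.T i) q v * dv (Φ.T j) q x = dv (Φ.T l) q y * dv (Φ.T m) q w) :
    dv (Φ.T i) q v = dv (Φ.T l) q y ∨ dv (Φ.T i) q v = dv (Φ.T m) q w := by
  have k : ∀ {l m y w}, l ≠ m → i ≠ m → dv (Φ.T i) q v * dv (Φ.T j) q x =
      dv (Φ.T l) q y * dv (Φ.T m) q w → dv (Φ.T i) q v = dv (Φ.T l) q y := fun {l m y w} hlm h e => by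
    obtain rfl : i = l := by_contra fun h' =>
      γ.mul_notMem hv (dv_mem_CG hij x) (e ▸ mul_mem (dv_mem_CG h' _) (dv_mem_CG h _))
    obtain ⟨c, hc⟩ := scalar_of_kr (T := Φ.T i) (a := (nr q y * nr q v).1) (b := 1) (by
      rw [← dv_mul rfl, ← mul_mem_cancel_right (dv_mem_CG hij x), mul_assoc, e, ← mul_assoc,
        dv_mul_self, one_mul]
      exact dv_mem_CG h _)
    rw [dv, dv, γ.nr_eq (c := c) (x := y) fun z => by
      rw [← map_smul, ← hc, ← LinearEquiv.mul_apply, ← Subgroup.coe_mul, ← mul_assoc, nr_mul_self,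
        one_mul]]
  by_cases h : i = m
  · exact .inr (k hlm.symm (h ▸ hlm.symm) (e.trans ((dv_mem_CG hlm w).comm_kr _).symm))
  · exact .inl (k hlm h e)

variable [FiniteDimensional F W]

theorem eq_one_of_conj (hv : q v ≠ 0) (hx : q x ≠ 0) {β} (hβ : β * β = 1)
    (e : dv T' q x = T.kr (nr q v).1 β) : β = 1 := by
  by_contra h
  obtain ⟨u₀, hu⟩ : ∃ u, β u ≠ u := by simpa using mt LinearEquiv.ext h
  obtain ⟨y, h1, h2⟩ := γ.exists_perp hv 1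
  obtain ⟨z, h5, h6, h4⟩ := γ.exists_perp₂ hv (by simp [h2]) h1 1
  have hb : ∀ u, β (β u) = u := fun u => LinearEquiv.congr_fun hβ u
  have := T'.φ.finiteDimensional
  let φ : W × F →ₗ[F] V := (T.t v ∘ₗ (1 + β.toLinearMap) + T.t y ∘ₗ (1 - β.toLinearMap)).coprod
    (LinearMap.toSpanSingleton F V (T.t z (u₀ - β u₀)))
  have k : ∀ a, φ a ∈ T'.P (F ∙ x) := fun a => (dv_fix γ.two hx).1 (by
    simp [e, φ, nr_self hv, nr_perp h1, nr_perp h5, hb]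
    module)
  have := LinearMap.finrank_le_finrank_of_injective (f := φ.codRestrict _ k)
    ((injective_iff_map_eq_zero _).2 fun ⟨a, c⟩ e => by
      replace e := congrArg Subtype.val e
      have e1 := congrArg (cw T q v) e
      have e2 := congrArg (cw T q y) e
      have e3 := congrArg (cw T q z) e
      simp only [φ, LinearMap.codRestrict_apply, LinearMap.coprod_apply, LinearMap.add_apply,
        LinearMap.comp_apply, LinearMap.toSpanSingleton_apply, map_add (cw T q _), map_smul, cw_t,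
        h1, h5, h6, polar_comm q y v, polar_comm q z v, polar_comm q z y, zero_smul, smul_zero,
        add_zero, zero_add, Submodule.coe_zero, map_zero, polar_self', smul_eq_zero, mul_eq_zero,
        γ.two, hv, h2, h4, one_ne_zero, or_false, false_or, sub_eq_zero, hu.symm,
        LinearMap.sub_apply, End.one_apply, LinearEquiv.coe_coe] at e1 e2 e3
      rw [← e2, ← two_smul F, smul_eq_zero_iff_right γ.two] at e1
      simp [e1, e3])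
  rw [TF.finrank_P1 _ (by rintro rfl; simp at hx)] at this
  simp at this

theorem exists_comm_dv (h : b * b = 1) (β) :
    ∃ y, q y ≠ 0 ∧ dv T q y * T.kr b.1 β = T.kr b.1 β * dv T q y :=
  let ⟨y, h1, h2⟩ := γ.exists_eigen h
  ⟨y, h1, kr_comm (congrArg Subtype.val (show b * nr q y = nr q y * b by
    rw [nr, ← mul_assoc, neg_comm, mul_assoc, ← h2, mul_assoc])) β⟩

theorem odd_sq {a : U ≃ₗ[F] U} {l c : F} {n : ℕ} (h : Sim q a l) (hc : ∀ x, (a ^ (2 * n + 1)) x = c • x) :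
    IsSquare l := by
  have h4 : ∀ (m : ℕ) x y, polar q x y = l ^ m * polar q ((a ^ m) x) ((a ^ m) y) := fun m x y => by
    induction m with
    | zero => simp
    | succ m ih => rw [ih, h, pow_succ' a, pow_succ, mul_assoc]; rfl
  obtain ⟨w, f, hf⟩ := γ.exists_hyp
  have := h4 (2 * n + 1) w f
  simp only [hc, polar_smul_left', polar_smul_right', hf.polar_eq] at this
  exact ⟨l ^ (n + 1) * c, by linear_combination l * this⟩

end OU

theorem Sl.inv_tr [FiniteDimensional F W] (σ : Sl q Q M T) (hg : g ∈ M) (h : g * g = 1)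
    (hs : Sub (g • T) T) (h0 : LinearMap.trace F V g.toLinearMap ≠ 0) :
    g ∈ CG T ∨ ∃ v β, q v ≠ 0 ∧ β * β = 1 ∧ g = T.kr (nr q v).1 β := by
  rcases σ.inv_slot hg h hs with ⟨b, β, h1, h2, rfl⟩ | ⟨a, β, c, h1, h2, -, rfl⟩
  · rcases σ.γ.inv_cases h1 with ⟨c, hc⟩ | ⟨v, hv, rfl | rfl⟩ | h3
    · exact .inl (kr_mem_CG hc β)
    · exact .inr ⟨v, β, hv, h2, rfl⟩
    · exact .inr ⟨v, LinearEquiv.neg F * β, hv, LinearEquiv.ext fun u => by
        simpa using LinearEquiv.congr_fun h2 u, T.eq_of_t fun _ _ => by simp⟩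
    · simp [trace_kr, σ.γ.zt_trace h3] at h0
  · simp [trace_kr, trace_of_nonsq σ.γ.two h1 h2] at h0

end

variable {F W V : Type u} {U : Type*} [Field F] [AddCommGroup U] [Module F U] [AddCommGroup W]
  [Module F W] [AddCommGroup V] [Module F V] {q : QuadraticForm F U} {Q : QuadraticForm F V}
  {M : Subgroup (V ≃ₗ[F] V)} {ι : Type} [DecidableEq ι] [Fintype ι] {Φ : Fam ι F U W V}
  [Finite F] [FiniteDimensional F U] [FiniteDimensional F W] [FiniteDimensional F V] [Nontrivial W]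
  {g k : V ≃ₗ[F] V} {i j l m : ι} {v x y w : U} {b : O q}

namespace St

variable (μ : St q Q M Φ)
include μ

theorem trace_dv (T : TF F U W V) (hv : q v ≠ 0) :
    LinearMap.trace F V (dv T q v).toLinearMap ≠ 0 := by
  have := congrArg (Nat.cast (R := F)) (T.finrank_eq.symm.trans μ.rk)
  have h4 : (4 : F) ≠ 0 := by convert mul_ne_zero μ.γ.two μ.γ.two using 1; norm_num
  rw [dv, trace_kr, μ.γ.trace_nr hv]
  refine mul_ne_zero (neg_ne_zero.2 μ.γ.two) fun e => pow_ne_zero (Fintype.card ι) h4 ?_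
  simpa [μ.γ.four, show (finrank F W : F) = 0 by simpa [← End.one_eq_id] using e] using this.symm

theorem trace_pair (hv : q v ≠ 0) (hx : q x ≠ 0) (hij : i ≠ j) :
    LinearMap.trace F V (dv (Φ.T i) q v * dv (Φ.T j) q x).toLinearMap ≠ 0 := by
  have := μ.γ.nontrivial
  have h := μ.trace_dv (Φ.T j) hx
  obtain ⟨β, e⟩ := exists_kr_of_cm (dv_mem_CG (Φ := Φ) (q := q) hij x)
  rw [e, trace_kr] at h
  rw [e, dv, TF.kr_mul, trace_kr, mul_one, one_mul, μ.γ.trace_nr hv]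
  exact mul_ne_zero (neg_ne_zero.2 μ.γ.two) (right_ne_zero_of_mul h)

theorem loc3 (hv : q v ≠ 0) (hx : q x ≠ 0) (hg : g ∈ M)
    (h : g * dv (Φ.T j) q v * g⁻¹ = dv (Φ.T l) q x) : g ∈ WG Φ :=
  μ.loc_ns (j := j) hv hx hg fun u => (dv_fix μ.γ.two hx).1 (by rw [← h]; simp [dv_t, nr_self hv])

variable (ρ : Rf q M Φ)
include ρ

omit μ in
theorem dv_mem (j : ι) (v : U) : dv (Φ.T j) q v ∈ M := ρ j _ (nr q v).2

theorem exists_dv (hv : q v ≠ 0) (hg : g ∈ M) (h : g * dv (Φ.T j) q v * g⁻¹ ∈ WG Φ) :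
    ∃ l y, q y ≠ 0 ∧ g * dv (Φ.T j) q v * g⁻¹ = dv (Φ.T l) q y := by
  have h1 := mul_mem (mul_mem hg (dv_mem ρ j v)) (inv_mem hg)
  rw [← smul_dv] at *
  have k : dv (g • Φ.T j) q v ∈ BG Φ := by
    rw [dv_eq] at h ⊢
    obtain ⟨s, hs⟩ := (mul_mem_cancel_left (μ.neg_mem j).2).1 h
    refine mul_mem (fun m => kr_neg (q := q) (Φ.T j) ▸ sub_kr' j m _) fun m => by_contra fun e =>
      not_comm_of_four (T := Φ.T m) μ.γ.four.ge (b := (g • Φ.T j).kr (refl q v).1 1)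
        (l := cw (g • Φ.T j) q v) (fun x hx => ?_) fun a c x => ?_
    · simp [TF.kr_one_apply, refl_coe, e_r, hx]
    obtain ⟨c', e'⟩ := hs m c
    exact e' ▸ Φ.comm (fun e' => e (by simpa [← e'] using hs m)) a c' x
  by_contra h
  obtain ⟨c, hc⟩ := Φ.cen _ fun m => ((μ.sl m).inv_tr h1 (dv_mul_self v) (k m)
    (μ.trace_dv _ hv)).resolve_right fun ⟨y, β, h2, h4, e⟩ => h ⟨m, y, h2, by
      rw [e, μ.γ.eq_one_of_conj h2 hv h4 e, dv]⟩
  exact μ.γ.dv_notMem hv (show Cm (g • Φ.T j) _ from hc ▸ cm_one.smul c)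

theorem fus (hv : q v ≠ 0) (hg : g ∈ M) (h : g * dv (Φ.T j) q v * g⁻¹ ∈ WG Φ) : g ∈ WG Φ :=
  let ⟨_, _, h1, h2⟩ := μ.exists_dv ρ hv hg h
  μ.loc3 hv h1 hg h2

theorem conj_dv (hv : q v ≠ 0) (hg : g ∈ M) (hg' : g ∈ WG Φ) (h : Sub (g • Φ.T j) (Φ.T l)) :
    ∃ y, q y ≠ 0 ∧ g * dv (Φ.T j) q v * g⁻¹ = dv (Φ.T l) q y :=
  let ⟨_, y, h1, h2⟩ := μ.exists_dv ρ hv hg (mul_mem (mul_mem hg' (kr_mem_WG j _)) (inv_mem hg'))
  ⟨y, h1, sub_unique μ.two h (sub_of_conj hg' (h2 ▸ μ.γ.dv_notMem h1)) ▸ h2⟩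

theorem of_comm_dv {z} (H : ∀ k ∈ M, k * z = z * k → k ∈ WG Φ) (hy : q y ≠ 0) (hg : g ∈ M)
    (h : dv (Φ.T m) q y * (g * z * g⁻¹) = g * z * g⁻¹ * dv (Φ.T m) q y) : g ∈ WG Φ :=
  inv_mem_iff.1 (μ.fus ρ hy (inv_mem hg) (by
    simpa using H _ (mul_mem (mul_mem (inv_mem hg) (dv_mem ρ m y)) hg) (conj_comm h)))

theorem cdz (h : Zt b) (hg : g ∈ M) (e : g * (Φ.T j).kr b.1 1 = (Φ.T j).kr b.1 1 * g) :
    g ∈ WG Φ := by
  obtain ⟨x, h1, h2⟩ := μ.γ.exists_ns h.sq h.ne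
  obtain ⟨y, h3, h4⟩ := μ.γ.exists_ns (μ.γ.zt_neg h).sq (μ.γ.zt_neg h).ne
  refine μ.fus ρ (j := j) h1 hg ?_
  rw [dv_eq, ← mul_assoc, neg_central, mul_assoc, mul_assoc, ← mul_assoc g]
  refine mul_mem (μ.neg_mem j).2 (μ.stab (j := j) (ne_zero_of_Q_ne_zero h3) (mul_mem (mul_mem hg
    (ρ j _ (refl q x).2)) (inv_mem hg)) fun z hz => ?_)
  obtain ⟨u, rfl⟩ := (Φ.T j).mem_P1.1 hz
  obtain ⟨z, e'⟩ := g.surjective ((Φ.T j).t y u)
  have h5 : z ∈ (Φ.T j).P (LinearMap.ker (b.1.toLinearMap - 1)) := (TF.ker_e _).1 (by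
    have := LinearEquiv.congr_fun e z
    simp only [LinearEquiv.mul_apply, e', TF.kr_t, show b.1 y = y from neg_injective h4] at this
    simpa [← TF.kr_one_apply, sub_eq_zero] using g.injective (this.trans e'.symm))
  simpa [← e'] using (Φ.T j).P_ext (f := ((Φ.T j).kr (refl q x).1 1).toLinearMap) (g := 1)
    (fun y hy u => by
      have := O.map_polar b x y
      rw [h2, show b.1 y = y from sub_eq_zero.1 hy, polar_neg_left] at this
      simp [refl_apply_of_perp ((smul_eq_zero_iff_right μ.γ.two).1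
        (show (2 : F) • polar q x y = 0 by linear_combination -this))]) h5

variable (hv : q v ≠ 0) (hx : q x ≠ 0) (hij : i ≠ j)
include hv hx hij

theorem conj_pair (hg : g ∈ M) (hg' : g ∈ WG Φ) (h : g * (dv (Φ.T i) q v * dv (Φ.T j) q x) =
    dv (Φ.T i) q v * dv (Φ.T j) q x * g) :
    g * dv (Φ.T i) q v * g⁻¹ = dv (Φ.T i) q v ∨ g * dv (Φ.T i) q v * g⁻¹ = dv (Φ.T j) q x := by
  obtain ⟨s, hs⟩ := id hg'
  obtain ⟨y, h1, e1⟩ := μ.conj_dv ρ hv hg hg' (hs i)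
  obtain ⟨z, h2, e2⟩ := μ.conj_dv ρ hx hg hg' (hs j)
  exact e1 ▸ μ.γ.pair_unique h1 (s.injective.ne hij) hij (by
    rw [← e1, ← e2, conj_mul, h, mul_inv_cancel_right])

theorem cen_pair (hg : g ∈ M) (h : g * (dv (Φ.T i) q v * dv (Φ.T j) q x) =
    dv (Φ.T i) q v * dv (Φ.T j) q x * g) : g ∈ WG Φ := by
  have := finite_equiv (F := F) (V := V)
  obtain ⟨y, h2, h1⟩ := μ.γ.exists_perp hv 1
  replace h1 : q y ≠ 0 := by simp [h1]
  have k0 : ∀ n ∈ Subgroup.zpowers (dv (Φ.T i) q v * dv (Φ.T j) q x),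
      n = 1 ∨ n = dv (Φ.T i) q v * dv (Φ.T j) q x := by
    rintro _ ⟨n, rfl⟩
    obtain ⟨n, rfl | rfl⟩ := Int.even_or_odd' n <;> simp [zpow_add, zpow_mul, pow_two, pair_sq hij]
  have k1 : Subgroup.zpowers (dv (Φ.T i) q v * dv (Φ.T j) q x) ≤ WG Φ :=
    Subgroup.zpowers_le.2 (mul_mem (kr_mem_WG i _) (kr_mem_WG j _))
  have k : ∀ c : O q, (Φ.T i).kr c.1 1 ≠ 1 → c * nr q v = nr q v * c → (Φ.T i).kr c.1 1 ∈ M ⊓
      Subgroup.centralizer {dv (Φ.T i) q v * dv (Φ.T j) q x} ∧ (Φ.T i).kr c.1 1 ∉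
        Subgroup.zpowers (dv (Φ.T i) q v * dv (Φ.T j) q x) := fun c hc e =>
    ⟨⟨ρ i _ c.2, fun _ e' => e' ▸ (Commute.mul_left (kr_comm (congrArg Subtype.val e) 1)
      ((dv_mem_CG hij x).comm_kr _))⟩, fun h => (k0 _ h).elim hc fun e => μ.γ.dv_notMem hx
        ((mul_mem_cancel_left (dv_mem_CG hij.symm v)).1 (e ▸ cm_kr hij.symm _))⟩
  have k2 : ∀ y, q y ≠ 0 → ∀ g ∈ M ⊓ Subgroup.centralizer {dv (Φ.T i) q v * dv (Φ.T j) q x},
      (dv (Φ.T i) q y)⁻¹ * (g * dv (Φ.T i) q y * g⁻¹) ∈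
        Subgroup.zpowers (dv (Φ.T i) q v * dv (Φ.T j) q x) → g ∈ WG Φ := fun y hy g hg h =>
    μ.fus ρ hy hg.1 ((mul_mem_cancel_left (inv_mem (kr_mem_WG i _))).1 (k1 h))
  refine le_of_four (X := M ⊓ Subgroup.centralizer {dv (Φ.T i) q v * dv (Φ.T j) q x})
    (z := dv (Φ.T i) q v) (x := dv (Φ.T i) q y) (fun g hg n hn => ?_) k1 (dv_mul_self v)
    (dv_mul_self y) (dv_comm h2) (kr_mem_WG i _) ?_ (fun g hg => μ.fus ρ hv hg.1)
    (fun g hg hg' => ?_) ⟨hg, fun _ e => e ▸ h.symm⟩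
  · rcases k0 n hn with rfl | rfl <;> simp [← hg.2 _ rfl]
  · have e : dv (Φ.T i) q v * dv (Φ.T i) q y = _ := dv_mul (nr_mul v y)
    have h3 := μ.γ.zt_refl hv h1 h2
    rintro _ (rfl | rfl | rfl)
    · exact and_assoc.1 ⟨k _ (μ.γ.dv_ne hv) rfl, k2 v hv⟩
    · exact and_assoc.1 ⟨k _ (μ.γ.dv_ne h1) (nr_comm h2).symm, k2 y h1⟩
    refine and_assoc.1 ⟨e ▸ k _ (fun e => μ.γ.kr_notMem h3 (e ▸ one_mem _)) (by
      rw [← nr_mul, mul_assoc, ← nr_comm h2]), fun g hg h => (k0 _ h).elim (fun e' => μ.cdz ρ (j := i)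
        h3 hg.1 (e ▸ mul_inv_eq_iff_eq_mul.1 (inv_mul_eq_one.1 e').symm)) fun e' =>
          (μ.trace_pair h1 hx hij ?_).elim⟩
    rw [inv_mul_eq_iff_eq_mul, dv_comm h2, mul_assoc (dv _ q y), ← mul_assoc (dv _ q v), dv_mul_self,
      one_mul, ← dv_comm h2] at e'
    rw [← e', trace_conj, e, trace_kr, μ.γ.zt_trace h3, zero_mul]
  rcases μ.conj_pair ρ hv hx hij hg.1 hg' (hg.2 _ rfl).symm with e | e <;>
    simp [e, dv_inv, dv_mul_self]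

theorem wm_fix (hg : g ∈ M) (h : Sub ((g * (dv (Φ.T i) q v * dv (Φ.T j) q x) * g⁻¹) • Φ.T m) (Φ.T m)) :
    g ∈ WG Φ := by
  rcases (μ.sl m).inv_slot (mul_mem (mul_mem hg (mul_mem (dv_mem ρ i v) (dv_mem ρ j x))) (inv_mem hg))
    (by rw [conj_mul, pair_sq hij]; simp) h with ⟨b, β, h1, -, e⟩ | ⟨a, β, c, h1, h2, -, e⟩
  · obtain ⟨y, h3, h4⟩ := μ.γ.exists_comm_dv (T := Φ.T m) h1 β
    exact μ.of_comm_dv ρ (fun _ => μ.cen_pair ρ hv hx hij) h3 hg (e ▸ h4)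
  exact (μ.trace_pair hv hx hij (by
    rw [← trace_conj g, e, trace_kr, trace_of_nonsq μ.γ.two h1 h2, zero_mul])).elim

theorem wm_key (hg : g ∈ M) (hg' : g ∉ WG Φ) (h : g * (dv (Φ.T i) q v * dv (Φ.T j) q x) * g⁻¹ ∈ WG Φ)
    (l : ι) (hy : q y ≠ 0) : ∃ m w, l ≠ m ∧ q w ≠ 0 ∧ g * dv (Φ.T i) q v * g⁻¹ *
      (dv (Φ.T l) q y * dv (Φ.T m) q w) * (g * dv (Φ.T i) q v * g⁻¹)⁻¹ =
        dv (Φ.T l) q y * (g * (dv (Φ.T i) q v * dv (Φ.T j) q x) * g⁻¹) * (dv (Φ.T l) q y)⁻¹ := by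
  obtain ⟨s, hs⟩ := id h
  have h1 := mul_mem (mul_mem hg (mul_mem (dv_mem ρ i v) (dv_mem ρ j x))) (inv_mem hg)
  have e : l ≠ s l := fun e => hg' (μ.wm_fix ρ hv hx hij hg (by simpa [← e] using hs l))
  obtain ⟨w, hw, e1⟩ := μ.conj_dv ρ hy h1 h (hs l)
  have e5 := swap_comm (by rw [conj_mul, pair_sq hij]; simp) e1 (dv_comm' e y w)
  have h2 := mul_mem (mul_mem (inv_mem hg) (mul_mem (dv_mem ρ l y) (dv_mem ρ (s l) w))) hg
  refine ⟨_, w, e, hw, ?_⟩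
  rcases μ.conj_pair ρ hv hx hij h2 (μ.cen_pair ρ hv hx hij h2 (conj_comm e5)) (conj_comm e5)
    with e6 | e6
  · refine (hg' (μ.fus ρ hv hg (μ.cen_pair ρ hy hw e (mul_mem (mul_mem hg (dv_mem ρ i v))
      (inv_mem hg)) ?_))).elim
    nth_rewrite 1 [← e6]
    group
  calc _ = g * (dv (Φ.T i) q v * (dv (Φ.T j) q x)⁻¹) * g⁻¹ *
        (dv (Φ.T l) q y * dv (Φ.T (s l)) q w) := by rw [← e6]; group
    _ = _ := by
        rw [dv_inv, ← e5, ← e1, dv_inv]; group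

theorem wm_aux (hg : g ∈ M) (hg' : g ∉ WG Φ) (h : g * (dv (Φ.T i) q v * dv (Φ.T j) q x) * g⁻¹ ∈ WG Φ)
    (l : ι) (hb : b ∈ eichGroup q) : g⁻¹ * (Φ.T l).kr b.1 1 * g ∈ WG Φ := by
  have k : ∀ y, q y ≠ 0 → (g * dv (Φ.T i) q v * g⁻¹)⁻¹ * dv (Φ.T l) q y * g ∈ WG Φ := fun y hy => by
    obtain ⟨m, w, h1, h2, e⟩ := μ.wm_key ρ hv hx hij hg hg' h l hy
    refine μ.wm_fix ρ (m := l) hv hx hij (mul_mem (mul_mem (inv_mem (mul_mem (mul_mem hg
      (dv_mem ρ i v)) (inv_mem hg))) (dv_mem ρ l y)) hg) ?_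
    convert (show dv (Φ.T l) q y * dv (Φ.T m) q w ∈ BG Φ from
      mul_mem (sub_kr' l · _) (sub_kr' m · _)) l using 2
    rw [mul_inv_eq_iff_eq_mul, ← eq_inv_mul_iff_mul_eq] at e
    rw [e]; group
  refine (Subgroup.closure_le ((WG Φ).comap ((MulAut.conj g⁻¹).toMonoidHom.comp
    ((Φ.T l).krHom.comp (O q).subtype)))).2 ?_ ((ker_dickson_eq_closure μ.γ.nd
      (not_exc_of_two_ne_zero μ.γ.two)).le (μ.γ.mem_eich.1 hb).1)
  rintro _ ⟨y, z, hy, hz, rfl⟩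
  change g⁻¹ * (Φ.T l).kr (refl q y * refl q z).1 1 * g⁻¹⁻¹ ∈ WG Φ
  convert mul_mem (inv_mem (k y hy)) (k z hz) using 1
  rw [← dv_mul (nr_mul y z)]
  nth_rewrite 1 [← dv_inv y]
  group

theorem wm_pair (hg : g ∈ M) (h : g * (dv (Φ.T i) q v * dv (Φ.T j) q x) * g⁻¹ ∈ WG Φ) :
    g ∈ WG Φ := by
  by_contra hg'
  obtain ⟨m, w, h1, h2, e⟩ := μ.wm_key ρ hv hx hij hg hg' h i hv
  have h3 := mul_mem (inv_mem (dv_mem ρ i v)) (mul_mem (mul_mem hg (dv_mem ρ i v)) (inv_mem hg))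
  have h5 : dv (Φ.T i) q v ∈ WG Φ := kr_mem_WG i _
  have h4 : (dv (Φ.T i) q v)⁻¹ * (g * dv (Φ.T i) q v * g⁻¹) ∉ WG Φ := fun e =>
    hg' (μ.fus ρ hv hg ((mul_mem_cancel_left (inv_mem h5)).1 e))
  refine h4 (μ.γ.mem_WG_of_rel (μ.sl j).hB μ.cp ((μ.sl j).ug h3) i i (fun l _ b hb => ?_)
    fun l _ b => μ.wm_aux ρ hv h2 h1 h3 h4 ?_ l)
  · simpa only [inv_inv] using μ.wm_aux ρ hv h2 h1 (inv_mem h3) (mt inv_mem_iff.1 h4) (by
      convert mul_mem (mul_mem h5 h) (inv_mem h5) using 1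
      have : (g * dv (Φ.T i) q v * g⁻¹)⁻¹ = g * dv (Φ.T i) q v * g⁻¹ := by simp [dv_inv, mul_assoc]
      rw [← e, mul_inv_rev, inv_inv, mul_inv_rev _ (dv _ q v), inv_inv, this, mul_assoc, mul_assoc,
        ← mul_assoc (dv _ q v * _), ← mul_assoc (dv _ q v) (_ * _), ← mul_assoc (dv _ q v),
        ((Commute.refl _).mul_right (dv_comm' h1 v w)).eq, mul_inv_cancel_right, ← mul_assoc]) l hb
  convert h using 1
  rw [mul_inv_rev, inv_inv, mul_assoc _⁻¹, mul_assoc _⁻¹, ← mul_assoc _ _⁻¹, e]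
  group

omit hv hx hij

theorem wm_z (h : Zt b) (hg : g ∈ M) (h1 : g * (Φ.T j).kr b.1 1 * g⁻¹ ∈ WG Φ) : g ∈ WG Φ := by
  by_contra hg'
  obtain ⟨s, hs⟩ := id h1
  have h2 := mul_mem (mul_mem hg (ρ j _ b.2)) (inv_mem hg)
  have h3 : g * (Φ.T j).kr b.1 1 * g⁻¹ * (g * (Φ.T j).kr b.1 1 * g⁻¹) = 1 := by
    rw [conj_mul, ← kr_mul', ← Subgroup.coe_mul, h.sq]; simp
  refine μ.not_pgl h (fun _ => μ.cdz ρ h) hg fun l => ((μ.sl l).inv_slot h2 h3 (by_contra fun e =>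
    ?_)).resolve_left fun ⟨c, β, h4, _, e⟩ => ?_
  · have e1 : l ≠ s l := fun e' => e (by simpa [← e'] using hs l)
    obtain ⟨x, h4, -⟩ := μ.γ.exists_ns h.sq h.ne
    obtain ⟨y, h5, e2⟩ := μ.conj_dv ρ h4 h2 h1 (hs l)
    refine hg' (inv_mem_iff.1 (μ.wm_pair ρ h4 h5 e1 (inv_mem hg) (by
      simpa only [inv_inv] using μ.cdz ρ (j := j) h (mul_mem (mul_mem (inv_mem hg) (mul_mem (dv_mem ρ l x)
        (dv_mem ρ _ y))) hg) (conj_comm (swap_comm h3 e2 (dv_comm' e1 x y))))))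
  obtain ⟨y, h5, h6⟩ := μ.γ.exists_comm_dv (T := Φ.T l) h4 β
  exact hg' (μ.of_comm_dv ρ (fun _ => μ.cdz ρ h) h5 hg (e ▸ h6))

theorem zs : ZS M (WG Φ) {d | ∃ j v, q v ≠ 0 ∧ d = dv (Φ.T j) q v} := by
  refine ⟨?_, ?_, ?_, ?_⟩
  · rintro _ ⟨j, v, hv, rfl⟩
    exact Inv.orderOf_eq_two_iff.2 ⟨μ.γ.dv_ne hv, dv_mul_self v⟩
  · rintro _ ⟨j, v, hv, rfl⟩
    exact ⟨dv_mem ρ j v, kr_mem_WG j _⟩
  · rintro _ ⟨j, v, hv, rfl⟩ g hg e
    exact ⟨μ.fus ρ hv hg e, μ.exists_dv ρ hv hg e⟩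
  rintro _ ⟨i, v, hv, rfl⟩ _ ⟨j, x, hx, rfl⟩ h1 h2 g hg
  rcases eq_or_ne i j with rfl | e
  · rw [dv_mul rfl, dv_mul rfl] at h2
    rw [dv_mul (nr_mul v x)]
    exact μ.wm_z ρ (μ.γ.zt_refl hv hx (perp_of_comm μ.γ.two hv hx (Subtype.ext (kr_inj h2))
      fun e => h1 (by rw [dv, dv, e]))) hg
  exact μ.wm_pair ρ hv hx e hg

theorem le_WG_of_rf : M ≤ WG Φ := by
  by_contra hn
  have := finite_equiv (F := F) (V := V)
  have γ := μ.γ
  have := γ.nontrivial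
  obtain ⟨j, -⟩ := Fintype.exists_pair_of_one_lt_card (not_le.1 fun h => hn fun g _ =>
    le_WG_of_card (Φ := Φ) h g)
  obtain ⟨ν, hν⟩ := FiniteField.exists_nonsquare (F := F) fun e => γ.two (by
    simpa [e] using ringChar.Nat.cast_ringChar (R := F))
  obtain ⟨v, hv⟩ := exists_Q_eq γ.nd (γ.four ▸ by decide) 1
  obtain ⟨x, hx⟩ := exists_Q_eq γ.nd (γ.four ▸ by decide) ν
  have h0 : q v ≠ 0 := by simp [hv]
  have h5 : q x ≠ 0 := hx ▸ ne_zero_of_not_isSquare hν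
  obtain ⟨k, hk, h1, ⟨n, h2⟩, e⟩ := (μ.zs ρ).exists_conj hn ⟨j, v, h0, rfl⟩ ⟨j, x, h5, rfl⟩
  obtain ⟨a, b, rfl⟩ := (sub_of_conj h1 (e ▸ γ.dv_notMem h5)).exists_kr
  obtain ⟨l, -, h3, -⟩ := (μ.sl j).sim (μ.le hk)
  obtain ⟨c, hc⟩ := scalar_of_kr (kr_pow (T := Φ.T j) a b _ ▸ pow_orderOf_eq_one ((Φ.T j).kr a b) ▸
    one_mem (CG _))
  obtain ⟨t, rfl⟩ := γ.odd_sq h3 (h2 ▸ hc)
  obtain ⟨u, hu⟩ := exists_ne (0 : W)
  obtain ⟨d, hd⟩ := Submodule.mem_span_singleton.1 (mem_of_nr γ.two (v := x) (x := a v)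
    ((Φ.T j).t_inj' (u := b u) (by simpa) (by
      simpa [dv_t, nr_self h0] using
        (LinearEquiv.congr_fun (mul_inv_eq_iff_eq_mul.1 e) ((Φ.T j).t v u)).symm)))
  have h6 := h3 v v
  simp only [← hd, Q_smul, polar_self', hv, hx] at h6
  exact hν ⟨ν * d * t, mul_left_cancel₀ γ.two (by linear_combination ν * h6)⟩

end St

end Cfsg.Lib.TQ
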