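import Cfsg.Agent.Lib.TQ.Ext

/-!
# Four-dimensional orthogonal tensor factors: the radical at a singular point
-/

set_option autoImplicit false
set_option linter.unusedSectionVars false

namespace Cfsg.Lib.TQ

open Module QuadraticMap Cfsg.Lib.TW Cfsg.Lib.TMax Function Cfsg.Lib.TO
open Cfsg.Lib.Orth
open Cfsg.Lib.Unitary (UG)
open scoped commutatorElement

variable {F U W V : Type*} [Field F] [AddCommGroup U] [Module F U] [AddCommGroup W] [Module F W]
  [AddCommGroup V] [Module F V] {q : QuadraticForm F U} {Q : QuadraticForm F V} {T : TF F U W V}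
  {M : Subgroup (V ≃ₗ[F] V)} {w f s s' : U} {g k : V ≃ₗ[F] V} {η θ : End F V}

/-- Hypotheses on one slot. -/
structure Sl (q : QuadraticForm F U) (Q : QuadraticForm F V) (M : Subgroup (V ≃ₗ[F] V))
    (T : TF F U W V) : Prop where
  γ : OU q
  nd : ND Q
  cp : Cp (polarBilin q) (polarBilin Q) T
  le : M ≤ O Q
  su : ∀ b ∈ Nq q, T.kr b 1 ∈ M

variable [Finite F] [FiniteDimensional F U]

theorem OU.comm_r (γ : OU q) (h0 : w ≠ 0) (hw : q w = 0) {X : End F V}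
    (h : ∀ s, polar q w s = 0 → X * T.e (sk q w s) = T.e (sk q w s) * X) :
    X * T.e (r q w w) = T.e (r q w w) * X := by
  obtain ⟨s, hs, h1⟩ := γ.exists_aniso h0 hw
  have : X * T.e (sk q w s * sk q w s) = T.e (sk q w s * sk q w s) * X := by
    rw [map_mul, ← mul_assoc, h s hs, mul_assoc, h s hs, mul_assoc]
  rw [sk_mul hw hs hs, map_smul, mul_smul_comm, smul_mul_assoc] at this
  exact smul_right_injective _ (by simp [polar_self', γ.two, h1]) this

theorem OU.mem_P (γ : OU q) {x : V} (h : ∀ s, polar q w s = 0 → cw T q s x = 0) :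
    x ∈ T.P (F ∙ w) := T.mem_P1'.2 fun ψ hψ => by
  obtain ⟨s, rfl⟩ := γ.ef.exists_eq ψ
  exact h s ((polar_comm _ _ _).trans hψ)

theorem OU.ae_eq_one (γ : OU q) (h0 : w ≠ 0) (hw : q w = 0) (hs : polar q w s = 0)
    (h : ∀ y, polar q w y = 0 → ∃ u, u ≠ 0 ∧ ae T q w s (T.t y u) = T.t y u) : ae T q w s = 1 := by
  obtain ⟨c, rfl⟩ := Submodule.mem_span_singleton.1 (γ.mem_of_perp (y := s) fun y hy => by
    obtain ⟨u, hu, e⟩ := h y hy
    rw [ae_t, eich_apply_of_perp hw hs hy] at e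
    simpa [h0, polar_comm q y s] using T.t_inj' hu e)
  simp [ae, eich_self_smul hw]

/-- Commuting with a Borel-like subgroup of the factor. -/
theorem OU.eq_of_comm (γ : OU q) {b : O q} {l : F} (τ : Ts q w f b l) {X : End F V}
    (h1 : ∀ s, polar q w s = 0 → X * (ae T q w s).toLinearMap = (ae T q w s).toLinearMap * X)
    (h2 : X * T.e b.1.toLinearMap = T.e b.1.toLinearMap * X) :
    X = cf T q X f w + T.e (r q w w) * cf T q X f f := by
  have h3 := fun s => comm_sk γ.two τ.hyp.left h1 (s := s)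
  have h4 := γ.comm_r τ.hyp.ne_zero τ.hyp.left h3
  refine T.ext' fun v u => sub_eq_zero.1 (T.eq_zero_of_d fun χ => ?_)
  have k : ∀ a, X * T.e a = T.e a * X → (T.d χ ∘ₗ X ∘ₗ T.t.flip u) * a = a * (T.d χ ∘ₗ X ∘ₗ T.t.flip u) :=
    fun a h => LinearMap.ext fun v => by simpa [TF.d_e] using congrArg (T.d χ) (LinearMap.congr_fun h (T.t v u))
  have := LinearMap.congr_fun (γ.ts_eq τ (fun s hs => k _ (h3 s hs)) (k _ h4) (k _ h2)) v
  have e : ∀ x, polar q f (T.d χ x) = χ (T.c (polarBilin q f) x) := T.apply_d (polarBilin q f) χ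
  simp only [LinearMap.comp_apply, LinearMap.flip_apply, e] at this
  simp [this, cf_t, r_apply, smul_smul, mul_comm]

namespace Sl

variable (σ : Sl q Q M T)
include σ

theorem hB : EF (RingHom.id F) 1 (polarBilin Q) := ef_polar σ.nd

theorem ug (hg : g ∈ M) : g ∈ UG (polarBilin Q) := O_le_UG (σ.le hg)

theorem ad_e {a a' : End F U} (h : Ad (polarBilin q) a a') : Ad (polarBilin Q) (T.e a) (T.e a') :=
  Ad.e σ.cp h

theorem ae_mem (w s : U) : ae T q w s ∈ M := σ.su _ (eich_mem_Nq w s)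

theorem su' {b : O q} (h : b ∈ eichGroup q) : T.kr b.1 1 ∈ M := σ.su _ (mem_Nq h)

theorem mono {M' : Subgroup (V ≃ₗ[F] V)} (h : M ≤ M') (h' : M' ≤ O Q) : Sl q Q M' T :=
  ⟨σ.γ, σ.nd, σ.cp, h', fun b hb => h (σ.su b hb)⟩

theorem smul (hg : g ∈ M) : Sl q Q M (g • T) :=
  ⟨σ.γ, σ.nd, σ.cp.smul (σ.ug hg), σ.le, fun b hb => by
    simpa [TF.smul_kr] using mul_mem (mul_mem hg (σ.su b hb)) (inv_mem hg)⟩

theorem cw_fix (hg : g ∈ UG (polarBilin Q)) (h : ∀ x ∈ T.P (F ∙ w), g x = x) (x : V) :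
    cw T q w (g x) = cw T q w x := by
  have := σ.γ.nontrivial
  rw [← sub_eq_zero, ← map_sub]
  refine σ.cp.c_eq_zero σ.hB fun u => ?_
  rw [map_sub, ← hg (T.t w u) x, h _ (T.t_mem_P1 w u), sub_self]

variable [FiniteDimensional F V]

theorem cm_ad {η' : End F V} (h : Cm T η) (h' : Ad (polarBilin Q) η η') : Cm T η' :=
  Ad.cm h' σ.γ.ef σ.hB σ.cp h

theorem exists_cen (h0 : w ≠ 0) (hg : g ∈ UG (polarBilin Q)) (h : ∀ x, cw T q w x = 0 → g x = x) :
    ∃ β, Cm T β ∧ g.toLinearMap = 1 + T.e (r q w w) * β := by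
  have := σ.γ.nontrivial
  obtain ⟨f, hf⟩ := σ.γ.ef.exists_eq_one h0
  obtain ⟨χ, hχ⟩ := exists_dual_one (F := F) h0
  refine ⟨_, T.cm_coef χ f (g.toLinearMap - 1), LinearMap.ext fun x => ?_⟩
  have h1 := h (x - T.t f (T.c (polarBilin q w) x)) (by rw [map_sub, T.c_t, hf]; simp)
  obtain ⟨u, hu⟩ := T.mem_P1.1 (σ.hB.sub_mem_of_fix (W := T.P (F ∙ w)) hg
    (fun x hx => h x ((σ.cp.mem_perp σ.hB).1 hx)) (T.t f (T.c (polarBilin q w) x)))
  simp only [rk, TF.coef, LinearMap.add_apply, End.mul_apply, TF.e_r, TF.c_km, End.one_eq_id,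
    LinearMap.comp_id, LinearMap.comp_apply, LinearMap.sub_apply, LinearMap.id_apply,
    LinearEquiv.coe_coe, ← hu, TF.c_t, hχ, one_smul]
  rw [map_sub] at h1
  linear_combination (norm := module) h1 - hu

omit [FiniteDimensional F V] in
theorem e_mul_ty (h : Ty T q w s' θ k) (hk : k ∈ M) (hs : polar q w s = 0) {θ' : End F V}
    (hθ : Ad (polarBilin Q) θ θ') (hc : Cm T θ) (hk' : k ∈ Rd T q w) (z : U) :
    T.e (r q z s) * k.toLinearMap = T.e (r q z s) - polar q s' s • (θ' * T.e (r q z w)) := by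
  have h1 : (k⁻¹).toLinearMap * T.e (r q s z) = T.e (r q s z) - polar q s' s • (T.e (r q w z) * θ) :=
    LinearMap.ext fun x => by
      rw [End.mul_apply, LinearEquiv.coe_coe, h.inv hk' _ (by rw [e_r, cw_t, hs, zero_smul]),
        hc.apply, ← End.mul_apply (T.e _) (T.e _), ← map_mul, r_mul]
      simp
  simpa using ((Ad.of_UG (inv_mem (σ.ug hk))).mul (σ.ad_e (ad_r s z))).unique σ.hB
    (h1 ▸ (σ.ad_e (ad_r s z)).sub (((σ.ad_e (ad_r w z)).mul hθ).smul _))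

omit [FiniteDimensional F V] in
theorem ty_mul (h : Ty T q w s η g) (h' : Ty T q w s' θ k) (hk : k ∈ M) (hw : q w = 0)
    (hs : polar q w s = 0) (hs' : polar q w s' = 0) {θ' : End F V} (hθ : Ad (polarBilin Q) θ θ')
    (hc : Cm T θ) (hη : Cm T η) :
    (g * k).toLinearMap = g.toLinearMap + k.toLinearMap - 1 - polar q s' s • (η * θ' * T.e (r q w w)) := by
  have hk' := h'.rd hc hw hs'
  refine LinearMap.ext fun x => ?_
  have h1 := h (k x - x) (by rw [map_sub, σ.cw_fix (σ.ug hk) hk'.1, sub_self])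
  have h2 := LinearMap.congr_fun (σ.e_mul_ty h' hk hs hθ hc hk' w) x
  rw [← hη.apply, map_sub, map_sub (T.e _)] at h1
  simp only [End.mul_apply, LinearEquiv.coe_coe, LinearMap.sub_apply, LinearMap.smul_apply] at h2
  simp only [End.mul_apply, LinearEquiv.coe_coe, LinearMap.sub_apply, LinearMap.smul_apply,
    LinearMap.add_apply, LinearEquiv.mul_apply, End.one_apply]
  rw [h2, sub_sub_cancel_left, map_neg, map_smul] at h1
  linear_combination (norm := module) h1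

theorem un_comm (h : Ty T q w s η g) (h' : Ty T q w s' θ k) (hg : g ∈ M) (hk : k ∈ M)
    (hw : q w = 0) (hs : polar q w s = 0) (hs' : polar q w s' = 0) {η' θ' : End F V}
    (hη' : Ad (polarBilin Q) η η') (hθ : Ad (polarBilin Q) θ θ') (hc : Cm T θ) (hη : Cm T η) :
    Un M (T.e (r q w w) * polar q s s' • (θ * η' - η * θ')) := by
  refine ⟨g * k * (k * g)⁻¹, mul_mem (mul_mem hg hk) (inv_mem (mul_mem hk hg)), fun x => ?_⟩
  have h1 := LinearMap.congr_fun (σ.ty_mul h h' hk hw hs hs' hθ hc hη) ((k * g)⁻¹ x)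
  have h2 := LinearMap.congr_fun (σ.ty_mul h' h hg hw hs' hs hη' hη hc) ((k * g)⁻¹ x)
  have h3 := σ.cw_fix (σ.ug (inv_mem (mul_mem hk hg)))
    (inv_mem (mul_mem (h'.rd hc hw hs') (h.rd hη hw hs))).1 x
  rw [← ((hc.mul (σ.cm_ad hη hη')).sub (hη.mul (σ.cm_ad hc hθ))).smul _ _]
  simp only [End.mul_apply, LinearEquiv.coe_coe, LinearMap.sub_apply, LinearMap.smul_apply,
    LinearMap.add_apply, e_r, h3, ← LinearEquiv.mul_apply, mul_inv_cancel, polar_comm q s' s,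
    LinearEquiv.coe_one, id] at h1 h2 ⊢
  linear_combination (norm := module) h1 - h2

omit [FiniteDimensional F V] in
theorem rd_of_comm (h0 : w ≠ 0) (hw : q w = 0) (hg : g ∈ M) (h : ∀ a ∈ Aw T hw, g * a = a * g)
    (h1 : ∀ x ∈ T.P (F ∙ w), g x = x) : g ∈ Rd T q w := by
  refine ⟨h1, fun x hx => σ.γ.mem_P fun s hs => ?_⟩
  have h2 := LinearMap.congr_fun (comm_sk σ.γ.two hw (X := g.toLinearMap)
    (fun s hs => congrArg LinearEquiv.toLinearMap (h _ ⟨s, hs, rfl⟩)) hs) x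
  simp only [End.mul_apply, sk_eq, map_sub, LinearMap.sub_apply, e_r, LinearEquiv.coe_coe,
    σ.cw_fix (σ.ug hg) h1, hx, map_zero, sub_zero, h1 _ (T.t_mem_P1 _ _)] at h2
  rw [map_sub, T.t_inj h0 h2, sub_self]

omit [FiniteDimensional F V] in
theorem map_P (h0 : w ≠ 0) (hw : q w = 0) (h : ∀ a ∈ Aw T hw, g * a = a * g) (u : W) :
    g (T.t w u) ∈ T.P (F ∙ w) := by
  obtain ⟨f, hf⟩ := σ.γ.hyp h0 hw
  have := LinearMap.congr_fun (σ.γ.comm_r h0 hw (X := g.toLinearMap) fun s => comm_sk σ.γ.two hw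
    fun s hs => congrArg LinearEquiv.toLinearMap (h _ ⟨s, hs, rfl⟩)) (T.t f u)
  simp only [End.mul_apply, e_r, cw_t, hf.polar_eq, one_smul, LinearEquiv.coe_coe] at this
  exact this ▸ T.t_mem_P1 _ _

omit [FiniteDimensional F V] in
/-- The commutator of a torus element with an element centralising the root group. -/
theorem comm_mem (G : Gd q M T) {b : O q} {l : F} (τ : Ts q w f b l) (hg : g ∈ M)
    (h : ∀ a ∈ Aw T τ.hyp.left, g * a = a * g) : ⁅T.kr b.1 1, g⁆ ∈ Aw T τ.hyp.left := by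
  have h0 := τ.hyp.ne_zero
  have hb := σ.su' τ.mem
  have h' : ∀ a ∈ Aw T τ.hyp.left, g⁻¹ * a = a * g⁻¹ := fun a ha => (Commute.inv_left (h a ha)).eq
  have hc : ⁅T.kr b.1 1, g⁆ ∈ M := mul_mem (mul_mem (mul_mem hb hg) (inv_mem hb)) (inv_mem hg)
  refine G w h0 _ _ hc (σ.rd_of_comm h0 τ.hyp.left hc (fun a ha => ?_) fun x hx => ?_)
  · have := h _ (τ.conj_mem ha).2
    rw [commutatorElement_def, mul_assoc _ _ a, h' a ha]
    calc _ = T.kr b.1 1 * (g * ((T.kr b.1 1)⁻¹ * a * T.kr b.1 1)) * (T.kr b.1 1)⁻¹ * g⁻¹ := by group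
      _ = _ := by rw [this]; group
  obtain ⟨u, rfl⟩ := T.mem_P1.1 hx
  obtain ⟨u', e⟩ := T.mem_P1.1 (σ.map_P h0 _ h' u)
  have e' : g (T.t w u') = T.t w u := by rw [e]; simp
  have : (b.1⁻¹) w = l⁻¹ • w := (O.inv_apply_eq _).2 (by simp [τ.left, τ.ne])
  simp only [commutatorElement_def, LinearEquiv.mul_apply, ← e, TF.kr_inv, TF.kr_t, this]
  simp [e', τ.left, τ.ne]

omit [FiniteDimensional F V] in
theorem exists_tor (G : Gd q M T) {b : O q} {l : F} (τ : Ts q w f b l) (hg : g ∈ M)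
    (h : ∀ a ∈ Aw T τ.hyp.left, g * a = a * g) :
    ∃ a ∈ Aw T τ.hyp.left, a * g * T.kr b.1 1 = T.kr b.1 1 * (a * g) := by
  have hw := τ.hyp.left
  obtain ⟨s, hs, e⟩ := σ.comm_mem G τ hg h
  obtain ⟨s', hs', e'⟩ := τ.exists_comm (s := -s) (by simp [hs])
  refine ⟨_, ⟨s', hs', rfl⟩, ?_⟩
  have e1 : ⁅T.kr b.1 1, ae T q w s'⁆ = (ae T q w s)⁻¹ := by
    rw [← ae_neg hw hs, ae, ae, ← e']; simp [commutatorElement_def, TF.kr_inv, TF.kr_mul]
  have e2 : ae T q w s' * ae T q w s = ae T q w s * ae T q w s' := by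
    rw [← ae_add hw hs' hs, add_comm, ae_add hw hs hs']
  symm
  calc _ = ⁅T.kr b.1 1, ae T q w s'⁆ * (ae T q w s' * ⁅T.kr b.1 1, g⁆) * g * T.kr b.1 1 := by group
    _ = _ := by rw [e1, e, e2]; group

variable [Nontrivial W]

omit [FiniteDimensional F V] in
theorem eq_one_of_fix (G : Gd q M T) (h0 : w ≠ 0) (hw : q w = 0) (hg : g ∈ M)
    (h : ∀ x, cw T q w x = 0 → g x = x) : g = 1 := by
  obtain ⟨s, hs, rfl⟩ := G w h0 hw g hg ⟨fun x hx => h x (T.c_of_mem1 (polar_sing hw) hx),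
    fun x hx => by simp [h x hx]⟩
  obtain ⟨u, hu⟩ := exists_ne (0 : W)
  exact σ.γ.ae_eq_one h0 hw hs fun y hy => ⟨u, hu, h _ (by simp [hy])⟩

omit [FiniteDimensional F V] in
theorem eq_one_of_tor (G : Gd q M T) {b : O q} {l : F} (τ : Ts q w f b l) (hg : g ∈ M)
    (h : ∀ a ∈ Aw T τ.hyp.left, g * a = a * g) (h1 : g * T.kr b.1 1 = T.kr b.1 1 * g)
    (h2 : ∀ u, g (T.t w u) = T.t w u) : g = 1 := by
  have e := σ.γ.eq_of_comm τ (X := g.toLinearMap)
    (fun s hs => congrArg LinearEquiv.toLinearMap (h _ ⟨s, hs, rfl⟩))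
    (T.kr_coe _ ▸ congrArg LinearEquiv.toLinearMap h1)
  have e1 : cf T q g.toLinearMap f w = 1 := T.ext' fun v u => by simp [cf_t, h2, τ.hyp.polar_eq']
  refine σ.eq_one_of_fix G τ.hyp.ne_zero τ.hyp.left hg fun x hx => ?_
  rw [← LinearEquiv.coe_coe, e, e1, ← cm_cf]
  simp [e_r, hx]

/-- Two good slots with the same point have the same root group. -/
theorem aw_le [FiniteDimensional F W] {T' : TF F U W V} (σ' : Sl q Q M T') (G : Gd q M T)
    {w' : U} (h0 : w ≠ 0) (hw : q w = 0) (hw' : q w' = 0) (e : T'.P (F ∙ w') = T.P (F ∙ w)) :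
    Aw T' hw' ≤ Aw T hw := by
  rintro _ ⟨s, hs, rfl⟩
  have := σ.γ.nontrivial
  have h := ae_mem_Rd (T := T') hw' hs
  exact G w h0 hw _ (σ'.ae_mem _ _) ⟨e ▸ h.1, fun x hx => e ▸ h.2 x ((σ'.cp.mem_perp σ.hB).1
    (e ▸ (σ.cp.mem_perp σ.hB).2 hx))⟩

end Sl

end Cfsg.Lib.TQ
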