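import Cfsg.Agent.Lib.TQ.Two

/-!
# The tensor square of a four-dimensional orthogonal space: coordinates
-/

set_option autoImplicit false
set_option linter.unusedSectionVars false

namespace Cfsg.Lib.TQ

open Module QuadraticMap Cfsg.Lib.TW Cfsg.Lib.TMax Function Cfsg.Lib.TO
open Cfsg.Lib.Orth
open Cfsg.Lib.Unitary (UG)
open scoped commutatorElement

universe u

section

variable {F U W W' V : Type*} [Field F] [AddCommGroup U] [Module F U] [AddCommGroup W] [Module F W]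
  [AddCommGroup W'] [Module F W'] [AddCommGroup V] [Module F V] {q : QuadraticForm F U}
  {Q : QuadraticForm F V} {T : TF F U W V} {T' : TF F U W' V} {M : Subgroup (V ≃ₗ[F] V)}
  {g k : V ≃ₗ[F] V} {v x y w f s : U} {b c : O q} {a : U ≃ₗ[F] U} {ξ : V}

theorem kr_congr (h : T.e = T'.e) (a) : T.kr a 1 = T'.kr a 1 :=
  LinearEquiv.ext fun x => by rw [TF.kr_one_apply, TF.kr_one_apply, h]

theorem P_le_congr (h : T.e = T'.e) (N : Submodule F U) : T.P N ≤ T'.P N := T.P_le fun v hv u => by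
  rcases eq_or_ne v 0 with rfl | h0
  · simp
  obtain ⟨ψ, hψ⟩ := exists_dual_one (F := F) h0
  have := T'.e_mem_P (ψ.smulRight v) (T.t v u)
  rw [← h, TF.e_t] at this
  simpa [hψ] using T'.P_mono (N' := N) (by rintro _ ⟨y, rfl⟩; exact N.smul_mem _ hv) this

theorem P_congr (h : T.e = T'.e) (N : Submodule F U) : T.P N = T'.P N :=
  (P_le_congr h N).antisymm (P_le_congr h.symm N)

/-- Maps trivial on `Z` and trivial modulo `Z` on the vectors satisfying `p`. -/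
def Ux (Z : Submodule F V) (p : V → Prop) : Subgroup (V ≃ₗ[F] V) where
  carrier := {g | (∀ x ∈ Z, g x = x) ∧ ∀ x, p x → g x - x ∈ Z}
  one_mem' := ⟨fun _ _ => rfl, by simp⟩
  mul_mem' := fun {g k} h h' => ⟨fun x hx => by simp [h.1 x hx, h'.1 x hx], fun x hx => by
    convert add_mem (h.2 x hx) (h'.2 x hx) using 1
    rw [← h.1 _ (h'.2 x hx), map_sub, LinearEquiv.mul_apply]; abel⟩
  inv_mem' := fun {g} h => ⟨fun x hx => g.injective (by simp [h.1 x hx]), fun x hx => by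
    convert neg_mem (h.2 x hx) using 1
    exact g.injective (by rw [map_neg, h.1 _ (h.2 x hx)]; simp)⟩

theorem conj_mem_Ux {Z : Submodule F V} {p : V → Prop} (hg : g ∈ Ux Z p) (hk : k ∈ TW.stab Z)
    (h : ∀ x, p x → p (k⁻¹ x)) : k * g * k⁻¹ ∈ Ux Z p :=
  ⟨fun x hx => by simp [hg.1 (k.symm x) (TW.apply_mem_of_stab (inv_mem hk) hx)], fun x hx => by
    simpa using TW.apply_mem_of_stab hk (hg.2 _ (h x hx))⟩

/-- Maps acting as a scalar on the vectors satisfying `p`. -/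
def Sx (F : Type*) [Field F] [Module F V] (p : V → Prop) : Subgroup (V ≃ₗ[F] V) where
  carrier := {g | ∃ t : F, ∀ x, p x → g x = t • x}
  one_mem' := ⟨1, by simp⟩
  mul_mem' := fun ⟨t, h⟩ ⟨t', h'⟩ => ⟨t' * t, fun x hx => by simp [h x hx, h' x hx, mul_smul]⟩
  inv_mem' := fun {g} ⟨t, h⟩ => ⟨t⁻¹, fun x hx => g.injective (by
    rcases eq_or_ne t 0 with rfl | e
    · simp [g.map_eq_zero_iff.1 ((h x hx).trans (zero_smul F x))]
    · simp [h x hx, e])⟩

theorem Sim.map_refl {l : F} (h : Sim q a l) (h2 : (2 : F) ≠ 0) (hv : q v ≠ 0) (x : U) :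
    q (a v) ≠ 0 ∧ a ((refl q v).1 x) = (refl q (a v)).1 (a x) := by
  have e := h v v
  rw [polar_self', polar_self'] at e
  have h1 : q (a v) ≠ 0 := fun e' => hv (by simpa [e', h2] using e)
  refine ⟨h1, ?_⟩
  rw [refl_apply, refl_apply, map_sub, map_smul, h v x]
  congr 2
  field_simp
  exact mul_left_cancel₀ h2 (by linear_combination -polar q (a v) (a x) * e)

variable [FiniteDimensional F U]

theorem mem_eig {t : F} (h : T.kr a 1 ξ = t • ξ) :
    ξ ∈ T.P (LinearMap.ker (a.toLinearMap - t • 1)) :=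
  (TF.ker_e _).1 (by simp [← TF.kr_one_apply, h])

/-- An involution inverting the anisotropic plane orthogonal to a hyperbolic pair. -/
structure Cf (c : O q) (w f : U) : Prop where
  two : (2 : F) ≠ 0
  zt : Zt c
  hyp : IsHyp q w f
  left : c.1 w = w
  right : c.1 f = f
  neg : ∀ s ∈ hperp q w f, c.1 s = -s

namespace Cf

variable (κ : Cf c w f)
include κ

theorem mem_of_neg (h : c.1 s = -s) : s ∈ hperp q w f :=
  have k : ∀ x, c.1 x = x → polar q x s = 0 := fun x hx => (smul_eq_zero_iff_right κ.two).1 (by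
    have := O.map_polar c x s
    rw [hx, h, polar_neg_right] at this
    linear_combination -this)
  mem_hperp.2 ⟨k w κ.left, k f κ.right⟩

theorem of_fix (h : c.1 x = x) : ∃ α β : F, x = α • w + β • f := by
  obtain ⟨α, β, s, hs, rfl⟩ := κ.hyp.exists_decomp x
  simp only [map_add, map_smul, κ.left, κ.right, κ.neg s hs, add_right_inj] at h
  exact ⟨α, β, by rw [(smul_eq_zero_iff_right κ.two).1 (show (2 : F) • s = 0 by
    linear_combination (norm := module) -h), add_zero]⟩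

theorem vm : T.kr c.1 1 ξ = -ξ ↔ ξ ∈ T.P (hperp q w f) :=
  ⟨fun h => T.P_mono (fun s hs => κ.mem_of_neg (by simpa [add_eq_zero_iff_eq_neg] using hs))
    (mem_eig (t := -1) (by simpa using h)), T.P_ext (f := (T.kr c.1 1).toLinearMap) (g := -1)
      fun s hs u => by simp [κ.neg s hs]⟩

theorem ext_p {φ ψ : V →ₗ[F] V} (hw : ∀ u, φ (T.t w u) = ψ (T.t w u))
    (hf : ∀ u, φ (T.t f u) = ψ (T.t f u)) (h : T.kr c.1 1 ξ = ξ) : φ ξ = ψ ξ :=
  T.P_ext (fun x hx u => by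
    obtain ⟨α, β, rfl⟩ := κ.of_fix (x := x) (by simpa [sub_eq_zero] using hx)
    simp [hw, hf]) (mem_eig (t := 1) (by simpa using h))

theorem comm_refl (h : c.1 x = x ∨ c.1 x = -x) : (refl q x).1 * c.1 = c.1 * (refl q x).1 :=
  congrArg Subtype.val (mul_inv_eq_iff_eq_mul.1 (show c * refl q x * c⁻¹ = refl q x by
    rcases h with h | h <;> rw [conj_refl, h]
    exact refl_neg x)).symm

theorem fix_add : c.1 (w + f) = w + f := by simp [κ.left, κ.right]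

theorem q_add : q (w + f) ≠ 0 := by simpa using (κ.hyp.Q_comb 1 1).trans_ne (by simp)

end Cf

variable [Finite F]

theorem OU.le_line (γ : OU q) {N : Submodule F U} (h : ∀ x ∈ N, q x = 0) :
    ∃ w, w ≠ 0 ∧ q w = 0 ∧ N ≤ F ∙ w := by
  rcases eq_or_ne N ⊥ with rfl | h0
  · exact let ⟨w, _, hf⟩ := γ.exists_hyp; ⟨w, hf.ne_zero, hf.left, bot_le⟩
  obtain ⟨w, hw, h0⟩ := N.exists_mem_ne_zero_of_ne_bot h0
  exact ⟨w, h0, h w hw, fun x hx => γ.w1 w x h0 (h w hw) (h x hx) (by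
    simp [polar, h _ (add_mem hw hx), h w hw, h x hx])⟩

theorem OU.exists_ns_perp (γ : OU q) (x y : U) :
    ∃ r, q r ≠ 0 ∧ polar q r x = 0 ∧ polar q r y = 0 := by
  by_contra! h
  obtain ⟨w, -, -, e⟩ := γ.le_line (N := LinearMap.ker (polarBilin q x) ⊓ LinearMap.ker (polarBilin q y))
    fun r hr => by_contra fun e => h r e ((polar_comm ..).trans hr.1) ((polar_comm ..).trans hr.2)
  have h1 := (Submodule.finrank_mono e).trans (finrank_span_le w)
  have h2 := Submodule.finrank_sup_add_finrank_inf_eq (LinearMap.ker (polarBilin q x))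
    (LinearMap.ker (polarBilin q y))
  have h3 := Submodule.finrank_le (LinearMap.ker (polarBilin q x) ⊔ LinearMap.ker (polarBilin q y))
  have h4 := finrank_ker_dual (polarBilin q x)
  have h5 := finrank_ker_dual (polarBilin q y)
  have := γ.four
  omega

theorem Sl.congr (σ : Sl q Q M T) (h : T.e = T'.e) : Sl q Q M T' :=
  ⟨σ.γ, σ.nd, σ.γ.cp_of_adj fun _ _ e => h ▸ σ.ad_e e, σ.le, fun b hb => kr_congr h b ▸ σ.su b hb⟩

end

variable {F W V : Type u} {U : Type*} [Field F] [AddCommGroup U] [Module F U] [AddCommGroup W]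
  [Module F W] [AddCommGroup V] [Module F V] {q : QuadraticForm F U} {Q : QuadraticForm F V}
  {M : Subgroup (V ≃ₗ[F] V)} {ι : Type} [DecidableEq ι] [Fintype ι] {Φ : Fam ι F U W V}
  [Finite F] [FiniteDimensional F U] [FiniteDimensional F W] [FiniteDimensional F V] [Nontrivial W]
  {g k : V ≃ₗ[F] V} {i j l m : ι} {v x y w f s : U} {b c : O q} {R : TF F U U V}

theorem St.kr_of_fix (μ : St q Q M Φ) (hv : v ≠ 0) (hg : g ∈ M)
    (h : ∀ z ∈ (Φ.T j).P (F ∙ v), g z = z) : ∃ d : O q, g = (Φ.T j).kr d.1 1 :=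
  let ⟨d, e⟩ := μ.γ.kr_of_fix (μ.stab hv hg h) hv fun _ => h _ (TF.t_mem_P1 _ _ _)
  ⟨⟨d, (μ.sl j).mem_O (e ▸ hg)⟩, e⟩

/-- The centraliser of an involution of a factor, for fields with more than three elements. -/
theorem St.cd_of_ne (μ : St q Q M Φ) (κ : Cf c w f) {t : F} (h0 : t ≠ 0) (ht : t ^ 2 ≠ 1) (hg : g ∈ M)
    (e : g * (Φ.T j).kr c.1 1 = (Φ.T j).kr c.1 1 * g) : g ∈ WG Φ := by
  obtain ⟨x, hx, h1⟩ := κ.hyp.exists_nonsingular μ.γ.nd μ.γ.three
  obtain ⟨d, e'⟩ := μ.kr_of_fix (j := j) (ne_zero_of_Q_ne_zero h1) (mul_mem (mul_mem hg (μ.so j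
    (b := hrot q w f t) (μ.γ.dickson_pair (by simp [κ.hyp.Q_sub_smul, h0])
      (by simp [κ.hyp.Q_sub_smul, -one_smul])))) (inv_mem hg)) fun z hz => by
    obtain ⟨z, rfl⟩ := g.surjective z
    have h2 := κ.vm.2 ((Φ.T j).P_mono ((Submodule.span_singleton_le_iff_mem _ _).2 hx) hz)
    simpa using (Φ.T j).P_ext (f := ((Φ.T j).kr (hrot q w f t).1 1).toLinearMap) (g := 1)
      (fun s hs u => by simp [hrot_of_hperp hs]) (κ.vm.1 (g.injective (by
        rw [map_neg, ← h2, ← LinearEquiv.mul_apply, e, LinearEquiv.mul_apply])))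
  obtain ⟨w', h2, h3, h4⟩ := μ.γ.le_line (N := LinearMap.ker (d.1.toLinearMap - t • 1)) fun x hx => by
    have := d.2 x
    rw [show d.1 x = t • x from sub_eq_zero.1 hx, Q_smul] at this
    exact (mul_eq_zero.1 (show (t ^ 2 - 1) * q x = 0 by linear_combination this)).resolve_left
      (sub_ne_zero.2 ht)
  exact μ.loc (j := j) h2 h3 κ.hyp.ne_zero κ.hyp.left hg fun u => (Φ.T j).P_mono h4 (mem_eig (by
    simp [← e', κ.hyp.hrot_left h0]))

/-- Coordinates for a tensor square. -/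
structure Sq (q : QuadraticForm F U) (Q : QuadraticForm F V) (M : Subgroup (V ≃ₗ[F] V))
    (Φ : Fam ι F U W V) (R : TF F U U V) (i j : ι) : Prop extends St q Q M Φ where
  h2 : Fintype.card ι = 2
  ne : i ≠ j
  e₁ : (Φ.T j).e = R.e
  e₂ : (Φ.T i).e = (sw R).e

theorem St.exists_sq (μ : St q Q M Φ) (h2 : Fintype.card ι = 2) (hij : i ≠ j) :
    ∃ R : TF F U U V, Sq q Q M Φ R i j := by
  have := μ.γ.nontrivial
  have hr : finrank F V = finrank F U * finrank F U := by rw [μ.rk, h2, pow_two]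
  obtain ⟨R₀, e₀⟩ := exists_tf (W := U) (Φ.T j).e hr
  obtain ⟨R₁, e₁⟩ := exists_tf (W := U) (Φ.T i).e hr
  obtain ⟨a, b, e⟩ := Sub.same (T := sw R₀) (T' := R₁) fun a => exists_sw fun c => by
    rw [e₀, e₁]; exact Φ.cm_e hij.symm a c
  refine ⟨R₀.kr 1 a • R₀, μ, h2, hij, e₀ ▸ AlgHom.ext fun c => R₀.ext' fun y u => by
    simp [TF.smul_e, TF.kr_inv], e₁ ▸ AlgHom.ext fun c => R₁.ext' fun u y => ?_⟩
  have : ∀ u, R₁.t u y = (sw (R₀.kr 1 a • R₀)).t u (b y) := fun u => by simp [e]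
  rw [R₁.e_t, this, this, TF.e_t]

namespace Sq

variable (ν : Sq q Q M Φ R i j)
include ν

theorem σ : Sl q Q M R := (ν.sl j).congr ν.e₁

theorem σ' : Sl q Q M (sw R) := (ν.sl i).congr ν.e₂

theorem kr₁ (a) : (Φ.T j).kr a 1 = R.kr a 1 := kr_congr ν.e₁ a

theorem kr₂ (a) : (Φ.T i).kr a 1 = R.kr 1 a := (kr_congr ν.e₂ a).trans (sw_kr ..)

theorem pol : ∃ t : F, t ≠ 0 ∧ ∀ y u y' u',
    polar Q (R.t y u) (R.t y' u') = t * (polar q y y' * polar q u u') := by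
  have := ν.γ.nontrivial
  obtain ⟨C, h⟩ := ν.σ.cp
  obtain ⟨C', h'⟩ := ν.σ'.cp
  obtain ⟨w, f, hf⟩ := ν.γ.exists_hyp
  have e : ∀ u u', C u u' = polar q u u' * C' w f := fun u u' => by
    simpa [hf.polar_eq] using (h w u f u').symm.trans (by simpa using h' u w u' f)
  exact ⟨C' w f, fun e' => hf.ne_zero (R.right_nondeg ν.σ.hB h fun u => by simp [e, e']),
    fun y u y' u' => (h y u y' u').trans (by simp [e]; ring)⟩

theorem kr_mem (a β) : R.kr a β ∈ WG Φ := by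
  simpa [ν.kr₁, ν.kr₂, TF.kr_mul] using mul_mem (kr_mem_WG (Φ := Φ) j a) (kr_mem_WG i β)

theorem rr₁ (hx : q x ≠ 0) (hy : q y ≠ 0) : R.kr (refl q x * refl q y).1 1 ∈ M :=
  ν.kr₁ _ ▸ ν.so j (ν.γ.dickson_pair hx hy)

theorem rr₂ (hx : q x ≠ 0) (hy : q y ≠ 0) : R.kr (refl q x).1 (refl q y).1 ∈ M := by
  simpa [ν.kr₁, ν.kr₂, TF.kr_mul] using ν.rr j i x y hx hy

theorem loc₁ {w' : U} (h0 : w ≠ 0) (hw : q w = 0) (h0' : w' ≠ 0) (hw' : q w' = 0) (hg : g ∈ M)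
    (h : ∀ u, g (R.t w' u) ∈ R.P (F ∙ w)) : g ∈ WG Φ :=
  ν.loc (i := j) (j := j) h0 hw h0' hw' hg fun u => by
    obtain ⟨u', e⟩ := R.mem_P1.1 (P_le_congr ν.e₁ _ ((Φ.T j).t_mem_P1 w' u))
    exact e ▸ P_le_congr ν.e₁.symm _ (h u')

theorem of_fix (hv : v ≠ 0) (hg : g ∈ M) (h : ∀ u, g (R.t v u) = R.t v u) :
    ∃ d : O q, g = R.kr d.1 1 := by
  simpa only [ν.kr₁] using ν.kr_of_fix (j := j) hv hg fun z hz => by
    obtain ⟨u, rfl⟩ := R.mem_P1.1 (P_le_congr ν.e₁ _ hz)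
    exact h u

theorem exists_kr (h : Zt c) (hg : g ∈ WG Φ) (e : g * R.kr c.1 1 = R.kr c.1 1 * g) :
    ∃ a β, g = R.kr a β ∧ a * c.1 = c.1 * a := by
  have := ν.γ.nontrivial
  obtain ⟨a, β, rfl⟩ := Sub.exists_kr (T := R) (g := g) fun a => by
    simpa only [smul_e', ν.e₁] using sub_of_comm (j := j) hg (ν.γ.kr_notMem h) (by rwa [ν.kr₁]) a
  exact ⟨a, β, rfl, comm_of_kr e⟩

/-- Fusion of `p`-elements in the centraliser. -/
theorem pf (p : ℕ) [Fact p.Prime] [CharP F p] (h : Zt c) (hk : k ∈ M) (hk' : k ∈ WG Φ) (h1 : k ^ p = 1)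
    (e : k * R.kr c.1 1 = R.kr c.1 1 * k) : ∃ d, k = (Φ.T i).kr d 1 :=
  ν.slot ν.h2 ν.ne (ν.cm_of_pow p h hk hk' h1 (by rwa [ν.kr₁]))

theorem pf' (p : ℕ) [Fact p.Prime] [CharP F p] (h : Zt c) (hk : k ∈ M ⊓ Subgroup.centralizer {R.kr c.1 1})
    (hk' : k ∈ WG Φ) (h0 : k ≠ 1) (h1 : k ^ p = 1) (hg : g ∈ M ⊓ Subgroup.centralizer {R.kr c.1 1})
    (e : g * k * g⁻¹ ∈ WG Φ) : g ∈ WG Φ := by
  have h2 := mul_mem (mul_mem hg hk) (inv_mem hg)
  obtain ⟨d', e'⟩ := ν.pf p h h2.1 e (by simp [conj_pow, h1]) (h2.2 _ rfl).symm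
  obtain ⟨d, rfl⟩ := ν.pf p h hk.1 hk' h1 (hk.2 _ rfl).symm
  exact ν.pfus p hk.1 h0 h1 hg.1 e'

end Sq

end Cfsg.Lib.TQ
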