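import Cfsg.Agent.Lib.TQ.Geo

/-!
# Unipotent elements and anisotropic tori of four-dimensional orthogonal groups
-/

set_option autoImplicit false
set_option linter.unusedSectionVars false

namespace Cfsg.Lib.TQ

open Module QuadraticMap Cfsg.Lib.TW Cfsg.Lib.TMax Function Cfsg.Lib.TO
open Cfsg.Lib.Orth
open Cfsg.Lib.Unitary (UG)
open scoped commutatorElement

variable {F U : Type*} [Field F] [AddCommGroup U] [Module F U] {q : QuadraticForm F U}
  {u v x y w : U} {a : U ≃ₗ[F] U} {b d : O q} {n : ℕ} {c : F}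

/-- Odd prime divisors of `q² + 1`. -/
structure Rp (F : Type*) (n : ℕ) : Prop where
  prime : n.Prime
  odd : n ≠ 2
  dvd : n ∣ Nat.card F ^ 2 + 1

theorem exists_rp [Finite F] (h2 : (2 : F) ≠ 0) : ∃ n, Rp F n := by
  have := Fintype.ofFinite F
  have h1 := FiniteField.odd_card_of_char_ne_two (F := F)
    fun e => h2 (by simpa [e] using ringChar.Nat.cast_ringChar (R := F))
  have h3 := Fintype.one_lt_card (α := F)
  obtain ⟨m, hm⟩ : ∃ m, Nat.card F = 2 * m + 3 := ⟨(Fintype.card F - 3) / 2, by simp; omega⟩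
  obtain ⟨n, h4, h5⟩ := Nat.exists_prime_and_dvd (n := 2 * (m ^ 2 + 3 * m + 2) + 1) (by omega)
  exact ⟨n, h4, by rintro rfl; omega, h5.trans ⟨2, by rw [hm]; ring⟩⟩

theorem Rp.coprime [Finite F] (h : Rp F n) : n.Coprime (Nat.card F - 1) :=
  h.prime.coprime_iff_not_dvd.2 fun e => h.odd ((Nat.prime_dvd_prime_iff_eq h.prime Nat.prime_two).1 (by
    obtain ⟨m, hm⟩ : ∃ m, Nat.card F = m + 1 := ⟨_, (Nat.succ_pred_eq_of_pos Nat.card_pos).symm⟩
    have := h.dvd
    rw [hm, show (m + 1) ^ 2 + 1 = m * (m + 2) + 2 by ring] at this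
    exact (Nat.dvd_add_right (Dvd.dvd.mul_right (by simpa [hm] using e) _)).1 this))

theorem exists_top {N : End F U} (h : N ^ n = 0) (h0 : N ≠ 0) :
    ∃ k x, N ^ (k + 2) = 0 ∧ (N ^ (k + 1)) x ≠ 0 := by
  by_contra! h1
  have k : ∀ n, N ^ (n + 1) = 0 → N = 0 := fun n => by
    induction n with
    | zero => simp
    | succ n ih => exact fun e => ih (LinearMap.ext (h1 n · e))
  exact h0 (k n (by simp [pow_succ, h]))

theorem sub_one_pow (p : ℕ) [Fact p.Prime] [CharP F p] [Nontrivial U] (h : a ^ p = 1) :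
    (a.toLinearMap - 1) ^ p = 0 := by
  have : CharP (End F U) p := charP_of_injective_algebraMap (algebraMap F _).injective p
  rw [sub_pow_char_of_commute _ (Commute.one_right _), one_pow, sub_eq_zero]
  exact LinearMap.ext fun x => by
    simpa [LinearEquiv.pow_apply, End.pow_apply] using LinearEquiv.congr_fun h x

theorem pair_ind (hc : ¬ IsSquare c) (h : ∀ x, a (a x) = c • x) (hu : u ≠ 0) :
    LinearIndependent F ![u, a u] := (LinearIndependent.pair_iff' hu).2 fun t e =>
  hc ⟨t, smul_left_injective F hu (by simp [← h, ← e, mul_smul])⟩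

variable [Finite F] [FiniteDimensional F U]

theorem Rp.fix (h : Rp F n) {d : End F U} (hd : d ^ n = 1) :
    d = 1 ∨ finrank F (LinearMap.ker (d - 1)) + 4 ≤ finrank F U := by
  classical
  have := Fact.mk h.prime
  have := finite_of_finite F (M := U)
  have := Fintype.ofFinite U
  have h1 := Equiv.Perm.card_fixedPoints_modEq (f := (⇑d : Function.End U)) (p := n) (n := 1)
    ((hom_coe_pow (fun g : Function.End U => g) rfl (fun _ _ => rfl) _ _).trans
      (funext fun x => show _ = x by simpa [End.pow_apply] using LinearMap.congr_fun hd x))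
  rw [← Nat.card_eq_fintype_card, ← Nat.card_eq_fintype_card, Nat.card_congr (Equiv.subtypeEquivRight
    (q := (· ∈ LinearMap.ker (d - 1))) fun x => by simp [sub_eq_zero, IsFixedPt]),
    natCard_eq_pow_finrank (K := F), natCard_eq_pow_finrank (K := F) (V := LinearMap.ker (d - 1)),
    ← ZMod.natCast_eq_natCast_iff] at h1
  obtain ⟨k, hk⟩ := Nat.exists_eq_add_of_le (LinearMap.ker (d - 1)).finrank_le
  have h2 := (ZMod.natCast_eq_zero_iff _ _).2 h.dvd
  have h3 : (2 : ZMod n) ≠ 0 := fun e => h.odd ((Nat.prime_dvd_prime_iff_eq h.prime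
    Nat.prime_two).1 ((ZMod.natCast_eq_zero_iff 2 n).1 e))
  push_cast at h1 h2
  rw [hk, pow_add, mul_right_eq_self₀, or_iff_left (pow_ne_zero _ fun e => by simp [e] at h2)] at h1
  rcases (show k = 0 ∨ k = 1 ∨ k = 2 ∨ k = 3 ∨ 4 ≤ k by omega) with rfl | rfl | rfl | rfl | e
  · exact .inl (sub_eq_zero.1 (LinearMap.ker_eq_top.1 (Submodule.eq_top_of_finrank_eq hk.symm)))
  · exact (h3 (by linear_combination h2 - (Nat.card F + 1) * h1)).elim
  · exact (h3 (by linear_combination h2 - h1)).elim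
  · exact (h3 (by linear_combination (1 + Nat.card F - Nat.card F ^ 2) * h2 +
      (Nat.card F - 1) * h1)).elim
  · exact .inr (by omega)

theorem Rp.fix_of_le (h : Rp F n) {d : End F U} (hd : d ^ n = 1) {S : Submodule F U}
    (hS : ∀ x ∈ S, d x ∈ S) (h3 : finrank F S ≤ 3) {x} (hx : x ∈ S) : d x = x :=
  congrArg Subtype.val (LinearMap.congr_fun ((h.fix (d := d.restrict hS) (by
    rw [End.pow_restrict]; ext; simp [hd])).resolve_right (by omega)) ⟨x, hx⟩)

theorem Rp.cyc (h : Rp F n) (h4 : finrank F U = 4) {d : End F U} (hd : d ^ n = 1) (h1 : d ≠ 1)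
    (hx : x ≠ 0) (z : U) : ∃ f ∈ Algebra.adjoin F {d}, f x = z := by
  let S := (Algebra.adjoin F {d}).toSubmodule.map (LinearMap.applyₗ x)
  by_contra h2
  have h3 := Submodule.finrank_lt (s := S) fun e => h2 (e.ge (Submodule.mem_top (x := z)))
  have := (h.fix hd).resolve_left h1
  exact hx ((Submodule.finrank_eq_zero.1 (show finrank F (LinearMap.ker (d - 1)) = 0 by omega)).le
    (sub_eq_zero.2 (h.fix_of_le hd (S := S) (by
      rintro _ ⟨f, hf, rfl⟩
      exact ⟨d * f, Subalgebra.mul_mem _ (Algebra.self_mem_adjoin_singleton F d) hf, rfl⟩) (by omega)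
        ⟨1, Subalgebra.one_mem _, rfl⟩)))

namespace OU

variable (γ : OU q)
include γ

theorem eq_one_of_rp (hn : Rp F n) (h : Zt b) (hd : d ^ n = 1) (e : d * b = b * d) : d = 1 := by
  have e1 : ∀ x, d.1 (b.1 x) = b.1 (d.1 x) := fun x => congrArg (·.1 x) e
  have h1 : d.1.toLinearMap ^ n = 1 := LinearMap.ext fun x => by
    simpa [LinearEquiv.pow_apply, End.pow_apply] using congrArg (·.1 x) hd
  refine O.ext fun x => smul_right_injective U γ.two ?_
  have k1 := hn.fix_of_le h1 (S := O.fix b) (fun x hx => O.mem_fix.2 (by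
    simp [← e1, O.mem_fix.1 hx])) (by simp [γ.zt_fix h]) (x := b.1 x + x)
      (O.mem_fix.2 (by simp [sq_apply h.sq, add_comm]))
  have k2 := hn.fix_of_le h1 (S := O.comm b) (fun x hx => (mem_comm_iff γ.two h.sq).2 (by
    simp [← e1, (mem_comm_iff γ.two h.sq).1 hx])) (by simp [h.two]) (O.sub_mem_comm b x)
  simp only [map_add, map_sub, LinearEquiv.coe_coe] at k1 k2
  simp only [O.one_apply]
  linear_combination (norm := module) k1 - k2

theorem top {k : ℕ} (h : (d.1.toLinearMap - 1) ^ (k + 2) = 0)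
    (hx : ((d.1.toLinearMap - 1) ^ (k + 1)) x ≠ 0) : q (((d.1.toLinearMap - 1) ^ (k + 1)) x) = 0 ∧
      ∀ y, ((d.1.toLinearMap - 1) ^ (k + 1)) y ∈ F ∙ ((d.1.toLinearMap - 1) ^ (k + 1)) x := by
  have k1 : ∀ x y, polar q (((d.1.toLinearMap - 1) ^ (k + 1)) x)
      (((d.1.toLinearMap - 1) ^ (k + 1)) y) = 0 := fun x y =>
    mem_perp.1 (O.perp_comm γ.nd d ▸ O.mem_fix.2 (sub_eq_zero.1 (by
      simpa [pow_succ' _ (k + 1)] using LinearMap.congr_fun h y))) _
        (O.mem_comm.2 ⟨_, by rw [pow_succ']; rfl⟩)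
  have k2 : ∀ x, q (((d.1.toLinearMap - 1) ^ (k + 1)) x) = 0 := fun x => by
    simpa [polar_self', γ.two] using k1 x x
  exact ⟨k2 x, fun y => γ.w1 _ _ hx (k2 x) (k2 y) (k1 x y)⟩

theorem eq_one_of_unip (p : ℕ) [Fact p.Prime] [CharP F p] (h : Zt b) (hd : d ^ p = 1)
    (e : d * b = b * d) : d = 1 := by
  have := γ.nontrivial
  by_contra h1
  obtain ⟨k, x, h2, h3⟩ := exists_top (sub_one_pow p (congrArg Subtype.val hd))
    fun e => h1 (O.ext fun x => sub_eq_zero.1 (LinearMap.congr_fun e x))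
  have k1 : ∀ {b : O q} {x}, Zt b → d * b = b * d → b.1 x = x →
      ((d.1.toLinearMap - 1) ^ (k + 1)) x = 0 := fun {b x} h e hx => by
    by_contra h4
    have e1 : Commute d.1.toLinearMap b.1.toLinearMap :=
      congrArg (fun g : O q => g.1.toLinearMap) e
    have e2 := LinearMap.congr_fun ((e1.sub_left (Commute.one_left _)).pow_left (k + 1)).eq x
    have e3 := LinearMap.congr_fun e1.eq x
    have e4 := LinearMap.congr_fun h2 x
    have e5 : ((d.1.toLinearMap - 1) ^ (k + 1)) (((d.1.toLinearMap - 1) ^ (k + 1)) x) = 0 := by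
      rw [← End.mul_apply, ← pow_add, pow_eq_zero_of_le (by omega) h2]; rfl
    have e6 : ((d.1.toLinearMap - 1) ^ (k + 1)) (d.1 x - x) = 0 := by rwa [pow_succ] at e4
    have e7 := (γ.top h2 h4).1
    have e8 : ((d.1.toLinearMap - 1) ^ (k + 1)) x ∈ O.comm d := ⟨_, by rw [pow_succ']; rfl⟩
    simp only [End.mul_apply, LinearEquiv.coe_coe, hx] at e2 e3
    generalize (d.1.toLinearMap - 1) ^ (k + 1) = N at *
    have e9 : Submodule.span F {N x, x} = O.fix b := Submodule.eq_of_le_of_finrank_eq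
      (Submodule.span_le.2 (by rintro _ (rfl | rfl); exacts [O.mem_fix.2 e2.symm, O.mem_fix.2 hx])) (by
        rw [γ.zt_fix h, Unitary.finrank_span_pair_of_linearIndependent ((LinearIndependent.pair_iff'
          h4).2 fun t e => h4 (by rw [← e, map_smul, e5, smul_zero]))])
    have e10 : polar q (N x) x ≠ 0 := fun e => h4 ((smul_eq_zero_iff_right γ.two).1 (by
      linear_combination (norm := module) (mem_comm_iff γ.two h.sq).1 (O.perp_fix γ.nd b ▸ e9 ▸
        Orth.mem_perp_pair.2 ⟨polar_sing e7, (polar_comm _ _ _).trans e⟩) + e2))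
    obtain ⟨s, t, e11⟩ := Submodule.mem_span_pair.1 (e9.ge (O.mem_fix.2 e3.symm))
    rw [← e11, map_sub, map_add, map_smul, map_smul, e5, smul_zero, zero_add, sub_eq_zero] at e6
    obtain rfl : t = 1 := smul_left_injective F h4 (by simpa using e6)
    have e12 := congrArg q e11
    simp [Q_add, Q_smul, e7, e10] at e12
    exact e10 (mem_perp.1 (O.perp_comm γ.nd d ▸ O.mem_fix.2 (by simpa [e12] using e11.symm)) _ e8)
  have k2 := k1 h e (x := b.1 x + x) (by simp [sq_apply h.sq, add_comm])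
  have k3 := k1 (γ.zt_neg h) (by rw [← mul_assoc, neg_comm, mul_assoc, e, mul_assoc])
    (x := b.1 x - x) (by simp [sq_apply h.sq])
  rw [map_add] at k2
  rw [map_sub] at k3
  exact h3 ((smul_eq_zero_iff_right γ.two).1 (by linear_combination (norm := module) k2 - k3))

variable (hc : ¬ IsSquare c) (h : ∀ x, a (a x) = c • x) (hs : ∀ x y, polar q (a x) y = polar q x (a y))
include hc h hs

theorem nd_line (hv : v ∈ Submodule.span F {u, a u}) (h1 : polar q u v = 0)
    (h2 : polar q (a u) v = 0) : v = 0 := by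
  obtain ⟨s, t, e⟩ := Submodule.mem_span_pair.1 hv
  have h3 : polar q v v = 0 := by nth_rewrite 1 [← e]; simp [polar_add_left, h1, h2]
  have h4 : polar q (a v) v = 0 := by nth_rewrite 1 [← e]; simp [polar_add_left, h1, h2, h]
  by_contra h0
  exact (LinearIndependent.pair_iff' h0).1 (pair_ind hc h h0) _ (Submodule.mem_span_singleton.1
    (γ.w1 v (a v) h0 (by simpa [polar_self', γ.two] using h3) (mul_left_cancel₀ γ.two (by
      rw [← polar_self', ← hs, h, polar_smul_left', h3]; simp)) (hs v v ▸ h4))).choose_spec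

theorem span_four (hu : u ≠ 0) (hv : v ≠ 0) (h1 : polar q u v = 0) (h2 : polar q (a u) v = 0) (z : U) :
    ∃ x ∈ Submodule.span F {u, a u}, ∃ y ∈ Submodule.span F {v, a v}, x + y = z := by
  have h3 := isCompl_perp (nd_restrict_iff.2 fun v hv e => γ.nd_line hc h hs hv
    ((polar_comm _ _ _).trans (e u (Submodule.subset_span (by simp))))
    ((polar_comm _ _ _).trans (e _ (Submodule.subset_span (by simp)))))
  have h4 := finrank_add_finrank_perp γ.nd (Submodule.span F {u, a u})
  rw [Unitary.finrank_span_pair_of_linearIndependent (pair_ind hc h hu), γ.four] at h4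
  rw [← Submodule.mem_sup, Submodule.eq_of_le_of_finrank_eq (S₁ := Submodule.span F {v, a v})
    (S₂ := perp q (Submodule.span F {u, a u})) (Submodule.span_le.2 (by
      rintro _ (rfl | rfl)
      exacts [Orth.mem_perp_pair.2 ⟨h1, h2⟩, Orth.mem_perp_pair.2 ⟨hs u v ▸ h2, by
        simp [← hs, h, h1]⟩])) (by
          rw [Unitary.finrank_span_pair_of_linearIndependent (pair_ind hc h hv)]; omega), h3.sup_eq_top]
  trivial

theorem exists_skew : ∃ J : End F U, (∀ x, J (a x) = a (J x)) ∧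
    (∀ x y, polar q (J x) y = -polar q x (J y)) ∧ ∀ u, u ≠ 0 → J u ≠ 0 := by
  have := γ.nontrivial
  have h0 : c ≠ 0 := ne_zero_of_not_isSquare hc
  have k : ∀ u, ∃ v, v ≠ 0 ∧ polar q u v = 0 ∧ polar q (a u) v = 0 := fun u => by
    obtain ⟨v, h1, h2⟩ := Submodule.exists_mem_ne_zero_of_ne_bot
      (p := perp q (Submodule.span F {u, a u})) fun e => by
        have := finrank_add_finrank_perp γ.nd (Submodule.span F {u, a u})
        have := finrank_span_pair_le (F := F) u (a u)
        have := γ.four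
        rw [e, finrank_bot] at *
        omega
    exact ⟨v, h2, Orth.mem_perp_pair.1 h1⟩
  obtain ⟨s, h1⟩ := γ.nd.exists_Q_ne
  obtain ⟨t, h2, h3, h4⟩ := k s
  let J := sk q t s + c⁻¹ • (a.toLinearMap * sk q t s * a.toLinearMap)
  have k1 : ∀ x, J (a x) = a (J x) := fun x => by simp [J, h, h0, smul_smul, add_comm]
  have k2 : ∀ x y, polar q (J x) y = -polar q x (J y) := fun x y => by
    have e1 := ad_sk (q := q) t s x y
    have e2 := ad_sk (q := q) t s (a x) (a y)
    simp only [polarBilin_apply_apply, LinearMap.neg_apply, polar_neg_right] at e1 e2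
    simp [J, polar_add_left, polar_add_right, e1, hs, e2]
    ring
  have k3 : ∀ x, polar q x (J x) = 0 := fun x => mul_left_cancel₀ γ.two (by
    linear_combination k2 x x + polar_comm q x (J x))
  refine ⟨J, k1, k2, fun u hu e => ?_⟩
  obtain ⟨v, h5, h6, h7⟩ := k u
  have k4 : ∀ z, polar q u z = 0 ∧ polar q (a u) z = 0 ∧ polar q v z = 0 ∧ polar q (a v) z = 0 →
      z = 0 := fun z e => γ.nd.eq_zero fun y => by
      obtain ⟨_, hx, _, hy, rfl⟩ := γ.span_four hc h hs hu h5 h6 h7 y
      obtain ⟨_, _, rfl⟩ := Submodule.mem_span_pair.1 hx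
      obtain ⟨_, _, rfl⟩ := Submodule.mem_span_pair.1 hy
      simp [polar_comm q z, polar_add_left, e]
  have k5 : J v = 0 := k4 _ (by
    have e1 := k2 u v
    have e2 := k2 (a u) v
    have e3 := k2 (a v) v
    simp [k1, e] at e1 e2
    rw [k1, hs, polar_comm] at e3
    simp [e1, e2, k3, (smul_eq_zero_iff_right γ.two).1 (show (2 : F) • polar q (a v) (J v) = 0 by
      linear_combination e3)])
  obtain ⟨_, hx, _, hy, e'⟩ := γ.span_four hc h hs hu h5 h6 h7 s
  obtain ⟨_, _, rfl⟩ := Submodule.mem_span_pair.1 hx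
  obtain ⟨_, _, rfl⟩ := Submodule.mem_span_pair.1 hy
  have k6 : J s = 0 := by simp [← e', k1, e, k5]
  simp only [J, LinearMap.add_apply, LinearMap.smul_apply, End.mul_apply, sk_apply,
    LinearEquiv.coe_coe, polar_comm q t, h3, h4, zero_smul, sub_zero, map_smul, smul_smul] at k6
  simpa [polar_self', γ.two, h1] using ((LinearIndependent.pair_iff.1 (pair_ind hc h h2)) _ _ k6).1

/-- A similarity of non-square multiplier centralises an anisotropic torus. -/
theorem exists_torus (hn : Rp F n) : ∃ y : O q, y ^ n = 1 ∧ y ≠ 1 ∧ a * y.1 = y.1 * a := by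
  classical
  have := γ.nontrivial
  have := Fact.mk hn.prime
  have := finite_equiv (F := F) (V := U)
  have := finite_of_finite F (M := U)
  obtain ⟨J, k1, k2, k3⟩ := γ.exists_skew hc h hs
  let L := Subalgebra.centralizer F {a.toLinearMap, J}
  have l1 : ∀ {X}, X ∈ L ↔ (∀ x, X (a x) = a (X x)) ∧ ∀ x, X (J x) = J (X x) := by
    simp only [L, Subalgebra.mem_centralizer_iff, Set.mem_insert_iff, Set.mem_singleton_iff,
      forall_eq_or_imp, forall_eq]
    simp [LinearMap.ext_iff, eq_comm]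
  have k4 : ∀ {K N : End F U}, (∀ x y, polar q (K x) y = -polar q x (K y)) →
      (∀ x y, polar q (N x) y = polar q x (N y)) → (∀ x, N (K x) = K (N x)) →
        ∀ u, polar q (N u) (K u) = 0 := fun {K N} e1 e2 e3 u => mul_left_cancel₀ γ.two (by
    linear_combination e2 u (K u) + e1 u (N u) + polar_comm q (N u) (K u) + congrArg (polar q u) (e3 u))
  have k5 := fun u hu => γ.span_four hc h hs hu (k3 u hu) (k4 (N := 1) k2 (by simp) (by simp) u)
    (k4 (N := a.toLinearMap) k2 hs (fun x => (k1 x).symm) u)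
  have k6 : ∀ X ∈ L, ∀ u ≠ 0, X u = 0 → X = 0 := fun X hX u hu e => LinearMap.ext fun z => by
    obtain ⟨_, hx, _, hy, rfl⟩ := k5 u hu z
    obtain ⟨_, _, rfl⟩ := Submodule.mem_span_pair.1 hx
    obtain ⟨_, _, rfl⟩ := Submodule.mem_span_pair.1 hy
    simp [l1.1 hX, e]
  obtain ⟨u, hu⟩ := exists_ne (0 : U)
  have k7 : ∀ z, ∃ X ∈ L, X u = z ∧ ∀ Y ∈ L, Y * X = X * Y := fun z => by
    obtain ⟨_, hx, _, hy, rfl⟩ := k5 u hu z
    obtain ⟨s, t, rfl⟩ := Submodule.mem_span_pair.1 hx
    obtain ⟨s', t', rfl⟩ := Submodule.mem_span_pair.1 hy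
    exact ⟨s • 1 + t • a.toLinearMap + (s' • J + t' • (a.toLinearMap * J)), l1.2 (by simp [k1]),
      by simp, fun Y hY => LinearMap.ext fun x => by simp [l1.1 hY]⟩
  let G : Subgroup (U ≃ₗ[F] U) :=
    { carrier := {g | g.toLinearMap ∈ L}
      mul_mem' := L.mul_mem
      one_mem' := L.one_mem
      inv_mem' := fun {g} h => l1.2
        ⟨fun x => g.injective (by simpa using ((l1.1 h).1 (g.symm x)).symm),
          fun x => g.injective (by simpa using ((l1.1 h).2 (g.symm x)).symm)⟩ }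
  have g1 : ∀ {g}, g ∈ G → g.toLinearMap ∈ L := id
  have g2 : Nat.card G = Nat.card F ^ 4 - 1 := by
    rw [← γ.four, ← natCard_eq_pow_finrank, Nat.card_congr (Equiv.ofBijective
      (fun g : G => (⟨g.1 u, by simpa⟩ : {z : U // z ≠ 0})) ⟨fun g g' e => ?_, fun z => ?_⟩)]
    · have := Fintype.ofFinite U
      simp
    · exact Subtype.ext (LinearEquiv.toLinearMap_injective (sub_eq_zero.1 (k6 _
        (sub_mem (g1 g.2) (g1 g'.2)) u hu (sub_eq_zero.2 (congrArg Subtype.val e)))))
    obtain ⟨X, h1, h2, -⟩ := k7 z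
    let g := LinearEquiv.ofInjectiveEndo X ((injective_iff_map_eq_zero _).2 fun x e =>
      by_contra fun e' => z.2 (by simp [← h2, k6 X h1 x e' e]))
    exact ⟨⟨g, h1⟩, Subtype.ext h2⟩
  obtain ⟨x, h1, h2, h3⟩ := (exists_order (p := n) (X := G)).1 (g2 ▸ hn.dvd.trans
    ⟨Nat.card F ^ 2 - 1, by rw [← Nat.sq_sub_sq, ← pow_mul]⟩)
  replace h1 := g1 h1
  obtain ⟨x', e⟩ := γ.ef.exists_adj x.toLinearMap
  simp only [polarBilin_apply_apply, LinearEquiv.coe_coe] at e
  have h4 : x' ∈ L := l1.2 ⟨fun z => γ.nd.ext fun y => by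
      rw [polar_comm, ← e, ← hs, polar_comm q _ y, ← hs, ← e]; exact congrArg (polar q · z) ((l1.1 h1).1 y).symm,
    fun z => γ.nd.ext fun y => by
      have e1 := congrArg (polar q · z) ((l1.1 h1).2 y)
      simp only [LinearEquiv.coe_coe, e, k2] at e1
      rw [polar_comm, polar_comm q _ y]
      exact neg_injective e1.symm⟩
  have h5 : Commute x' x.toLinearMap := by
    obtain ⟨X, h5, h6, h7⟩ := k7 (x u)
    rw [← sub_eq_zero.1 (k6 _ (sub_mem h5 h1) u hu (sub_eq_zero.2 h6))]
    exact h7 _ h4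
  have h6 : ∀ m y z, polar q ((x ^ m) y) z = polar q y ((x' ^ m) z) := fun m => by
    induction m with
    | zero => simp
    | succ m ih => intro y z; rw [pow_succ', pow_succ, LinearEquiv.mul_apply, e, ih]; rfl
  have h7 : (x' * x.toLinearMap) ^ n = 1 := LinearMap.ext fun z => γ.nd.ext fun y => by
    rw [h5.mul_pow, polar_comm, End.mul_apply, ← h6, End.pow_apply, LinearEquiv.coe_coe,
      ← LinearEquiv.pow_apply, h3, polar_comm]
    rfl
  have h8 := l1.1 (mul_mem h4 h1)
  have h9 : ∀ y z, polar q ((x' * x.toLinearMap) y) z = polar q y ((x' * x.toLinearMap) z) :=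
    fun y z => by rw [polar_comm, End.mul_apply, End.mul_apply, ← e, ← e, polar_comm]; rfl
  have h10 : x' * x.toLinearMap = 1 := by
    generalize x' * x.toLinearMap = N at *
    have h11 : N u ∈ Submodule.span F {u, a u} := by
      obtain ⟨y, hy, z, hz, e⟩ := k5 u hu (N u)
      obtain ⟨s, t, rfl⟩ := Submodule.mem_span_pair.1 hy
      have e1 := k4 k2 h9 h8.2 u
      have e2 := k4 (K := a.toLinearMap * J) (fun x y => by simp [hs, k2, k1]) h9 (by simp [h8]) u
      have e3 := k4 (N := 1) k2 (by simp) (by simp) u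
      have e4 := k4 (N := a.toLinearMap) k2 hs (fun x => (k1 x).symm) u
      simp [← e, polar_add_left, ← hs, h] at e1 e2 e3 e4
      rwa [← e, γ.nd_line hc h hs hz (by simpa [e3, e4, polar_comm q z] using e1)
        (by simpa [e3, e4, polar_comm q (a z), hs] using e2), add_zero]
    refine sub_eq_zero.1 (k6 _ (sub_mem (l1.2 h8) (one_mem _)) u hu (sub_eq_zero.2
      (hn.fix_of_le h7 (S := Submodule.span F {u, a u}) (fun y hy => ?_)
        ((finrank_span_pair_le _ _).trans (by decide)) (Submodule.subset_span (by simp)))))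
    obtain ⟨s, t, rfl⟩ := Submodule.mem_span_pair.1 hy
    obtain ⟨s', t', e⟩ := Submodule.mem_span_pair.1 h11
    exact Submodule.mem_span_pair.2 ⟨s * s' + t * t' * c, s * t' + t * s', by
      simp [h8, ← e, h]; module⟩
  exact ⟨⟨x, mem_O_of_UG γ.two fun y z => (e _ _).trans (congrArg (polar q y)
    (LinearMap.congr_fun h10 z))⟩, Subtype.ext h3, fun e => h2 (congrArg Subtype.val e),
      LinearEquiv.ext fun z => ((l1.1 h1).1 z).symm⟩

end OU

end Cfsg.Lib.TQ
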