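import Cfsg.Agent.Lib.TQ.Refl

/-!
# The tensor square of a four-dimensional orthogonal space: fusion of involutions
-/

set_option autoImplicit false
set_option linter.unusedSectionVars false

namespace Cfsg.Lib.TQ

open Module QuadraticMap Cfsg.Lib.TW Cfsg.Lib.TMax Function Cfsg.Lib.TO
open Cfsg.Lib.Orth
open Cfsg.Lib.Unitary (UG)
open scoped commutatorElement

universe u

theorem of_zpowers {G : Type*} [Group G] {u n : G} (h : u * u = 1) (hn : n ∈ Subgroup.zpowers u) :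
    n = 1 ∨ n = u := by
  obtain ⟨n, rfl⟩ := hn
  obtain ⟨n, rfl | rfl⟩ := Int.even_or_odd' n <;> simp [zpow_add, zpow_mul, pow_two, h]

section

variable {F U W V : Type*} [Field F] [AddCommGroup U] [Module F U] [AddCommGroup W] [Module F W]
  [AddCommGroup V] [Module F V] {q : QuadraticForm F U} {Q : QuadraticForm F V}
  {T T' : TF F U W V} {M : Subgroup (V ≃ₗ[F] V)} {g k : V ≃ₗ[F] V} {v x y w s : U} {b c : O q}
  {a : U ≃ₗ[F] U} {ι : Type*} [DecidableEq ι] [Fintype ι] {Φ : Fam ι F U W V} {i j l m : ι}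

theorem Zt.kr_sq (h : Zt b) (T : TF F U W V) : T.kr b.1 1 * T.kr b.1 1 = 1 := by
  rw [← kr_mul', ← Subgroup.coe_mul, h.sq]; simp

theorem plane_sq (h2 : (2 : F) ≠ 0) (hx : q x ≠ 0) (hy : q y ≠ 0) (e : polar q x y = 0) {l : F}
    (hs : Sim q a l) (h : polar q (a (a x)) y = polar q x (a (a y)))
    (h1 : ∀ u, (refl q x * refl q y).1 u = -u → (refl q x * refl q y).1 (a u) = -a u) :
    ∃ t : F, ∀ u, (refl q x * refl q y).1 u = -u → a (a u) = t • u := by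
  have k : ∀ u, (refl q x * refl q y).1 u = -u → ∃ α β : F, u = α • x + β • y := fun u hu =>
    ⟨(2 * q x)⁻¹ * polar q x u, (2 * q y)⁻¹ * polar q y u, smul_right_injective U h2 (by
      simp only [O.mul_apply, refl_apply, polar_sub_right, polar_smul_right', e] at hu
      linear_combination (norm := skip) hu
      match_scalars <;> field_simp <;> ring)⟩
  obtain ⟨α, β, e1⟩ := k _ (h1 x (by
    simp [refl_apply_self hx, refl_apply_of_perp ((polar_comm _ _ _).trans e)]))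
  obtain ⟨γ, δ, e2⟩ := k _ (h1 y (by simp [refl_apply_self hy, refl_apply_of_perp e]))
  have s1 := hs x x
  have s2 := hs y y
  have s3 := hs x y
  simp only [e1, e2, map_add, map_smul, polar_add_left, polar_add_right, polar_smul_left',
    polar_smul_right', polar_self', polar_comm q y x, e] at h s1 s2 s3
  have l0 : l ≠ 0 := by rintro rfl; simp [h2, hx] at s1
  obtain ⟨k1, k2, k3⟩ : β * (α + δ) = 0 ∧ γ * (α + δ) = 0 ∧ δ ^ 2 = α ^ 2 := by
    by_cases h0 : α + δ = 0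
    · exact ⟨by simp [h0], by simp [h0], by linear_combination (δ - α) * h0⟩
    have k2 : γ = 0 := mul_left_cancel₀ (mul_ne_zero (mul_ne_zero (mul_ne_zero l0 h2) hx) h0) (by
      linear_combination -s3 - l * δ / (α + δ) * h * 0 - (l * δ) * ((mul_left_cancel₀ h0 (by
        linear_combination h) : 2 * β * q y = 2 * γ * q x)))
    have k1 : β = 0 := mul_left_cancel₀ (mul_ne_zero (mul_ne_zero h2 hy) h0) (by
      rw [k2] at h; linear_combination h)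
    subst k1 k2
    simp only [zero_smul, add_zero, zero_add, Q_smul] at s1 s2
    exact ⟨by simp, by simp, mul_left_cancel₀ (mul_ne_zero (mul_ne_zero (mul_ne_zero l0 h2) hx) hy) (by
      linear_combination q y * s1 - q x * s2)⟩
  refine ⟨α ^ 2 + β * γ, fun u hu => ?_⟩
  obtain ⟨σ, τ, rfl⟩ := k u hu
  simp only [e1, e2, map_add, map_smul]
  match_scalars
  · linear_combination τ * k2
  · linear_combination σ * k1 + τ * k3

variable [FiniteDimensional F U]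

/-- An involution interchanging the factors of a tensor square has non-zero trace. -/
theorem trace_swap [FiniteDimensional F V] [Nontrivial V] (h0 : (finrank F U : F) ≠ 0) (hg : g * g = 1)
    (h : ∀ a, Cm T ((g • T).e a)) (h' : ∀ Y, Cm T Y → ∃ a, Y = (g • T).e a) :
    LinearMap.trace F V g.toLinearMap ≠ 0 := fun e => by
  have : Nontrivial U := nontrivial_of_finrank_pos (R := F) (Nat.pos_of_ne_zero fun e => h0 (by simp [e]))
  have e1 : ∀ a, (g • T).e a * g.toLinearMap = g.toLinearMap * T.e a := fun a =>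
    LinearMap.ext fun x => by simp [TF.smul_e]
  have e2 : ∀ a, g.toLinearMap * (g • T).e a = T.e a * g.toLinearMap := fun a =>
    LinearMap.ext fun x => by
      simp [TF.smul_e, inv_eq_of_mul_eq_one_right hg, show ∀ y, g (g y) = y from
        LinearEquiv.congr_fun hg, -LinearEquiv.coe_inv]
  let σ : End F U →ₗ[F] F := LinearMap.trace F V ∘ₗ LinearMap.mulRight F g.toLinearMap ∘ₗ T.e.toLinearMap
  have k1 : ∀ a b, LinearMap.trace F V (T.e a * (g • T).e b * g.toLinearMap) = σ (b * a) := fun a b => by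
    rw [mul_assoc, e1, ← mul_assoc, LinearMap.trace_mul_cycle, ← map_mul]; rfl
  have k2 : ∀ a b, σ (a * b) = σ (b * a) := fun a b => by
    rw [← k1 a b, ← k1 b a, ← h b a, mul_assoc ((g • T).e b), ← e2, ← mul_assoc, e1, mul_assoc _ (T.e b),
      LinearMap.trace_mul_comm F g.toLinearMap]
  obtain ⟨y, hy⟩ := exists_ne (0 : U)
  obtain ⟨ψ, hψ⟩ := exists_dual_one (F := F) hy
  have k3 : ∀ a, σ a = LinearMap.trace F U a * σ (ψ.smulRight y) := end_ind (by simp) (fun x χ => by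
    simpa [r_mul_r, hψ, LinearMap.trace_smulRight] using k2 (ψ.smulRight x) (χ.smulRight y))
    fun a b h h' => by simp [h, h', add_mul]
  have k4 : σ (ψ.smulRight y) = 0 := by simpa [σ, e, h0] using k3 1
  have k5 : ∀ X, LinearMap.trace F V (X * g.toLinearMap) = 0 := fun X => by
    simpa using end_ind (p := fun a => LinearMap.trace F V (T.e a * X * T.e 1 * g.toLinearMap) = 0)
      (by simp) (fun x χ => end_ind (p := fun b => LinearMap.trace F V (T.e (χ.smulRight x) * X *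
        T.e b * g.toLinearMap) = 0) (by simp) (fun x' χ' => by
          obtain ⟨b, e⟩ := h' _ (T.cm_coef χ x' X)
          rw [T.e_mul_e, e, k1, k3, k4, mul_zero]) (fun a b h h' => by
            simp [mul_add, add_mul, h, h']) 1) (fun a b h h' => by simp only [map_add, add_mul, h, h',
              add_zero]) 1
  obtain ⟨z, hz⟩ := exists_ne (0 : V)
  obtain ⟨φ, hφ⟩ := exists_dual_one (F := F) hz
  simpa [mul_assoc, show g.toLinearMap * g.toLinearMap = 1 from congrArg LinearEquiv.toLinearMap hg,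
    LinearMap.trace_smulRight, hφ] using k5 (φ.smulRight z * g.toLinearMap)

variable [Finite F] [Nontrivial W]

namespace OU

variable (γ : OU q)
include γ

theorem sq_cases (h : Zt b) {l t : F} (hs : Sim q a l) (e : a * b.1 = b.1 * a)
    (h4 : ∀ x, a (a (a (a x))) = t • x) :
    ∃ t : F, (∀ x, a (a x) = t • x) ∨ ∀ x, a (a x) = t • b.1 x := by
  have k0 : ∀ x y, polar q (a (a x)) y = polar q x (a (a y)) := by
    rcases γ.inv4 (a := a * a) (l := l * l) (fun x y => by rw [hs, hs, mul_assoc]; rfl) h4 with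
      ⟨d, μ, h1, h2⟩ | h
    · intro x y
      rw [← LinearEquiv.mul_apply, ← LinearEquiv.mul_apply, h2, h2, polar_smul_left',
        polar_smul_right', ← O.map_polar d, sq_apply h1]
    · exact h.2
  have k : ∀ {b : O q}, Zt b → (∀ u, a (b.1 u) = b.1 (a u)) →
      ∃ s : F, (∀ u, b.1 u = -u → a (a u) = s • u) ∧ s * s = t := fun {b} h e => by
    obtain ⟨u, h1, h2⟩ := γ.exists_ns h.sq h.ne
    obtain ⟨x, y, hx, hy, e', rfl⟩ := γ.exists_refl h
    obtain ⟨s, hs⟩ := plane_sq γ.two hx hy e' hs (k0 x y) fun u hu => by rw [← e, hu, map_neg]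
    exact ⟨s, hs, smul_left_injective F (ne_zero_of_Q_ne_zero h1) (by
      simp only [← h4, hs u h2, map_smul, mul_smul])⟩
  obtain ⟨s, h1, h2⟩ := k h (LinearEquiv.congr_fun e)
  obtain ⟨s', h3, h5⟩ := k (γ.zt_neg h) fun u => by simpa using LinearEquiv.congr_fun e u
  refine ⟨s', (mul_self_eq_mul_self_iff.1 (h2.trans h5.symm)).imp (fun e' x => ?_) fun e' x => ?_⟩ <;>
  · have e1 := h1 (x - b.1 x) (by simp [sq_apply h.sq])
    have e2 := h3 (x + b.1 x) (by simp [sq_apply h.sq, add_comm])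
    simp only [map_add, map_sub, e'] at e1 e2
    exact smul_right_injective U γ.two (by linear_combination (norm := module) e1 + e2)

theorem root_or (h : b * b = 1) : Zt b ∨ ∃ w s, w ≠ 0 ∧ q w = 0 ∧ polar q w s = 0 ∧ s ∉ F ∙ w ∧
    b.1 * (eich q w s).1 = (eich q w s).1 * b.1 := by
  obtain ⟨u, hu⟩ := exists_Q_eq γ.nd (γ.four ▸ by decide) 1
  have k : ∀ {w s}, ∀ t : F, w ≠ 0 → q w = 0 → polar q w s = 0 → b.1 w = t • w → b.1 s = t • s →
      b.1 * (eich q w s).1 = (eich q w s).1 * b.1 := fun {w s} t h0 hw hs e1 e2 => by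
    have : t * t = 1 := smul_left_injective F h0 (by simpa [e1, mul_smul] using sq_apply h w)
    exact congrArg Subtype.val (mul_inv_eq_iff_eq_mul.1 (show b * eich q w s * b⁻¹ = eich q w s by
      rw [conj_eich, e1, e2, eich_smul_left hw (by simp [hs]), smul_smul, this, one_smul]))
  rcases γ.inv_cases h with ⟨t, ht⟩ | ⟨v, hv, e⟩ | e
  · obtain ⟨w, s, h0, hw, hs, h1, -⟩ := γ.exists_root (v := u) (by simp [hu])
    exact .inr ⟨w, s, h0, hw, hs, h1, k t h0 hw hs (ht _) (ht _)⟩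
  · obtain ⟨w, s, h0, hw, hs, h1, h2, h3⟩ := γ.exists_root hv
    refine .inr ⟨w, s, h0, hw, hs, h1, ?_⟩
    rcases e with rfl | rfl
    · exact k (-1) h0 hw hs (by simp [nr_perp h2]) (by simp [nr_perp h3])
    · exact k 1 h0 hw hs (by simp [nr_perp h2]) (by simp [nr_perp h3])
  · exact .inl e

theorem dickson_zt (h : Zt b) : dickson γ.nd b = 1 := (dickson_eq_one_iff γ.nd).2 (h.two ▸ even_two)

theorem mem_or (h : Zt b) : b ∈ eichGroup q ∨ O.neg q * b ∈ eichGroup q := by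
  have := mt (fun e => γ.mem_eich.2 ⟨γ.dickson_neg', e⟩) γ.neg_notMem
  simp only [γ.mem_eich, γ.dickson_zt h, γ.dickson_zt (γ.zt_neg h), map_mul (spinor _),
    (Int.units_eq_one_or _).resolve_left this]
  rcases Int.units_eq_one_or (spinor γ.nd b) with e | e <;> simp [e]

theorem exists_zt : ∃ b ∈ eichGroup q, Zt b :=
  let ⟨x, hx⟩ := exists_Q_eq γ.nd (γ.four ▸ by decide) 1
  let ⟨y, h1, h2⟩ := γ.exists_perp (v := x) (by simp [hx]) 1
  ⟨_, γ.refl_mul_mem (by simp [hx]) (hx.trans h2.symm), γ.zt_refl (by simp [hx]) (by simp [h2]) h1⟩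

theorem kr_ne (h : Zt b) : T.kr b.1 1 ≠ 1 := fun e => γ.kr_notMem h (e ▸ one_mem _)

theorem eq_one_of_cm (hb : b ∈ eichGroup q) {β} (h : T.kr b.1 β ∈ CG T) : b = 1 := by
  obtain ⟨t, ht⟩ := scalar_of_kr h
  obtain ⟨x, hx⟩ := exists_Q_eq γ.nd (γ.four ▸ by decide) 1
  exact (eq_one_or_neg_of_smul (v := x) (by simp [hx]) ht).resolve_right fun e => γ.neg_notMem (e ▸ hb)

theorem pair_unique₂ {b' c' : O q} (hb : b ∈ eichGroup q) (h : b ≠ 1) (hb' : b' ∈ eichGroup q)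
    (hc' : c' ∈ eichGroup q) (hij : i ≠ j) (hlm : l ≠ m)
    (e : (Φ.T i).kr b.1 1 * (Φ.T j).kr c.1 1 = (Φ.T l).kr b'.1 1 * (Φ.T m).kr c'.1 1) :
    (Φ.T i).kr b.1 1 = (Φ.T l).kr b'.1 1 ∨ (Φ.T i).kr b.1 1 = (Φ.T m).kr c'.1 1 := by
  have k : ∀ {l m} {b' c' : O q}, b' ∈ eichGroup q → i ≠ m → (Φ.T i).kr b.1 1 * (Φ.T j).kr c.1 1 =
      (Φ.T l).kr b'.1 1 * (Φ.T m).kr c'.1 1 → (Φ.T i).kr b.1 1 = (Φ.T l).kr b'.1 1 :=
    fun {l m b' c'} hb' h1 e => by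
      have h2 : (Φ.T j).kr c.1 1 ∈ CG (Φ.T i) := cm_kr hij _
      obtain rfl : i = l := by_contra fun h' => h (γ.eq_one_of_cm (T := Φ.T i) (β := 1) hb
        ((mul_mem_cancel_right h2).1 (by rw [e]; exact (CG _).mul_mem (cm_kr h' _) (cm_kr h1 _))))
      have h3 : b' = b := inv_mul_eq_one.1 (γ.eq_one_of_cm (T := Φ.T i) (β := 1)
        (mul_mem (inv_mem hb') hb) (by
          rw [Subgroup.coe_mul, kr_mul', ← mul_mem_cancel_right h2, mul_assoc, e, Subgroup.coe_inv,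
            kr_inv', inv_mul_cancel_left]
          exact cm_kr h1 _))
      rw [h3]
  by_cases h : i = m
  · exact .inr (k hc' (h ▸ hlm.symm) (e.trans ((cm_kr hlm.symm _).comm_kr _)))
  · exact .inl (k hb' h e)

end OU

end

variable {F W V : Type u} {U : Type*} [Field F] [AddCommGroup U] [Module F U] [AddCommGroup W]
  [Module F W] [AddCommGroup V] [Module F V] {q : QuadraticForm F U} {Q : QuadraticForm F V}
  {M : Subgroup (V ≃ₗ[F] V)} {ι : Type} [DecidableEq ι] [Fintype ι] {Φ : Fam ι F U W V}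
  [Finite F] [FiniteDimensional F U] [FiniteDimensional F W] [FiniteDimensional F V] [Nontrivial W]
  {g k : V ≃ₗ[F] V} {i j l m : ι} {v x y w s : U} {b c : O q}

theorem two_cases (h2 : Fintype.card ι = 2) (hij : i ≠ j) (l : ι) : l = i ∨ l = j := by
  simpa using (Finset.eq_of_subset_of_card_le (Finset.subset_univ {i, j})
    (by simp [h2, hij])).ge (Finset.mem_univ l)

theorem pair_sq₂ (h : Zt b) (h' : Zt c) (hij : i ≠ j) : (Φ.T i).kr b.1 1 * (Φ.T j).kr c.1 1 *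
    ((Φ.T i).kr b.1 1 * (Φ.T j).kr c.1 1) = 1 := by
  rw [mul_assoc, ← mul_assoc ((Φ.T j).kr c.1 1), (cm_kr hij _).comm_kr, mul_assoc, h'.kr_sq, mul_one,
    h.kr_sq]

namespace St

variable (μ : St q Q M Φ) (h2 : Fintype.card ι = 2)
include μ h2

theorem slot (hij : i ≠ j) (hk : k ∈ CG (Φ.T j)) : ∃ d, k = (Φ.T i).kr d 1 :=
  have := μ.γ.nontrivial
  let ⟨_, e⟩ := Fm.exists_two (two_cases h2 hij) hk
  exists_kr_of_e e

omit μ in
theorem other (j : ι) : ∃ i, i ≠ j := Fintype.exists_ne_of_one_lt_card (by omega) j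

/-- An element of odd order does not interchange the two factors. -/
theorem not_swap {n : ℕ} (hn : Odd n) (hk : k ∈ WG Φ) (h1 : k ^ n = 1) (hij : i ≠ j) (h : Zt c) (a) :
    k * (Φ.T i).kr a 1 * k⁻¹ ≠ (Φ.T j).kr c.1 1 := fun e => by
  have h3 := sub_of_conj hk (e ▸ μ.γ.kr_notMem h)
  obtain ⟨s, hs⟩ := hk
  have h4 : k ^ 2 ∈ BG Φ := fun l => by
    have := ((hs l).smul k).trans (hs _)
    rcases eq_or_ne (s l) l with e | e
    · simpa [pow_two, mul_smul, e] using this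
    · simpa [pow_two, mul_smul, (two_cases h2 e (s (s l))).resolve_left (s.injective.ne e)] using this
  obtain ⟨n, rfl⟩ := hn
  exact hij (sub_unique μ.two (by
    simpa [← pow_mul, mul_add, pow_succ _ (2 * n + 1), h1] using pow_mem h4 (n + 1) i) h3)

theorem trace_ne (hg : g * g = 1) (hij : i ≠ j) (h : Sub (g • Φ.T i) (Φ.T j)) :
    LinearMap.trace F V g.toLinearMap ≠ 0 :=
  have := μ.nontrivial
  have := μ.γ.nontrivial
  trace_swap (T := Φ.T i) (by rw [μ.γ.four]; convert mul_ne_zero μ.γ.two μ.γ.two using 1; norm_num) hg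
    (fun a => let ⟨b, e⟩ := h a; e ▸ Φ.cm_e hij b) fun _ hY =>
      let ⟨a, e⟩ := Fm.exists_two (two_cases h2 hij.symm) hY
      let ⟨b, e'⟩ := h.symm a
      ⟨b, e.trans e'⟩

theorem root_fus (h : Zt b) (hg : g ∈ M) (h0 : w ≠ 0) (hw : q w = 0) (hs : polar q w s = 0)
    (h1 : s ∉ F ∙ w) (h3 : g⁻¹ * ae (Φ.T l) q w s * g ∈ WG Φ) (e : ae (Φ.T l) q w s *
      (g * (Φ.T j).kr b.1 1 * g⁻¹) = g * (Φ.T j).kr b.1 1 * g⁻¹ * ae (Φ.T l) q w s) : g ∈ WG Φ := by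
  obtain ⟨p, hp⟩ := CharP.exists F
  have := Fact.mk (CharP.char_is_prime F p)
  obtain ⟨i, hi⟩ := other h2 j
  obtain ⟨d, e'⟩ := μ.slot h2 hi (μ.cm_of_pow p h (mul_mem (mul_mem (inv_mem hg)
    ((μ.sl l).ae_mem w s)) hg) h3 (conj_pow_one (ae_pow p hw hs)) (conj_comm e))
  exact inv_mem_iff.1 (μ.pfus p ((μ.sl l).ae_mem w s) (μ.γ.ae_ne h0 hw hs h1) (ae_pow p hw hs)
    (inv_mem hg) (by rwa [inv_inv]))

variable (H : ∀ j (b : O q), Zt b → ∀ k ∈ M, k * (Φ.T j).kr b.1 1 = (Φ.T j).kr b.1 1 * k → k ∈ WG Φ)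
include H

theorem of_root (h : Zt b) (hg : g ∈ M) (h1 : c * c = 1) {β} (e : g * (Φ.T j).kr b.1 1 * g⁻¹ =
    (Φ.T l).kr c.1 β) : g ∈ WG Φ ∨ Zt c :=
  (μ.γ.root_or h1).symm.imp_left fun ⟨w, s, h0, hw, hs, h3, h4⟩ =>
    have := e ▸ kr_comm (T := Φ.T l) h4 β
    μ.root_fus h2 h hg h0 hw hs h3 (H j b h _ (mul_mem (mul_mem (inv_mem hg) ((μ.sl l).ae_mem w s)) hg)
      (conj_comm this)) this

theorem of_cm (h : Zt b) (hg : g ∈ M) (e : g * (Φ.T j).kr b.1 1 * g⁻¹ ∈ CG (Φ.T l)) : g ∈ WG Φ :=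
  have := μ.γ.nontrivial
  let ⟨_, e⟩ := exists_kr_of_cm e
  (μ.of_root h2 H (c := 1) h hg (mul_one _) e).resolve_right fun h => h.ne rfl

theorem fus₂ (h : Zt b) (hg : g ∈ M) (h1 : g * (Φ.T j).kr b.1 1 * g⁻¹ ∈ WG Φ) : g ∈ WG Φ := by
  by_contra hg'
  have := μ.γ.nontrivial
  have h3 := mul_mem (mul_mem hg (μ.so j (μ.γ.dickson_zt h))) (inv_mem hg)
  have h4 : g * (Φ.T j).kr b.1 1 * g⁻¹ * (g * (Φ.T j).kr b.1 1 * g⁻¹) = 1 := by
    rw [conj_mul, h.kr_sq]; simp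
  refine μ.not_pgl h (H j b h) hg fun l => ((μ.sl l).inv_slot h3 h4 (by_contra fun e =>
    ?_)).resolve_left fun ⟨c, β, h5, h6, e⟩ => hg' ?_
  · obtain ⟨s, hs⟩ := h1
    exact μ.trace_ne h2 h4 (fun e' => e (by simpa [← e'] using hs l)) (hs l) (by
      rw [trace_conj, trace_kr, μ.γ.zt_trace h, zero_mul])
  obtain ⟨c, h5, β, h7, h6, e⟩ : ∃ c ∈ eichGroup q, ∃ β, Zt c ∧ β * β = 1 ∧
      g * (Φ.T j).kr b.1 1 * g⁻¹ = (Φ.T l).kr c.1 β := by
    have h7 := (μ.of_root h2 H h hg h5 e).resolve_left hg'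
    exact (μ.γ.mem_or h7).elim (⟨c, ·, β, h7, h6, e⟩) (⟨_, ·, LinearEquiv.neg F * β, μ.γ.zt_neg h7,
      LinearEquiv.ext fun u => by simpa using LinearEquiv.congr_fun h6 u,
        e.trans ((Φ.T l).eq_of_t fun _ _ => by simp)⟩)
  obtain ⟨m, hm⟩ := other h2 l
  obtain ⟨d, e1⟩ := μ.slot h2 hm (k := (Φ.T l).kr c.1 1 * (g * (Φ.T j).kr b.1 1 * g⁻¹)) (by
    rw [e, TF.kr_mul]; exact kr_mem_CG (c := 1) (by simp [sq_apply h7.sq]) _)
  lift d to O q using (μ.sl m).mem_O (e1 ▸ mul_mem ((μ.sl l).su' h5) h3)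
  obtain ⟨β', e2⟩ := exists_kr_of_cm (cm_kr (Φ := Φ) hm c.1)
  have k2 := h7.kr_sq (Φ.T l)
  have k3 : Zt d := (μ.of_root h2 H h hg (l := m) (β := β') (Subtype.ext (kr_inj (T := Φ.T m) (by
    rw [Subgroup.coe_mul, kr_mul', ← e1, e]
    simp [TF.kr_mul, h6, ← Subgroup.coe_mul, h7.sq]))) (by
      rw [eq_inv_mul_iff_mul_eq.2 e1, inv_eq_of_mul_eq_one_right k2, e2, TF.kr_mul]
      simp)).resolve_left hg'
  obtain ⟨x, y, hx, hy, e3, e4⟩ := μ.γ.exists_refl' h5 h7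
  rw [← rot_sq μ.γ.two hx hy e3] at e4
  have k4 := mul_mem (mul_mem (inv_mem hg) (μ.so l (b := rot q x y)
    (μ.γ.dickson_pair (Q_sub_ne μ.γ.two hx hy e3) hx))) hg
  have k5 := conj_comm (e ▸ kr_comm (T := Φ.T l) (c := (rot q x y).1) (by simp [e4, mul_assoc]) β :)
  obtain ⟨a, β₂, e5⟩ := (sub_of_comm (H j b h _ k4 k5) (μ.γ.kr_notMem h) k5).exists_kr
  obtain ⟨t, -, k6, -⟩ := (μ.sl j).sim (μ.le (e5 ▸ k4))
  have k7 : g⁻¹ * (Φ.T l).kr c.1 1 * g = (Φ.T j).kr (a * a) (β₂ * β₂) := by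
    rw [← TF.kr_mul, ← e5, e4, Subgroup.coe_mul, kr_mul']; group
  obtain ⟨s, hs⟩ := scalar_of_kr (T := Φ.T j) (a := a * a * (a * a)) (b := β₂ * β₂ * (β₂ * β₂)) (by
    rw [← TF.kr_mul, ← k7, ← pow_two, conj_pow_one (by rw [pow_two, k2])]; exact one_mem _)
  obtain ⟨t', ht | ht⟩ := μ.γ.sq_cases h k6 (comm_of_kr (e5 ▸ k5)) hs
  · exact inv_mem_iff.1 (μ.of_cm h2 H h7 (inv_mem hg) (by rw [inv_inv, k7]; exact kr_mem_CG ht _))
  refine inv_mem_iff.1 (μ.of_cm h2 H (j := m) (l := j) k3 (inv_mem hg) ?_)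
  rw [inv_inv, ← e1, mul_assoc, mul_assoc, inv_mul_cancel_right, ← mul_assoc, ← mul_assoc, k7, TF.kr_mul]
  exact kr_mem_CG (c := t') (by simp [ht, sq_apply h.sq]) _

variable (hb : b ∈ eichGroup q) (hc : c ∈ eichGroup q) (h : Zt b) (h' : Zt c) (hij : i ≠ j)
include hb hc h h' hij

omit h2 H in
theorem conj_pair₂ (hg : g ∈ M) (hg' : g ∈ WG Φ) (e : g * ((Φ.T i).kr b.1 1 * (Φ.T j).kr c.1 1) =
    (Φ.T i).kr b.1 1 * (Φ.T j).kr c.1 1 * g) : g * (Φ.T i).kr b.1 1 * g⁻¹ = (Φ.T i).kr b.1 1 ∨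
      g * (Φ.T i).kr b.1 1 * g⁻¹ = (Φ.T j).kr c.1 1 := by
  obtain ⟨s, hs⟩ := id hg'
  obtain ⟨b', h1, e1⟩ := (μ.sl i).conj_eich (μ.sl _) hg (hs i) hb
  obtain ⟨c', h2, e2⟩ := (μ.sl j).conj_eich (μ.sl _) hg (hs j) hc
  rw [e1]
  exact μ.γ.pair_unique₂ h1 (by
    rintro rfl
    exact μ.γ.kr_ne h (by simpa using e1)) hb hc
      (s.injective.ne hij) hij (by rw [← e1, ← e2, conj_mul, e, mul_inv_cancel_right])

theorem cen_pair₂ (hg : g ∈ M) (e : g * ((Φ.T i).kr b.1 1 * (Φ.T j).kr c.1 1) =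
    (Φ.T i).kr b.1 1 * (Φ.T j).kr c.1 1 * g) : g ∈ WG Φ := by
  have := finite_equiv (F := F) (V := V)
  obtain ⟨x, y, hx, hy, e1, e2⟩ := μ.γ.exists_refl h
  obtain ⟨s, h3, h4, h5⟩ := μ.γ.exists_perp₂ hx hy e1 1
  replace h5 : q s ≠ 0 := by simp [h5]
  have k0 := fun n => of_zpowers (n := n) (pair_sq₂ (Φ := Φ) h h' hij)
  have k1 : Subgroup.zpowers ((Φ.T i).kr b.1 1 * (Φ.T j).kr c.1 1) ≤ WG Φ :=
    Subgroup.zpowers_le.2 (mul_mem (kr_mem_WG i _) (kr_mem_WG j _))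
  have k : ∀ d : O q, Zt d → b * d = d * b → (Φ.T i).kr d.1 1 ∈ M ⊓ Subgroup.centralizer
      {(Φ.T i).kr b.1 1 * (Φ.T j).kr c.1 1} ∧ (Φ.T i).kr d.1 1 ∉ Subgroup.zpowers
        ((Φ.T i).kr b.1 1 * (Φ.T j).kr c.1 1) ∧ ∀ g ∈ M ⊓ Subgroup.centralizer
          {(Φ.T i).kr b.1 1 * (Φ.T j).kr c.1 1}, ((Φ.T i).kr d.1 1)⁻¹ * (g * (Φ.T i).kr d.1 1 * g⁻¹) ∈
            Subgroup.zpowers ((Φ.T i).kr b.1 1 * (Φ.T j).kr c.1 1) → g ∈ WG Φ := fun d hd e =>
    ⟨⟨μ.so i (μ.γ.dickson_zt hd), fun _ e' => e' ▸ (Commute.mul_left (kr_comm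
      (congrArg Subtype.val e) 1).symm ((cm_kr hij _).comm_kr _))⟩, fun h => (k0 _ h).elim
        (μ.γ.kr_ne hd) fun e => μ.γ.kr_notMem h'
          ((mul_mem_cancel_left (show _ ∈ CG _ from cm_kr hij.symm _)).1 (e ▸ cm_kr hij.symm _)),
      fun g hg h => μ.fus₂ h2 H hd hg.1 ((mul_mem_cancel_left (inv_mem (kr_mem_WG i _))).1 (k1 h))⟩
  have k2 := μ.γ.zt_refl hx h5 h3
  have k3 : b * (refl q x * refl q s) = refl q x * refl q s * b := by
    have c1 : Commute (refl q x) (refl q y) := refl_comm_of_perp e1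
    have c2 : Commute (refl q x) (refl q s) := refl_comm_of_perp h3
    exact e2 ▸ ((Commute.refl _).mul_right c2).mul_left (c1.symm.mul_right (refl_comm_of_perp h4))
  refine le_of_four (X := M ⊓ Subgroup.centralizer {(Φ.T i).kr b.1 1 * (Φ.T j).kr c.1 1})
    (fun g hg n hn => ?_) k1 (h.kr_sq _) (k2.kr_sq (Φ.T i)) (kr_comm (congrArg Subtype.val k3).symm 1)
    (kr_mem_WG i _) ?_ (fun g hg => μ.fus₂ h2 H h hg.1) (fun g hg hg' => ?_)
    ⟨hg, fun _ e' => e' ▸ e.symm⟩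
  · rcases k0 n hn with rfl | rfl <;> simp [← hg.2 _ rfl]
  · rintro _ (rfl | rfl | rfl)
    · exact k b h rfl
    · exact k _ k2 k3
    rw [← kr_mul', ← Subgroup.coe_mul]
    refine k _ ?_ (by rw [mul_assoc, k3])
    rw [e2, refl_comm_of_perp e1, mul_assoc, ← mul_assoc (refl q x), refl_mul_self, one_mul]
    exact μ.γ.zt_refl hy h5 h4
  rcases μ.conj_pair₂ hb hc h h' hij hg.1 hg' (hg.2 _ rfl).symm with e | e <;>
    simp [e, inv_eq_of_mul_eq_one_right (h.kr_sq (Φ.T i)), h.kr_sq]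

theorem wm₂ (hg : g ∈ M) (h1 : g * ((Φ.T i).kr b.1 1 * (Φ.T j).kr c.1 1) * g⁻¹ ∈ WG Φ) :
    g ∈ WG Φ := by
  have := finite_equiv (F := F) (V := V)
  obtain ⟨p, hp⟩ := CharP.exists F
  have := Fact.mk (CharP.char_is_prime F p)
  have h3 := mul_mem (mul_mem hg (mul_mem ((μ.sl i).su' hb) ((μ.sl j).su' hc))) (inv_mem hg)
  have h4 := (conj_mul ..).trans ((congrArg (g * · * g⁻¹) (pair_sq₂ (Φ := Φ) h h' hij)).trans
    ((congrArg (· * g⁻¹) (mul_one g)).trans (mul_inv_cancel g)))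
  have k : ∀ a ∈ M, a * (g * ((Φ.T i).kr b.1 1 * (Φ.T j).kr c.1 1) * g⁻¹) =
      g * ((Φ.T i).kr b.1 1 * (Φ.T j).kr c.1 1) * g⁻¹ * a → g⁻¹ * a * g ∈ WG Φ := fun a ha e =>
    μ.cen_pair₂ h2 H hb hc h h' hij (mul_mem (mul_mem (inv_mem hg) ha) hg) (conj_comm e)
  have k' := fun a (e : a * (g * ((Φ.T i).kr b.1 1 * (Φ.T j).kr c.1 1) * g⁻¹) = _) => conj_comm e
  generalize g * ((Φ.T i).kr b.1 1 * (Φ.T j).kr c.1 1) * g⁻¹ = u at *
  obtain ⟨s, hs⟩ := h1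
  rcases eq_or_ne i (s i) with e | e
  · obtain ⟨b₀, h5, h6⟩ := μ.γ.exists_zt
    obtain ⟨_, ⟨⟨_, ⟨d, h7, rfl⟩, rfl⟩, h8⟩, h9, h10⟩ := exists_order.1 (dvd_card_cent (p := 2)
      (A := Subgroup.zpowers u) (X := (Nq q).map (Φ.T i).krHom) (fun ⟨n, hn⟩ => ⟨1, Subtype.ext (by
        rcases of_zpowers h4 hn with rfl | rfl
        exacts [one_pow _, (pow_two _).trans h4])⟩) (Subgroup.zpowers_le.2
          (Subgroup.mem_normalizer_fintype (by
            rintro _ ⟨_, ⟨d, h7, rfl⟩, rfl⟩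
            obtain ⟨d', h8, e'⟩ := (μ.sl i).conj_eich (μ.sl i) h3 (by simpa [← e] using hs i) h7
            exact ⟨_, mem_Nq h8, e'.symm⟩))) (exists_order.2 ⟨_, ⟨_, mem_Nq h5, rfl⟩,
              μ.γ.kr_ne h6, (pow_two _).trans (h6.kr_sq _)⟩))
    exact inv_mem_iff.1 (μ.fus₂ h2 H (j := i) (μ.γ.zt_of_mem h7 (Subtype.ext (kr_inj (T := Φ.T i)
      ((kr_mul' ..).trans ((pow_two _).symm.trans (h10.trans (TF.kr_one _).symm)))))
        (by rintro rfl; simp at h9)) (inv_mem hg) (by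
          simpa using k _ ((μ.sl i).su' h7) (h8 _ (Subgroup.mem_zpowers _)).symm))
  obtain ⟨w, f, hf⟩ := μ.γ.exists_hyp
  obtain ⟨t, h5, h6⟩ := μ.γ.exists_aniso hf.ne_zero hf.left
  obtain ⟨d, h7, e1⟩ := (μ.sl i).conj_eich (μ.sl _) h3 (hs i) (eich_mem_eichGroup w t)
  have c1 : Commute ((Φ.T i).kr (eich q w t).1 1) ((Φ.T (s i)).kr d.1 1) := ((cm_kr e _).comm_kr _).symm
  have e2 := swap_comm h4 e1 c1
  have h8 := mul_mem ((μ.sl i).su' (eich_mem_eichGroup w t)) ((μ.sl (s i)).su' h7)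
  have h9 := k _ h8 e2
  replace h8 := mul_mem (mul_mem (inv_mem hg) h8) hg
  have h10 := conj_pow_one (g := g) (n := p) ((c1.mul_pow p).trans (show _ = 1 by
    rw [← e1, conj_pow, ← ae, ae_pow p hf.left h5]; simp))
  have e3 := mul_inv_eq_iff_eq_mul.1 ((μ.conj_pair₂ hb hc h h' hij h8 h9 (k' _ e2)).resolve_right
    (μ.not_swap h2 (odd_char μ.γ p) h9 h10 hij h' _))
  have k1 := μ.cm_of_pow p h h8 h9 h10 e3
  have k2 := μ.cm_of_pow (j := j) p h' h8 h9 h10 (by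
    have := k' _ e2
    rw [← mul_assoc, e3, mul_assoc, mul_assoc ((Φ.T i).kr b.1 1)] at this
    exact mul_left_cancel this)
  obtain ⟨r, hr⟩ := Φ.cen _ fun l => (two_cases h2 hij l).elim (fun e => by rw [e]; exact k1)
    fun e => by rw [e]; exact k2
  refine (μ.γ.ae_ne (T := Φ.T i) hf.ne_zero hf.left h5 (fun e => h6 ?_) (by
    rw [ae, μ.γ.eq_one_of_cm (T := Φ.T i) (β := 1) (eich_mem_eichGroup w t) ((mul_mem_cancel_right
      (show _ ∈ CG _ from cm_kr e d.1)).1 (by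
        simpa [mul_assoc] using conj_mem_CG (T := g⁻¹ • Φ.T i) (k := g⁻¹ * (_ * _) * g)
          (show Cm _ _ from hr ▸ cm_one.smul r) g))]
    simp)).elim
  obtain ⟨a, rfl⟩ := Submodule.mem_span_singleton.1 e
  simp [Q_smul, hf.left]

omit hb hc h h' hij

theorem zs₂ : ZS M (WG Φ) {d | ∃ j, ∃ b ∈ eichGroup q, Zt b ∧ d = (Φ.T j).kr b.1 1} := by
  refine ⟨?_, ?_, ?_, ?_⟩
  · rintro _ ⟨j, b, -, h, rfl⟩
    exact Inv.orderOf_eq_two_iff.2 ⟨μ.γ.kr_ne h, h.kr_sq _⟩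
  · rintro _ ⟨j, b, hb, -, rfl⟩
    exact ⟨(μ.sl j).su' hb, kr_mem_WG j _⟩
  · rintro _ ⟨j, b, hb, h, rfl⟩ g hg e
    obtain ⟨s, hs⟩ := μ.fus₂ h2 H h hg e
    obtain ⟨c, hc, e'⟩ := (μ.sl j).conj_eich (μ.sl _) hg (hs j) hb
    refine ⟨⟨s, hs⟩, _, c, hc, μ.γ.zt_of_mem hc (Subtype.ext (kr_inj (T := Φ.T (s j)) ?_)) ?_, e'⟩
    · rw [Subgroup.coe_mul, kr_mul', ← e', conj_mul, h.kr_sq]; simp
    · rintro rfl
      exact μ.γ.kr_ne h (by simpa using e')
  rintro _ ⟨i, b, hb, h, rfl⟩ _ ⟨j, c, hc, h', rfl⟩ h1 h3 g hg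
  rcases eq_or_ne i j with rfl | e
  · rw [← kr_mul', ← Subgroup.coe_mul]
    have c1 : Commute b c := Subtype.ext (comm_of_kr h3)
    refine μ.fus₂ h2 H (μ.γ.zt_of_mem (mul_mem hb hc) ?_ fun e => h1 ?_) hg
    · rw [← pow_two, c1.mul_pow, pow_two, pow_two, h.sq, h'.sq, mul_one]
    · rw [mul_left_cancel (e.trans h.sq.symm)]
  exact μ.wm₂ h2 H hb hc h h' e hg

theorem le_WG_of_cen : M ≤ WG Φ := by
  by_contra hn
  have := finite_equiv (F := F) (V := V)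
  obtain ⟨i, j, hij⟩ := Fintype.exists_pair_of_one_lt_card (α := ι) (by omega)
  obtain ⟨b, hb, h⟩ := μ.γ.exists_zt
  obtain ⟨k, -, h1, h3, e⟩ := (μ.zs₂ h2 H).exists_conj hn ⟨i, b, hb, h, rfl⟩ ⟨j, b, hb, h, rfl⟩
  exact μ.not_swap h2 h3 h1 (pow_orderOf_eq_one k) hij h _ e

end St

end Cfsg.Lib.TQ
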