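import Cfsg.Agent.Lib.TQ.PartB

/-!
# Four-dimensional orthogonal tensor powers: the stabiliser and removing one slot
-/

set_option autoImplicit false
set_option linter.unusedSectionVars false

namespace Cfsg.Lib.TQ

open Module QuadraticMap Cfsg.Lib.TW Cfsg.Lib.TMax Function Cfsg.Lib.TO
open Cfsg.Lib.Orth
open Cfsg.Lib.Unitary (UG)
open scoped commutatorElement

universe u

section

variable {F U W V : Type*} [Field F] [AddCommGroup U] [Module F U] [AddCommGroup W] [Module F W]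
  [AddCommGroup V] [Module F V] {q : QuadraticForm F U} {Q : QuadraticForm F V}
  {T T' T'' : TF F U W V} {M : Subgroup (V ≃ₗ[F] V)} {ι : Type*} [DecidableEq ι] [Fintype ι]
  {Φ Φ' : Fam ι F U W V} {i j l m : ι} {g k : V ≃ₗ[F] V}

variable [FiniteDimensional F U] [Nontrivial W]

variable [Finite F]

namespace OU

variable (γ : OU q)
include γ

omit [Nontrivial W] in
theorem cm_of_comm {Y : End F V}
    (h : ∀ b ∈ eichGroup q, Y * T.e b.1.toLinearMap = T.e b.1.toLinearMap * Y) : Cm T Y := fun a =>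
  (γ.gen ((Subalgebra.centralizer F {Y}).comap T.e) (fun w s _ _ => by
    simpa [Subalgebra.mem_centralizer_iff] using h _ (eich_mem_eichGroup w s)) a) Y rfl

omit [Nontrivial W] in
theorem sub_of_kr (h : ∀ w s, q w = 0 → polar q w s = 0 → ∃ a, (ae T q w s).toLinearMap = T'.e a) :
    Sub T T' := fun a =>
  let ⟨b, e⟩ := γ.gen (T'.e.range.comap T.e) (fun w s hw hs =>
    let ⟨a, e⟩ := h w s hw hs
    ⟨a, (e.symm.trans (ae_coe w s) :)⟩) a
  ⟨b, e.symm⟩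

omit [Nontrivial W] in
theorem le_of_move {K : Subgroup (V ≃ₗ[F] V)} (hg : g ∈ K)
    (h1 : ∀ b ∈ eichGroup q, ∀ x ∈ K, T.kr b.1 1 * x * (T.kr b.1 1)⁻¹ ∈ K)
    (h2 : ∀ a b, Commute (g * T.kr a 1 * g⁻¹) (T.kr b 1)) {b : O q} (hb : b ∈ eichGroup q) :
    T.kr b.1 1 ∈ K := by
  refine γ.perf (L := K.comap (T.krHom.comp (O q).subtype)) (fun a ha b hb => ?_) hb
  have k1 := mul_mem hg (h1 _ (inv_mem ha) _ (inv_mem hg))
  have k2 := mul_mem k1 (h1 b hb _ (inv_mem k1))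
  have k3 := h2 a.1⁻¹
  rw [Subgroup.mem_comap, map_commutatorElement]
  change ⁅T.kr a.1 1, T.kr b.1 1⁆ ∈ K
  rw [Subgroup.coe_inv, kr_inv'] at k1 k2
  rw [kr_inv'] at k3
  have k4 := (k3 a.1).eq
  have k5 := (k3 b.1).eq
  generalize T.kr a.1 1 = x, T.kr b.1 1 = y at *
  convert k2 using 1
  generalize e : g * x⁻¹ * g⁻¹ = z at k4 k5
  calc _ = z * (x * y * x⁻¹) * z⁻¹ * y⁻¹ := by
        rw [(((show Commute z x from k4).mul_right k5).mul_right (Commute.inv_right k4)).eq]; group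
    _ = _ := by rw [← e]; group

theorem sub_of_rel (h' : ∀ b ∈ eichGroup q, (Φ.T l).kr b.1 1 ∈ WG Φ') {b}
    (h : (Φ'.T m).kr b 1 ∈ WG Φ) : Sub ((Φ'.T m).kr b 1 • Φ.T l) (Φ.T l) := by
  obtain ⟨s, hs⟩ := h
  by_cases e : s l = l
  · simpa [e] using hs l
  have k : ∀ a c, Commute ((Φ'.T m).kr b 1 * (Φ.T l).kr a 1 * ((Φ'.T m).kr b 1)⁻¹)
      ((Φ.T l).kr c 1) := fun a c => by
    obtain ⟨x, hx⟩ := (hs l).conj_kr a
    exact hx ▸ LinearEquiv.toLinearMap_injective (by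
      simpa [TF.kr_coe] using Φ.cm_e (Ne.symm e) x.toLinearMap c.toLinearMap)
  have k1 : ∀ c ∈ eichGroup q, (Φ.T l).kr c.1 1 ∈ BG Φ' := fun c =>
    γ.le_of_move (K := BG Φ') (fun i => sub_kr' m i b) (fun a ha x => conj_mem_BG (h' a ha)) k
  have k2 : Sub (Φ.T l) (Φ'.T m) := γ.sub_of_kr fun w s _ _ =>
    let ⟨a, e⟩ := γ.le_of_move (K := (Φ'.T m).krHom.range) ⟨b, rfl⟩ (fun a ha _ ⟨x, hx⟩ =>
      let ⟨y, hy⟩ := (k1 a ha m).conj_kr x
      ⟨y, hx ▸ hy.symm⟩) k (eich_mem_eichGroup w s)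
    ⟨_, (congrArg _ e.symm).trans (TF.kr_coe _ a)⟩
  exact ((k2.smul _).trans (sub_kr _ _ _)).trans k2.symm

theorem sub_or_cm {B : V →ₗ[F] V →ₗ[F] F} (hB : EF (RingHom.id F) 1 B) (cp : Cp (polarBilin q) B T)
    (cp' : Cp (polarBilin q) B T') (h : ∀ b ∈ eichGroup q, Sub (T.kr b.1 1 • T') T')
    (h' : ∀ b ∈ eichGroup q, Sub (T'.kr b.1 1 • T) T) : Sub T T' ∨ ∀ a, Cm T (T'.e a) := by
  refine (γ.ns (T'.e.range.comap T.e) (fun a ⟨x, e⟩ a' ha => ?_) fun b ⟨c, hc, e⟩ a ⟨x, e'⟩ => ?_).symm.imp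
    (fun h a => let ⟨b, e⟩ := h a; ⟨b, e.symm⟩) fun hs => ?_
  · obtain ⟨x', hx⟩ := γ.ef.exists_adj x
    exact ⟨x', (Ad.e cp' hx).unique hB ((show T'.e x = T.e a from e) ▸ Ad.e cp ha)⟩
  · obtain ⟨y, hy⟩ := h c hc x
    refine ⟨y, hy.symm.trans ?_⟩
    rw [smul_e', show T'.e x = T.e a from e', T.kr_inv, inv_one, T.kr_coe, T.kr_coe, ← e]
    simp
  have k : ∀ b ∈ eichGroup q, Cm T (T'.kr b.1 1).toLinearMap := fun b hb => γ.cm_of_comm fun a ha => by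
    have k1 : ∀ a ∈ eichGroup q, ∃ z ∈ Subgroup.center _,
        T'.kr b.1 1 * T.kr a.1 1 * (T'.kr b.1 1)⁻¹ = z * T.kr a.1 1 := fun a ha => by
      obtain ⟨x, hx⟩ := (h' b hb).conj_kr a.1
      obtain ⟨y, hy⟩ := (h a ha).conj_kr b.1⁻¹
      have e : T.kr (x * a.1⁻¹) 1 = T'.kr (b.1 * y) 1 := by
        rw [kr_mul', kr_mul', ← hx, ← hy, kr_inv', kr_inv']; group
      obtain ⟨c, hc⟩ := hs (x * a.1⁻¹).toLinearMap ⟨_, (T'.kr_coe _).symm.trans
        ((congrArg _ e.symm).trans (T.kr_coe _))⟩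
      refine ⟨T.kr (x * a.1⁻¹) 1, Subgroup.mem_center_iff.2 fun g => LinearEquiv.ext fun v => ?_, by
        rw [hx, T.kr_mul]; simp⟩
      have : (T.kr (x * a.1⁻¹) 1).toLinearMap = c • 1 := T.ext' fun v u => by
        simp [show x (a.1.symm v) = c • v from hc v]
      have k : ∀ v, T.kr (x * a.1⁻¹) 1 v = c • v := LinearMap.congr_fun this
      simp [k]
    have := γ.perf (L := (Subgroup.centralizer {T'.kr b.1 1}).comap (T.krHom.comp (O q).subtype))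
      (fun a ha c hc => by
        obtain ⟨z, h1, e1⟩ := k1 a ha
        obtain ⟨z', h2, e2⟩ := k1 c hc
        rw [Subgroup.mem_comap, map_commutatorElement, Subgroup.mem_centralizer_singleton_iff]
        change ⁅T.kr a.1 1, T.kr c.1 1⁆ * _ = _ * ⁅T.kr a.1 1, T.kr c.1 1⁆
        generalize T.kr a.1 1 = x, T.kr c.1 1 = y, T'.kr b.1 1 = n at *
        have h3 : ∀ {z x y : V ≃ₗ[F] V}, z ∈ Subgroup.center _ → ⁅z * x, y⁆ = ⁅x, y⁆ :=
          fun {z x y} h => by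
            rw [commutatorElement_def, commutatorElement_def, mul_inv_rev, ← mul_assoc,
              mul_assoc _ z⁻¹, mul_assoc z, mul_assoc z, ← Subgroup.mem_center_iff.1 h]
            group
        calc _ = ⁅z * x, z' * y⁆ * n := by
              rw [h3 h1, ← commutatorElement_inv (z' * y), h3 h2, commutatorElement_inv]
          _ = _ := by rw [← e1, ← e2]; group) ha
    exact T.kr_coe _ ▸ congrArg LinearEquiv.toLinearMap
      (Subgroup.mem_centralizer_singleton_iff.1 this).symm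
  exact fun a x => (γ.cm_of_comm (T := T') (fun b hb => T'.kr_coe _ ▸ (k b hb x).symm) a).symm

/-- Two families normalising almost all of each other's factors agree. -/
theorem mem_WG_of_rel {B : V →ₗ[F] V →ₗ[F] F} (hB : EF (RingHom.id F) 1 B)
    (cp : ∀ i, Cp (polarBilin q) B (Φ.T i)) (hg : g ∈ UG B) (j j' : ι)
    (h : ∀ m ≠ j, ∀ b ∈ eichGroup q, g * (Φ.T m).kr b.1 1 * g⁻¹ ∈ WG Φ)
    (h' : ∀ l ≠ j', ∀ b ∈ eichGroup q, g⁻¹ * (Φ.T l).kr b.1 1 * g ∈ WG Φ) : g ∈ WG Φ := by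
  have := γ.nontrivial
  have k : ∀ m ≠ j, ∀ b ∈ eichGroup q, ((fsmul g Φ).T m).kr b.1 1 ∈ WG Φ := fun m hm b hb => by
    simpa [fsmul, TF.smul_kr] using h m hm b hb
  have k' := fun l hl b hb => mem_WG_fsmul.2 (h' l hl b hb)
  refine mem_WG_of (by have := γ.three; omega) j fun m hm => by_contra fun h1 => h1 ⟨j', fun a =>
    exists_e fun l hl => (γ.sub_or_cm hB (cp l) ((cp m).smul hg) (fun b hb =>
      γ.sub_of_rel (Φ := fsmul g Φ) (k m hm) (k' l hl b hb)) fun b hb =>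
        γ.sub_of_rel (k' l hl) (k m hm b hb)).resolve_left (fun e => h1 ⟨l, e.symm⟩) a⟩

end OU

end

section

variable {F U W V : Type*} [Field F] [AddCommGroup U] [Module F U] [AddCommGroup W] [Module F W]
  [AddCommGroup V] [Module F V] {q : QuadraticForm F U} {Q : QuadraticForm F V}
  {T : TF F U W V} {M C : Subgroup (V ≃ₗ[F] V)} {g : V ≃ₗ[F] V} {v : U}

variable [Finite F] [FiniteDimensional F U]

theorem OU.cp_of_adj (γ : OU q) {B : V →ₗ[F] V →ₗ[F] F}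
    (h : ∀ a a', Ad (polarBilin q) a a' → Ad B (T.e a) (T.e a')) : Cp (polarBilin q) B T := by
  obtain ⟨w, f, h0⟩ := γ.exists_hyp
  refine ⟨(B.compl₂ (T.t f)).comp (T.t w), fun x u y u' => ?_⟩
  simpa [r_apply, h0.polar_eq', mul_comm] using h _ _ (ad_r x f) (T.t w u) (T.t y u')

theorem OU.sl_top (γ : OU q) (nd : ND Q) (cp : Cp (polarBilin q) (polarBilin Q) T) :
    Sl q Q (O Q) T :=
  ⟨γ, nd, cp, le_rfl, fun _ hb => mem_O_of_UG γ.two (cp.kr_mem (Nq_le hb))⟩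

theorem Sl.sim [Nontrivial W] (σ : Sl q Q M T) {a b} (h : T.kr a b ∈ O Q) :
    ∃ l : F, l ≠ 0 ∧ (∀ x y, polar q x y = l * polar q (a x) (a y)) ∧ (b = 1 → l = 1) := by
  obtain ⟨Q', h1, e⟩ := σ.exists_Q
  obtain ⟨u, hu⟩ := exists_ne (0 : W)
  obtain ⟨u', h2⟩ := h1.exists_polar_ne hu
  have k : ∀ x y, polar q x y = polar Q' (b u) (b u') / polar Q' u u' * polar q (a x) (a y) :=
    fun x y => by
      have := O.map_polar ⟨_, h⟩ (T.t x u) (T.t y u')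
      simp only [TF.kr_t, e] at this
      field_simp
      linear_combination -this
  obtain ⟨w, f, h3⟩ := σ.γ.exists_hyp
  exact ⟨_, fun e => by simpa [e, h3.polar_eq] using k w f, k, fun e => by simp [e, h2]⟩

theorem Sl.exists_eich [Nontrivial W] (σ : Sl q Q M T) {b} (h : T.kr b 1 ∈ O Q) {n : ℕ} (hn : Odd n)
    (h1 : T.kr b 1 ^ n = 1) : ∃ c ∈ eichGroup q, c.1 = b := by
  obtain ⟨l, -, h2, h3⟩ := σ.sim h
  refine ⟨⟨b, mem_O_of_UG σ.γ.two fun x y => ?_⟩, σ.γ.mem_of_odd hn (Subtype.ext (kr_inj (T := T) ?_)),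
    rfl⟩
  · simpa [h3 rfl] using (h2 x y).symm
  · exact (T.krHom.map_pow b n).trans (h1.trans T.kr_one.symm)

theorem odd_char (γ : OU q) (p : ℕ) [hp : Fact p.Prime] [CharP F p] : Odd p :=
  hp.out.odd_of_ne_two fun e => γ.two (by simpa [e] using CharP.cast_eq_zero F p)

end

/-- The dichotomy for tensor powers with `n` slots. -/
def Dich {F : Type u} {U : Type*} [Field F] [AddCommGroup U] [Module F U] [FiniteDimensional F U]
    (q : QuadraticForm F U) (n : ℕ) : Prop :=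
  ∀ (ι : Type) [DecidableEq ι] [Fintype ι] (W V : Type u) [AddCommGroup W] [Module F W]
    [AddCommGroup V] [Module F V] [FiniteDimensional F W] [FiniteDimensional F V] [Nontrivial W]
    (Q : QuadraticForm F V) (M : Subgroup (V ≃ₗ[F] V)) (Φ : Fam ι F U W V), Fintype.card ι = n →
    Fm q Q M Φ → Rf q M Φ → finrank F V = finrank F U ^ n →
    M ≤ WG Φ ∨ (commutator (O Q)).map (O Q).subtype ≤ M

variable {F W V : Type u} {U : Type*} [Field F] [AddCommGroup U] [Module F U] [AddCommGroup W]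
  [Module F W] [AddCommGroup V] [Module F V] {q : QuadraticForm F U} {Q : QuadraticForm F V}
  {M C : Subgroup (V ≃ₗ[F] V)} {ι : Type} [DecidableEq ι] [Fintype ι] {Φ : Fam ι F U W V}
  [Finite F] [FiniteDimensional F U] [FiniteDimensional F W] [FiniteDimensional F V] [Nontrivial W]

/-- Hypotheses for the inductive step. -/
structure St (q : QuadraticForm F U) (Q : QuadraticForm F V) (M : Subgroup (V ≃ₗ[F] V))
    (Φ : Fam ι F U W V) : Prop extends Fm q Q M Φ where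
  ih : Dich q (Fintype.card ι - 1)
  rk : finrank F V = finrank F U ^ Fintype.card ι
  gd : ∀ i, Gd q M (Φ.T i)
  rf : Rf q M Φ ∨ Fintype.card ι ≤ 2
  rr : ∀ i j x y, q x ≠ 0 → q y ≠ 0 → (Φ.T i).kr (refl q x).1 1 * (Φ.T j).kr (refl q y).1 1 ∈ M

theorem St.dich (μ : St q Q M Φ) (p : ℕ) [Fact p.Prime] [CharP F p] {j : ι} {v : U} (hv : v ≠ 0)
    (h1 : ∀ g ∈ M, Cm (Φ.T j) g.toLinearMap → g ∈ C)
    (h2 : ∀ g ∈ C, ∀ u, g ((Φ.T j).t v u) ∈ (Φ.T j).P (F ∙ v))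
    (h3 : ∀ β ∈ Res (Φ.T j) v C, ∃ v', polar q v v' ≠ 0 ∧ ∀ u u',
      polar Q ((Φ.T j).t v (β u)) ((Φ.T j).t v' (β u')) = polar Q ((Φ.T j).t v u) ((Φ.T j).t v' u')) :
    (∀ g ∈ C, ∀ m ≠ j, ∃ l ≠ j, ∀ w s, q w = 0 → polar q w s = 0 → ∃ b ∈ eichGroup q,
      ∀ x ∈ (Φ.T j).P (F ∙ v), (g * ae (Φ.T m) q w s * g⁻¹) x = (Φ.T l).kr b.1 1 x) ∨ Rf q M Φ ∧
    ∃ l ≠ j, ∀ w, w ≠ 0 → q w = 0 → ∃ g ∈ C, (∀ x ∈ (Φ.T j).P (F ∙ v), cw (Φ.T l) q w x = 0 → g x = x) ∧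
      (∀ x ∈ (Φ.T j).P (F ∙ v), (g ^ p) x = x) ∧ ∃ x ∈ (Φ.T j).P (F ∙ v), g x ≠ x := by
  have γ := μ.γ
  have := γ.nontrivial
  have h3' := γ.three
  by_cases h0 : Fintype.card ι ≤ 1
  · exact .inl fun _ _ m hm => (hm (Fintype.card_le_one_iff.1 h0 m j)).elim
  obtain ⟨n, hn⟩ : ∃ n, Fintype.card ι = n + 2 := ⟨Fintype.card ι - 2, by omega⟩
  have r1 : finrank F W = finrank F U ^ (n + 1) := Nat.eq_of_mul_eq_mul_left
    (show 0 < finrank F U by omega)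
    (by rw [← (Φ.T j).finrank_eq, μ.rk, hn]; ring)
  obtain ⟨Φ', e⟩ := exists_der (Φ := Φ) j (W' := Fin (finrank F U ^ n) → F) (by simp [r1, pow_succ'])
  have : Nontrivial (Fin (finrank F U ^ n) → F) := Module.nontrivial_of_finrank_pos (R := F) (by
    simpa using pow_pos (by omega) _)
  obtain ⟨Q', nd, pol⟩ := (μ.sl j).exists_Q
  obtain ⟨w₀, f₀, hw₀⟩ := γ.exists_hyp
  have e1 : ∀ l a u, (Φ.T l.1).e a ((Φ.T j).t v u) = (Φ.T j).t v ((Φ'.T l).e a u) := by simp [e]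
  have e2 : ∀ l b u, (Φ.T l.1).kr b 1 ((Φ.T j).t v u) = (Φ.T j).t v ((Φ'.T l).kr b 1 u) := by
    simp [TF.kr_one_apply, e1]
  have μ' : Fm q Q' (Res (Φ.T j) v C) Φ' := by
    refine ⟨γ, nd, fun l => γ.cp_of_adj fun a a' h x y => ?_, fun β hβ => ?_,
      fun l b hb => ⟨_, h1 _ (μ.su l b hb) ((Φ.T l).kr_coe b ▸ Φ.cm_e l.2.symm _), e2 l b⟩, fun s s' => ?_⟩
    · simpa [e, pol, hw₀.polar_eq] using (μ.sl l).ad_e h ((Φ.T j).t w₀ x) ((Φ.T j).t f₀ y)
    · obtain ⟨v', k1, k2⟩ := h3 β hβ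
      exact mem_O_of_UG γ.two fun x y => mul_left_cancel₀ k1 (by simpa [pol] using k2 x y)
    obtain ⟨g, hg, k⟩ := μ.pm (.ofSubtype s) (.ofSubtype s')
    rw [← map_commutatorElement] at k
    have k1 : Cm (Φ.T j) g.toLinearMap := fun a => by
      have := k j a
      rw [Equiv.Perm.ofSubtype_apply_of_not_mem _ (by simp)] at this
      exact LinearMap.ext fun x => by simpa using LinearMap.congr_fun this (g x)
    obtain ⟨β, rfl⟩ := exists_kr_of_cm k1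
    refine ⟨β, ⟨_, h1 _ hg k1, by simp⟩, fun l a => km_inj (T := Φ.T j) ?_⟩
    rw [← e, ← Equiv.Perm.ofSubtype_apply_coe, ← k, e]
    exact (Φ.T j).ext' fun _ _ => by simp [TF.kr_inv]
  have c1 : Fintype.card {l // l ≠ j} = n + 1 := by simp [hn]
  by_cases hW : Res (Φ.T j) v C ≤ WG Φ'
  · refine .inl fun g hg m hm => ?_
    obtain ⟨β, k⟩ := exists_res hv (h2 g hg)
    obtain ⟨σ, hσ⟩ := hW ⟨g, hg, k⟩
    refine ⟨_, (σ ⟨m, hm⟩).2, fun w s hw hs => ?_⟩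
    obtain ⟨b, hb⟩ := (hσ ⟨m, hm⟩).conj_kr (eich q w s).1
    obtain ⟨c, hc, rfl⟩ := (μ'.sl _).exists_eich (hb ▸ μ'.le (mul_mem (mul_mem ⟨g, hg, k⟩
      ((μ'.sl _).ae_mem w s)) (inv_mem ⟨g, hg, k⟩))) (odd_char γ p) (by
        rw [← hb, conj_pow, show TF.kr _ _ _ ^ p = 1 from ae_pow p hw hs]; simp)
    refine ⟨c, hc, fun x hx => ?_⟩
    obtain ⟨u, rfl⟩ := (Φ.T j).mem_P1.1 hx
    have : g⁻¹ ((Φ.T j).t v u) = (Φ.T j).t v (β⁻¹ u) := g.injective (by simp [k])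
    rw [e2, ← hb, LinearEquiv.mul_apply, LinearEquiv.mul_apply, this, ae, e2 ⟨m, hm⟩, k]
    rfl
  have n0 : n ≠ 0 := fun e => hW fun g _ => le_WG_of_card (by omega) g
  have hΩ := (μ.ih _ _ _ Q' _ Φ' (by omega) μ' (fun l b hb => ⟨_, h1 _ (μ.rf.resolve_right (by omega)
    l b hb) ((Φ.T l).kr_coe b ▸ Φ.cm_e l.2.symm _), e2 l b⟩) (by rw [r1, hn]; rfl)).resolve_left hW
  obtain ⟨l⟩ : Nonempty {l // l ≠ j} := Fintype.card_pos_iff.1 (by omega)
  refine .inr ⟨μ.rf.resolve_right (by omega), l, l.2, fun w w0 hw => ?_⟩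
  obtain ⟨a, ha⟩ := exists_ne (0 : Fin (finrank F U ^ n) → F)
  obtain ⟨b, hb⟩ := exists_notMem (N := F ∙ a) (by
    have := finrank_span_le (F := F) a
    have := Nat.le_self_pow n0 (finrank F U)
    simp; omega)
  have z : ∀ a x, cw (Φ'.T l) q w x = 0 → polar Q' ((Φ'.T l).t w a) x = 0 := fun a x =>
    (μ'.cp l).B_eq_zero (TF.t_mem_P1 _ _ _)
  have z1 := fun a b => z a ((Φ'.T l).t w b) (by simp [polar_sing hw])
  have z2 : Q' ((Φ'.T l).t w a) = 0 := by simpa [polar_self', γ.two] using z1 a a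
  have z3 : Q' ((Φ'.T l).t w b) = 0 := by simpa [polar_self', γ.two] using z1 b b
  obtain ⟨g, hg, k⟩ := hΩ ⟨_, eich_mem_commutator nd (not_exc_of_two_ne_zero γ.two)
    ((Φ'.T l).t w a) ((Φ'.T l).t w b), rfl⟩
  simp only [Subgroup.subtype_apply, eich_apply z2 (z1 a b), z3, zero_mul, zero_smul, sub_zero] at k
  refine ⟨g, hg, fun x hx h => ?_, fun x hx => ?_, ?_⟩
  · obtain ⟨u, rfl⟩ := (Φ.T j).mem_P1.1 hx
    have : cw (Φ'.T l) q w u = 0 := (Φ'.T l).t_inj w0 ((Φ.T j).t_inj hv (by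
      rw [← e_r, ← e1, e_r, h]; simp))
    simp [k, z _ _ this]
  · obtain ⟨u, rfl⟩ := (Φ.T j).mem_P1.1 hx
    have : ∀ n : ℕ, (g ^ n) ((Φ.T j).t v u) = (Φ.T j).t v (u + (n : F) • (polar Q' ((Φ'.T l).t w b) u •
        (Φ'.T l).t w a - polar Q' ((Φ'.T l).t w a) u • (Φ'.T l).t w b)) := fun n => by
      induction n with
      | zero => simp
      | succ n ih =>
        rw [pow_succ', LinearEquiv.mul_apply, ih, k]
        simp only [polar_add_right, polar_smul_right', polar_sub_right, z1]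
        congr 1; push_cast; module
    simp [this]
  obtain ⟨y, e3, e4⟩ := (ef_polar nd).exists_perp_one (w := (Φ'.T l).t w a) (x := (Φ'.T l).t w b)
    (fun h => hb (by
      obtain ⟨c, hc⟩ := Submodule.mem_span_singleton.1 h
      exact Submodule.mem_span_singleton.2 ⟨c, (Φ'.T l).t_inj w0 (by simp [hc])⟩)) 1
  refine ⟨_, TF.t_mem_P1 _ v y, fun h => (Φ'.T l).t_ne_zero w0 ha ?_⟩
  simpa [show polar Q' _ y = 0 from e3, polar_comm Q' _ y, show polar Q' y _ = 1 from e4] using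
    (Φ.T j).t_inj hv ((k y).symm.trans h)

end Cfsg.Lib.TQ
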